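import Cfsg.Agent.OD.Pre
import Cfsg.Agent.L.RM
import Cfsg.Agent.H6.Top2
import Cfsg.Agent.OD.Leadx93db469573
/-! Permutation actions given by coset tables. -/
set_option autoImplicit false
open CfH6 MulAction Subgroup
namespace CfL

section chain
variable {G : Type*} [Group G] {X : Type*} [MulAction G X]

def fixL (G : Type*) [Group G] [MulAction G X] (bs : List X) : Subgroup G where
  carrier := {g | ∀ b ∈ bs, g • b = b}
  one_mem' := fun b _ => one_smul _ b
  mul_mem' := fun {g h} hg hh b hb => by rw [mul_smul, hh b hb, hg b hb]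
  inv_mem' := fun {g} hg b hb => by rw [inv_smul_eq_iff, hg b hb]

def Lw (K : Subgroup G) (bs : List X) (c : ℕ) : Prop :=
  ∀ L : Subgroup G, K ≤ L → c * Nat.card (L ⊓ fixL G bs : Subgroup G) ≤ Nat.card L

theorem card_orbit_mul (L : Subgroup G) (b : X) :
    Nat.card L = (orbit L b).ncard * Nat.card (L ⊓ stabilizer G b : Subgroup G) := by
  rw [← index_stabilizer, ← (stabilizer L b).index_mul_card]
  congr 1
  refine Nat.card_congr ⟨fun x => ⟨x.1.1, x.1.2, x.2⟩, fun x => ⟨⟨x.1, x.2.1⟩, x.2.2⟩, fun _ => rfl, fun _ => rfl⟩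

theorem orbit_mono {K L : Subgroup G} (h : K ≤ L) (b : X) : orbit K b ⊆ orbit L b :=
  fun _ ⟨g, hg⟩ => ⟨⟨g.1, h g.2⟩, hg⟩

variable [Finite G]

theorem Lw.nil (K : Subgroup G) : Lw K ([] : List X) 1 := fun L _ => by
  rw [one_mul]; exact card_le_of_le inf_le_left

theorem Lw.cons {K K' : Subgroup G} {bs : List X} {b : X} {c c0 : ℕ} (hle : K' ≤ K) (hfix : K' ≤ stabilizer G b)
    (horb : c0 ≤ (orbit K b).ncard) (h : Lw K' bs c) : Lw K (b :: bs) (c0 * c) := by
  intro L hL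
  have h1 := h (L ⊓ stabilizer G b) (le_inf (hle.trans hL) hfix)
  have e : (L ⊓ fixL G (b :: bs) : Subgroup G) = (L ⊓ stabilizer G b) ⊓ fixL G bs := by
    ext g
    simp only [mem_inf, mem_stabilizer_iff, fixL, Subgroup.mem_mk, Submonoid.mem_mk,
      Subsemigroup.mem_mk, Set.mem_ofPred_eq, List.forall_mem_cons, and_assoc]
  rw [e, card_orbit_mul L b, mul_assoc]
  exact Nat.mul_le_mul (horb.trans (Set.ncard_le_ncard (orbit_mono hL b) (Set.finite_range _))) h1

theorem Lw.top {K : Subgroup G} {bs : List X} {c : ℕ} (h : Lw K bs c) (hf : Nat.card G ≤ c) :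
    Nat.card G = c ∧ ∀ g : G, (∀ b ∈ bs, g • b = b) → g = 1 := by
  have h1 := h ⊤ le_top
  rw [card_top] at h1
  have h2 : 0 < Nat.card (⊤ ⊓ fixL G bs : Subgroup G) := Nat.card_pos
  have h0 : 0 < Nat.card G := Nat.card_pos
  refine ⟨by nlinarith, fun g hg => ?_⟩
  have h4 : (⊤ ⊓ fixL G bs : Subgroup G) = ⊥ := eq_bot_of_card_le _ (by nlinarith)
  have : g ∈ (⊤ ⊓ fixL G bs : Subgroup G) := ⟨trivial, hg⟩
  rwa [h4, mem_bot] at this

theorem Lw.ge {K : Subgroup G} {bs : List X} {c : ℕ} (h : Lw K bs c) : c ≤ Nat.card K := by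
  have h1 := h K le_rfl
  have h2 : 0 < Nat.card (K ⊓ fixL G bs : Subgroup G) := Nat.card_pos
  nlinarith

omit [Finite G] in
theorem ncard_fix_conj {a b : G} (h : IsConj a b) : {i : X | a • i = i}.ncard = {i : X | b • i = i}.ncard := by
  obtain ⟨g, rfl⟩ := isConj_iff.1 h
  refine Set.ncard_congr (fun i _ => g • i) (fun i hi => ?_) (fun i j _ _ e => smul_left_cancel g e)
    (fun j hj => ⟨g⁻¹ • j, ?_, smul_inv_smul g j⟩)
  · change (g * a * g⁻¹) • g • i = g • i
    rw [mul_smul, inv_smul_smul, mul_smul, show a • i = i from hi]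
  · have : (g * a * g⁻¹) • j = j := hj
    change a • g⁻¹ • j = g⁻¹ • j
    rw [eq_inv_smul_iff, ← mul_smul, ← mul_smul, this]

omit [Finite G] in
theorem normalizer_le_stab {S : Subgroup G} {b : X} (h1 : S ≤ stabilizer G b)
    (h2 : ∀ i : X, (∀ s ∈ S, s • i = i) → i = b) : normalizer (S : Set G) ≤ stabilizer G b := fun n hn =>
  h2 _ fun s hs => by
    have : (n⁻¹ * s * n) • b = b := h1 ((mem_normalizer_iff''.1 hn s).1 hs)
    rwa [mul_smul, mul_smul, inv_smul_eq_iff] at this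

omit [Finite G] in
theorem simple_of_prim [IsPretransitive G X] (b : X) (hne : ∃ c : X, c ≠ b)
    (hmax : ∀ L : Subgroup G, stabilizer G b ≤ L → L = stabilizer G b ∨ L = ⊤) {bs : List X}
    (hb : ∀ g : G, (∀ b ∈ bs, g • b = b) → g = 1)
    (hq : ∀ M : Subgroup G, M.Normal → M ⊔ stabilizer G b = ⊤ → M = ⊤) : IsSimpleGroup G := by
  have : Nontrivial G := by
    obtain ⟨c, hc⟩ := hne
    obtain ⟨g, hg⟩ := exists_smul_eq G b c
    exact ⟨g, 1, fun e => hc (by rw [← hg, e, one_smul])⟩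
  refine ⟨fun M hM => ?_⟩
  rcases hmax (M ⊔ stabilizer G b) le_sup_right with h | h
  · refine Or.inl (eq_bot_iff.2 fun x hx => hb x fun c _ => ?_)
    obtain ⟨g, rfl⟩ := exists_smul_eq G b c
    have := (le_sup_left.trans h.le) (hM.conj_mem' x hx g)
    rwa [mem_stabilizer_iff, mul_smul, mul_smul, inv_smul_eq_iff] at this
  · exact Or.inr (hq M hM h)
end chain

/-- a table whose columns are permutations satisfying the relators -/
structure Tab.Act (T : Tab) (il : List ℕ) (rels : List (List ℕ)) : Prop where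
  side : (rels.all (allLt T.nc) && allLt T.nc ((List.range T.nc).map fun x => il.getD x 0)) = true
  ok1 : T.ok1 il = true
  ok2 : T.ok2 rels = true

structure Rep (T : Tab) {G : Type*} [Group G] (ev : ℕ → G) where
  ρ : G →* Equiv.Perm {i // i < T.N}
  spec : ∀ x < T.nc, ∀ i, (ρ (ev x)⁻¹ i).1 = T.R x i.1

theorem Tab.Act.rep {T : Tab} {il : List ℕ} {rels : List (List ℕ)} (g : T.Act il rels) :
    Nonempty (Rep T (wel T.nc il rels)) := by
  have R_spec : ∀ {x i : ℕ}, x < T.nc → i < T.N → T.R x i < T.N ∧ T.R (il.getD x 0) (T.R x i) = i := by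
    intro x i hx hi
    have := g.ok1
    rw [Tab.ok1, Bool.and_eq_true, all1_iff] at this
    have := this.2 x hx
    rw [frc_eq, allN_iff] at this
    have := this i hi
    rw [frc_eq, Bool.and_eq_true] at this
    exact ⟨blt1 this.1, Nat.eq_of_beq_eq_true this.2⟩
  have hs := g.side
  rw [Bool.and_eq_true] at hs
  have il_lt : ∀ {x : ℕ}, x < T.nc → il.getD x 0 < T.nc := fun {x} hx =>
    allLt_sound hs.2 _ (List.mem_map.mpr ⟨x, List.mem_range.mpr hx, rfl⟩)
  let perm : ℕ → Equiv.Perm {i // i < T.N} := fun x =>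
    if hx : x < T.nc then Equiv.ofBijective (fun i => ⟨T.R x i.1, (R_spec hx i.2).1⟩)
      (Finite.injective_iff_bijective.1 fun i j e => Subtype.ext (by
        rw [← (R_spec hx i.2).2, ← (R_spec hx j.2).2]
        exact congrArg (fun k : {i // i < T.N} => T.R (il.getD x 0) k.1) e))
    else 1
  have pv : ∀ {x : ℕ}, x < T.nc → ∀ i, (perm x i).1 = T.R x i.1 := fun {x} hx i => by
    simp only [perm, dif_pos hx]; rfl
  have ew : ∀ w : List ℕ, (∀ x ∈ w, x < T.nc) → ∀ i, ((evw (fun x => (perm x)⁻¹) w)⁻¹ i).1 = T.trL w i.1 := by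
    intro w hw
    induction w with
    | nil => intro i; rfl
    | cons x w ih =>
      intro i
      rw [evw_cons, mul_inv_rev, inv_inv, Equiv.Perm.mul_apply, ih (fun y hy => hw y (List.mem_cons_of_mem _ hy)),
        pv (hw x List.mem_cons_self)]
      rfl
  obtain ⟨ρ, hρ⟩ := wp_hom T.nc il rels g.side (fun x => (perm x)⁻¹) (fun x hx => by
      congr 1
      refine eq_inv_of_mul_eq_one_left ?_
      ext i
      rw [Equiv.Perm.mul_apply, pv (il_lt hx), pv hx, (R_spec hx i.2).2]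
      rfl) (fun r hr => by
      rw [← inv_eq_one]
      ext i
      rw [ew r (allLt_all hs.1 r hr)]
      exact Nat.eq_of_beq_eq_true ((allN_iff _ _).1 (List.all_eq_true.1 g.ok2 r hr) i.1 i.2))
  exact ⟨ρ, fun x hx i => by rw [map_inv, hρ x hx, inv_inv, pv hx]⟩

/-- pull back along a homomorphism matching the letters -/
def Rep.comap {T : Tab} {G P : Type*} [Group G] [Group P] {ev : ℕ → G} {el : ℕ → P} (r : Rep T el) (ψ : G →* P)
    (h : ∀ x < T.nc, ψ (ev x) = el x) : Rep T ev :=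
  ⟨r.ρ.comp ψ, fun x hx i => by rw [MonoidHom.comp_apply, map_inv, h x hx, r.spec x hx]⟩

def Rep.Pt {T : Tab} {G : Type*} [Group G] {ev : ℕ → G} (_ : Rep T ev) : Type := {i // i < T.N}

/-- grow a set of points along a certificate of pairs (point, word number) -/
noncomputable def Tab.grow (T : Tab) (ws : List (List ℕ)) (m : ℕ) (n : ℕ) : ℕ → ℕ → ℕ :=
  Nat.rec (fun _ S => S) (fun _ ih c S => frc c fun c => frc S fun S => frc (Nat.land c T.mW) fun p =>
    Nat.rec 0 (fun _ _ => ih (Nat.shiftRight c (Nat.add T.W m)) (Nat.lor S (Nat.shiftLeft 1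
      (T.trL (lget ws [] (Nat.land (Nat.shiftRight c T.W) (Nat.pred (Nat.shiftLeft 1 m)))) p))))
      (Nat.land (Nat.shiftRight S p) 1)) n

noncomputable def Tab.growL (T : Tab) (ws : List (List ℕ)) (m : ℕ) (l : List (ℕ × ℕ)) : ℕ → ℕ :=
  List.rec (fun S => S) (fun c _ ih S => frc (T.grow ws m c.1 c.2 S) ih) l

theorem lget_mem {α : Type} (l : List α) (d : α) (i : ℕ) : lget l d i = d ∨ lget l d i ∈ l := by
  induction l generalizing i with
  | nil => exact Or.inl rfl
  | cons a l ih =>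
    cases i with
    | zero => exact Or.inr List.mem_cons_self
    | succ i => exact (ih i).imp id (List.mem_cons_of_mem _)

namespace Rep
variable {T : Tab} {G : Type*} [Group G] {ev : ℕ → G} (r : Rep T ev)

instance : MulAction G r.Pt := MulAction.compHom {i // i < T.N} r.ρ
instance : Finite r.Pt := inferInstanceAs (Finite {i // i < T.N})

def pt (i : ℕ) (h : Nat.blt i T.N = true := by rfl) : r.Pt := ⟨i, blt1 h⟩

theorem card_Pt : Nat.card r.Pt = T.N :=
  (Nat.card_congr (Fin.equivSubtype (n := T.N)).symm).trans (by simp)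

theorem word {w : List ℕ} (hw : ∀ x ∈ w, x < T.nc) (i : r.Pt) : ((evw ev w)⁻¹ • i).1 = T.trL w i.1 := by
  induction w generalizing i with
  | nil => simp [Tab.trL]
  | cons x w ih =>
    rw [evw_cons, mul_inv_rev, mul_smul, ih (fun y hy => hw y (List.mem_cons_of_mem _ hy))]
    exact congrArg (T.trL w) (r.spec x (hw x List.mem_cons_self) i)

theorem fix_iff {w : List ℕ} (hw : ∀ x ∈ w, x < T.nc) (i : r.Pt) : evw ev w • i = i ↔ T.trL w i.1 = i.1 := by
  rw [← r.word hw, eq_comm, ← inv_smul_eq_iff]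
  exact ⟨fun e => congrArg Subtype.val e, fun e => Subtype.ext e⟩

def Sub (S : ℕ) (A : Set r.Pt) : Prop := ∀ i, S.testBit i = true → ∃ a ∈ A, a.1 = i

theorem grow_sub {ws : List (List ℕ)} (hw : ws.all (allLt T.nc) = true) {A : Set r.Pt}
    (hA : ∀ w ∈ ws, ∀ a ∈ A, (evw ev w)⁻¹ • a ∈ A) (m n : ℕ) : ∀ c S, r.Sub S A → r.Sub (T.grow ws m n c S) A := by
  induction n with
  | zero => intro c S h; exact h
  | succ n ih =>
    intro c S h
    have e : T.grow ws m (n + 1) c S = (Nat.rec 0 (fun _ _ => T.grow ws m n (Nat.shiftRight c (Nat.add T.W m))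
      (Nat.lor S (Nat.shiftLeft 1 (T.trL (lget ws [] (Nat.land (Nat.shiftRight c T.W) (Nat.pred (Nat.shiftLeft 1 m))))
        (Nat.land c T.mW))))) (Nat.land (Nat.shiftRight S (Nat.land c T.mW)) 1) : ℕ) := by
      simp only [Tab.grow, frc_eq]
    rw [e]
    cases hb : Nat.land (Nat.shiftRight S (Nat.land c T.mW)) 1 with
    | zero => intro i hi; simp at hi
    | succ k =>
      refine ih _ _ fun i hi => ?_
      change Nat.testBit (S ||| _) i = true at hi
      rw [Nat.testBit_or, Bool.or_eq_true] at hi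
      rcases hi with hi | hi
      · exact h i hi
      · obtain ⟨a, ha, e⟩ := h (Nat.land c T.mW) (by
          rw [Nat.testBit, Nat.and_comm]
          change (Nat.land (Nat.shiftRight S _) 1 != 0) = true
          rw [hb]; rfl)
        rw [← bit_one hi, ← e]
        rcases lget_mem ws [] (Nat.land (Nat.shiftRight c T.W) (Nat.pred (Nat.shiftLeft 1 m))) with h1 | h1
        · rw [h1]; exact ⟨a, ha, rfl⟩
        · exact ⟨_, hA _ h1 a ha, r.word (allLt_all hw _ h1) a⟩

theorem growL_sub {ws : List (List ℕ)} (hw : ws.all (allLt T.nc) = true) {A : Set r.Pt}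
    (hA : ∀ w ∈ ws, ∀ a ∈ A, (evw ev w)⁻¹ • a ∈ A) (m : ℕ) (l : List (ℕ × ℕ)) :
    ∀ S, r.Sub S A → r.Sub (T.growL ws m l S) A := by
  induction l with
  | nil => intro S h; exact h
  | cons c l ih =>
    intro S h
    have e : T.growL ws m (c :: l) S = T.growL ws m l (T.grow ws m c.1 c.2 S) := frc_eq _ _
    rw [e]
    exact ih _ (r.grow_sub hw hA m _ _ _ h)

theorem Sub.one {A : Set r.Pt} {b : r.Pt} (h : b ∈ A) : r.Sub (Nat.shiftLeft 1 b.1) A :=
  fun _ hi => ⟨b, h, bit_one hi⟩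

theorem Sub.ge {S : ℕ} {A : Set r.Pt} (h : r.Sub S A) {c d : ℕ} (hc : Nat.ble c (popc d S) = true) : c ≤ A.ncard := by
  refine (Nat.le_of_ble_eq_true hc).trans ?_
  rw [popc_eq, ← Set.ncard_coe_finset, ← Set.ncard_image_of_injective A Subtype.val_injective]
  exact Set.ncard_le_ncard (fun i hi => h i (Finset.mem_filter.1 hi).2) ((Set.toFinite A).image _)

theorem Sub.all {S : ℕ} {A : Set r.Pt} (h : r.Sub S A) (hc : Nat.beq (Nat.succ S) (Nat.shiftLeft 1 T.N) = true)
    (i : r.Pt) : i ∈ A := by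
  obtain ⟨a, ha, e⟩ := h i.1 (by
    rw [show S = Nat.pred (Nat.shiftLeft 1 T.N) by rw [← Nat.eq_of_beq_eq_true hc]; rfl, testBit_mask]
    exact decide_eq_true i.2)
  exact Subtype.ext e ▸ ha

theorem orb_sub {K : Subgroup G} {ws : List (List ℕ)} (hw : ws.all (allLt T.nc) = true) (hK : ∀ w ∈ ws, evw ev w ∈ K)
    (b : r.Pt) (m : ℕ) (l : List (ℕ × ℕ)) : r.Sub (T.growL ws m l (Nat.shiftLeft 1 b.1)) (orbit K b) :=
  r.growL_sub hw (fun w h _ ha => mem_orbit_of_mem_orbit (⟨_, hK w h⟩ : K)⁻¹ ha) m l _ (Sub.one r (mem_orbit_self b))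

theorem orb_ge {K : Subgroup G} {ws : List (List ℕ)} (hK : ∀ w ∈ ws, evw ev w ∈ K) (b : r.Pt) (m : ℕ)
    (l : List (ℕ × ℕ)) (c d : ℕ)
    (h : (ws.all (allLt T.nc) && Nat.ble c (popc d (T.growL ws m l (Nat.shiftLeft 1 b.1)))) = true) :
    c ≤ (orbit K b).ncard := by
  rw [Bool.and_eq_true] at h
  exact (r.orb_sub h.1 hK b m l).ge r h.2

theorem orb_all {K : Subgroup G} {ws : List (List ℕ)} (hK : ∀ w ∈ ws, evw ev w ∈ K) (b : r.Pt) (m : ℕ)
    (l : List (ℕ × ℕ))
    (h : (ws.all (allLt T.nc) && Nat.beq (Nat.succ (T.growL ws m l (Nat.shiftLeft 1 b.1))) (Nat.shiftLeft 1 T.N)) = true)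
    (i : r.Pt) : i ∈ orbit K b := by
  rw [Bool.and_eq_true] at h
  exact (r.orb_sub h.1 hK b m l).all r h.2 i

theorem trans (ws : List (List ℕ)) (b : r.Pt) (m : ℕ) (l : List (ℕ × ℕ))
    (h : (ws.all (allLt T.nc) && Nat.beq (Nat.succ (T.growL ws m l (Nat.shiftLeft 1 b.1))) (Nat.shiftLeft 1 T.N)) = true) :
    IsPretransitive G r.Pt := by
  have := r.orb_all (K := ⊤) (fun _ _ => trivial) b m l h
  refine ⟨fun i j => ?_⟩
  obtain ⟨g, rfl⟩ := this i
  obtain ⟨k, rfl⟩ := this j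
  exact ⟨k * g⁻¹, by change (k.1 * g.1⁻¹) • g.1 • b = k.1 • b; rw [mul_smul, inv_smul_smul]⟩

theorem index_stab [IsPretransitive G r.Pt] (b : r.Pt) : (stabilizer G b).index = T.N := by
  rw [index_stabilizer_of_transitive, r.card_Pt]

theorem mem_stab (w : List ℕ) (b : r.Pt) (h : (allLt T.nc w && Nat.beq (T.trL w b.1) b.1) = true) :
    evw ev w ∈ stabilizer G b := by
  rw [Bool.and_eq_true] at h
  exact (r.fix_iff (allLt_sound h.1) b).2 (Nat.eq_of_beq_eq_true h.2)

theorem words_stab (ws : List (List ℕ)) (b : r.Pt)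
    (h : (ws.all fun w => allLt T.nc w && Nat.beq (T.trL w b.1) b.1) = true) : ∀ w ∈ ws, evw ev w ∈ stabilizer G b :=
  fun w hw => r.mem_stab w b (List.all_eq_true.1 h w hw)

theorem ne_one (w : List ℕ) (b : r.Pt) (h : (allLt T.nc w && !Nat.beq (T.trL w b.1) b.1) = true) : evw ev w ≠ 1 := by
  rw [Bool.and_eq_true] at h
  intro e
  have := (r.fix_iff (allLt_sound h.1) b).1 (by rw [e, one_smul])
  rw [this, Nat.beq_refl] at h
  exact absurd h.2 (by decide)

theorem words_one {bs : List r.Pt} (hb : ∀ g : G, (∀ b ∈ bs, g • b = b) → g = 1) (ws : List (List ℕ))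
    (h : (ws.all fun w => allLt T.nc w && bs.all fun b => Nat.beq (T.trL w b.1) b.1) = true) :
    ∀ w ∈ ws, evw ev w = 1 := fun w hw => by
  have := List.all_eq_true.1 h w hw
  rw [Bool.and_eq_true] at this
  exact hb _ fun b hb' => (r.fix_iff (allLt_sound this.1) b).2
    (Nat.eq_of_beq_eq_true (List.all_eq_true.1 this.2 b hb'))

theorem ncard_fix (w : List ℕ) (c : ℕ)
    (h : (allLt T.nc w && Nat.beq (cntN (fun i => Nat.beq (T.trL w i) i) T.N) c) = true) :
    {i : r.Pt | evw ev w • i = i}.ncard = c := by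
  rw [Bool.and_eq_true] at h
  rw [← Nat.eq_of_beq_eq_true h.2, cntN_eq]
  refine (Set.ncard_image_of_injective _ (f := fun i : r.Pt => i.1) Subtype.val_injective).symm.trans ?_
  congr 1
  ext i
  constructor
  · rintro ⟨a, ha, rfl⟩
    exact ⟨a.2, by rw [(r.fix_iff (allLt_sound h.1) a).1 ha, Nat.beq_refl]⟩
  · rintro ⟨h1, h2⟩
    exact ⟨⟨i, h1⟩, (r.fix_iff (allLt_sound h.1) _).2 (Nat.eq_of_beq_eq_true h2), rfl⟩

theorem only_fix {S : Subgroup G} {ws : List (List ℕ)} (hS : ∀ w ∈ ws, evw ev w ∈ S) (b : r.Pt)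
    (h : (ws.all (allLt T.nc) && allN (fun i => Nat.beq i b.1 || ws.any fun w => !Nat.beq (T.trL w i) i) T.N) = true)
    (i : r.Pt) (hi : ∀ s ∈ S, s • i = i) : i = b := by
  rw [Bool.and_eq_true, allN_iff] at h
  have := h.2 i.1 i.2
  rw [Bool.or_eq_true] at this
  rcases this with e | e
  · exact Subtype.ext (Nat.eq_of_beq_eq_true e)
  · obtain ⟨w, hw, e⟩ := List.any_eq_true.1 e
    rw [(r.fix_iff (allLt_all h.1 w hw) i).1 (hi _ (hS w hw)), Nat.beq_refl] at e
    exact absurd e (by decide)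

/-- maximality of the stabiliser from suborbit representatives -/
theorem coatom [IsPretransitive G r.Pt] (b : r.Pt) {ws : List (List ℕ)} (hK : ∀ w ∈ ws, evw ev w ∈ stabilizer G b)
    (us : List (List ℕ)) (hu : ∀ u ∈ us, ∀ L : Subgroup G, stabilizer G b ≤ L → evw ev u ∈ L → ∀ i, i ∈ orbit L b)
    (m : ℕ) (l : List (ℕ × ℕ))
    (h : (ws.all (allLt T.nc) && us.all (allLt T.nc) && Nat.beq (Nat.succ (Nat.lor (Nat.shiftLeft 1 b.1) (T.growL ws m l
      (us.foldr (fun u S => Nat.lor S (Nat.shiftLeft 1 (T.trL u b.1))) 0)))) (Nat.shiftLeft 1 T.N)) = true)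
    (L : Subgroup G) (hL : stabilizer G b ≤ L) : L = stabilizer G b ∨ L = ⊤ := by
  simp only [Bool.and_eq_true] at h
  let A : Set r.Pt := {i | ∃ u ∈ us, i ∈ orbit (stabilizer G b) ((evw ev u)⁻¹ • b)}
  have h0 : ∀ vs : List (List ℕ), (∀ u ∈ vs, u ∈ us) →
      r.Sub (vs.foldr (fun u S => Nat.lor S (Nat.shiftLeft 1 (T.trL u b.1))) 0) A := by
    intro vs
    induction vs with
    | nil => intro _ i hi; simp at hi
    | cons v vs ih =>
      intro hv i hi
      change Nat.testBit (_ ||| _) i = true at hi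
      rw [Nat.testBit_or, Bool.or_eq_true] at hi
      rcases hi with hi | hi
      · exact ih (fun u hu => hv u (List.mem_cons_of_mem _ hu)) i hi
      · have := hv v List.mem_cons_self
        exact ⟨_, ⟨v, this, mem_orbit_self _⟩, by rw [r.word (allLt_all h.1.2 v this), bit_one hi]⟩
  have h1 := r.growL_sub h.1.1 (A := A) (fun w hw a ⟨u, hu, ha⟩ =>
    ⟨u, hu, mem_orbit_of_mem_orbit (⟨_, hK w hw⟩ : stabilizer G b)⁻¹ ha⟩) m l _ (h0 us fun _ h => h)
  have h2 : r.Sub (Nat.lor (Nat.shiftLeft 1 b.1) (T.growL ws m l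
      (us.foldr (fun u S => Nat.lor S (Nat.shiftLeft 1 (T.trL u b.1))) 0))) (insert b A) := fun i hi => by
    change Nat.testBit (_ ||| _) i = true at hi
    rw [Nat.testBit_or, Bool.or_eq_true] at hi
    rcases hi with hi | hi
    · exact ⟨b, Or.inl rfl, bit_one hi⟩
    · obtain ⟨a, ha, e⟩ := h1 i hi
      exact ⟨a, Or.inr ha, e⟩
  by_cases hc : L ≤ stabilizer G b
  · exact Or.inl (le_antisymm hc hL)
  obtain ⟨g, hg, hn⟩ := SetLike.not_le_iff_exists.mp hc
  rcases h2.all r h.2 (g • b) with e | ⟨u, hu', k, e⟩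
  · exact absurd e hn
  · have e' : (g⁻¹ * k * (evw ev u)⁻¹) • b = b := by
      rw [mul_smul, mul_smul, inv_smul_eq_iff]; exact e
    have h3 : evw ev u ∈ L := by
      have := mul_mem (inv_mem (mul_mem (inv_mem hg) (hL k.2))) (hL e')
      simpa [mul_assoc] using this
    refine Or.inr (eq_top_iff.2 fun x _ => ?_)
    obtain ⟨y, hy⟩ := hu u hu' L hL h3 (x • b)
    have : ((y : G)⁻¹ * x) • b = b := by rw [mul_smul, inv_smul_eq_iff]; exact hy.symm
    simpa using mul_mem y.2 (hL this)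

end Rep
end CfL
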