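import Cfsg.Agent.OD.Pre
import Cfsg.Agent.L.CA
/-! Invariant point sets and automorphisms of graphs carried by coset tables. -/
set_option autoImplicit false
open CfH6 MulAction Subgroup
namespace CfL

/-- a finite submonoid as a subgroup -/
def subOf {G : Type*} [Group G] [Finite G] (p : G → Prop) (h1 : p 1) (hm : ∀ a b, p a → p b → p (a * b)) :
    Subgroup G where
  carrier := {g | p g}
  one_mem' := h1
  mul_mem' := fun {a b} ha hb => hm a b ha hb
  inv_mem' := fun {a} ha => by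
    have hp : ∀ n : ℕ, p (a ^ n) := fun n => by
      induction n with
      | zero => simpa using h1
      | succ n ih => rw [pow_succ]; exact hm _ _ ih ha
    have e : a⁻¹ = a ^ (orderOf a - 1) := by
      refine inv_eq_of_mul_eq_one_right ?_
      rw [← pow_succ', Nat.sub_add_cancel (orderOf_pos a), pow_orderOf_eq_one]
    change p a⁻¹
    rw [e]; exact hp _

/-- row `i` of a packed `n × n` bit matrix -/
noncomputable def rowM (A n i : ℕ) : ℕ := Nat.land (Nat.shiftRight A (Nat.mul n i)) (Nat.pred (Nat.shiftLeft 1 n))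

noncomputable def bitN (S i : ℕ) : Bool := Nat.beq (Nat.land (Nat.shiftRight S i) 1) 1

theorem bitN_eq (S i : ℕ) : bitN S i = S.testBit i := by
  change Nat.beq ((S >>> i) &&& 1) 1 = _
  rw [Nat.testBit, Nat.and_comm 1, Nat.and_one_is_mod]
  rcases Nat.mod_two_eq_zero_or_one (S >>> i) with h | h <;> rw [h] <;> rfl

/-- the word `w` keeps the first `n` points and their adjacency -/
noncomputable def Tab.presW (T : Tab) (A n : ℕ) (w : List ℕ) : Bool :=
  allLt T.nc w && allN (fun i => frc (T.trL w i) fun i' => frc (rowM A n i) fun S => frc (rowM A n i') fun S' =>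
    Nat.blt i' n && allN (fun j => !bitN S j || bitN S' (T.trL w j)) n) n

/-- candidates for the image of `p` when the points of `bs` are fixed -/
noncomputable def cand (A n p : ℕ) (bs : List ℕ) : ℕ :=
  List.rec (Nat.pred (Nat.shiftLeft 1 n)) (fun b _ ih => frc ih fun S => frc (rowM A n b) fun R =>
    Nat.land (Nat.xor (Nat.pred (Nat.shiftLeft 1 n)) (Nat.shiftLeft 1 b))
      (Bool.rec S (Nat.land S R) (bitN R p))) bs

structure Stp where
  p : ℕ
  ws : List (List ℕ)
  m : ℕ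
  l : List (ℕ × ℕ)

noncomputable def Tab.stpOk (T : Tab) (A n : ℕ) (σ : List (List ℕ)) (s : Stp) (bs : List ℕ) : Bool :=
  Nat.blt s.p n && bs.all (fun b => !Nat.beq b s.p) && (s.ws.map (subst σ)).all (allLt T.nc) &&
    (s.ws.map (subst σ)).all (fun w => bs.all fun b => Nat.beq (T.trL w b) b) &&
    frc (cand A n s.p bs) fun C =>
      Nat.beq (Nat.land C (T.growL (s.ws.map (subst σ)) s.m s.l (Nat.shiftLeft 1 s.p))) C

noncomputable def Tab.stps (T : Tab) (A n : ℕ) (σ : List (List ℕ)) (l : List Stp) : List ℕ → Bool :=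
  List.rec (fun bs => allN (fun i => bs.any fun b => Nat.beq b i) n)
    (fun s _ ih bs => T.stpOk A n σ s bs && ih (s.p :: bs)) l

/-- a stabiliser chain: each step has its orbit length as a lower bound -/
noncomputable def Tab.chn (T : Tab) (σ : List (List ℕ)) (d : ℕ) (l : List (Stp × ℕ)) : List ℕ → Bool :=
  List.rec (fun _ => true) (fun s _ ih bs => Nat.blt s.1.p T.N && (s.1.ws.map (subst σ)).all (allLt T.nc) &&
    (s.1.ws.map (subst σ)).all (fun w => bs.all fun b => Nat.beq (T.trL w b) b) &&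
    Nat.ble s.2 (popc d (T.growL (s.1.ws.map (subst σ)) s.1.m s.1.l (Nat.shiftLeft 1 s.1.p))) && ih (s.1.p :: bs)) l

theorem evw_sub {G : Type*} [Group G] {ev : ℕ → G} {K : Subgroup G} {σ : List (List ℕ)} (hw : ∀ y, byW ev σ y ∈ K)
    (v : List ℕ) : evw ev (subst σ v) ∈ K := by
  rw [evw_subst]
  exact evw_mem (k := v.sum + 1) (fun x _ => hw x) fun x hx => Nat.lt_succ_of_le (List.le_sum_of_mem hx)

theorem byW_mem {G : Type*} [Group G] {ev : ℕ → G} {K : Subgroup G} {σ : List (List ℕ)} (h : ∀ w ∈ σ, evw ev w ∈ K)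
    (y : ℕ) : byW ev σ y ∈ K := by
  by_cases hy : y < σ.length
  · rw [byW, List.getD_eq_getElem _ _ hy]; exact h _ (List.getElem_mem hy)
  · rw [byW, List.getD_eq_default _ _ (not_lt.1 hy)]; exact K.one_mem

theorem byW_gen {G : Type*} [Group G] (ev : ℕ → G) (σ : List (List ℕ)) (y : ℕ) :
    byW ev σ y ∈ gensub (byW ev σ) σ.length := by
  by_cases hy : y < σ.length
  · exact mem_gensub hy
  · rw [byW, List.getD_eq_default _ _ (not_lt.1 hy)]; exact Subgroup.one_mem _

theorem gen_le {G : Type*} [Group G] {ev : ℕ → G} {K : Subgroup G} {σ : List (List ℕ)} (h : ∀ w ∈ σ, evw ev w ∈ K)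
    (k : ℕ) : gensub (byW ev σ) k ≤ K := gensub_le fun y _ => byW_mem h y

namespace Rep
variable {T : Tab} {G : Type*} [Group G] {ev : ℕ → G} (r : Rep T ev)

def Fx (bs : List ℕ) : Subgroup G where
  carrier := {g | ∀ i : r.Pt, i.1 ∈ bs → g • i = i}
  one_mem' := fun i _ => one_smul _ i
  mul_mem' := fun {a b} ha hb i h => by rw [mul_smul, hb i h, ha i h]
  inv_mem' := fun {a} ha i h => by rw [inv_smul_eq_iff, ha i h]

theorem mem_Fx {bs : List ℕ} {g : G} : g ∈ r.Fx bs ↔ ∀ i : r.Pt, i.1 ∈ bs → g • i = i := Iff.rfl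

theorem word_Fx {bs w : List ℕ} (h1 : ∀ x ∈ w, x < T.nc) (h : (bs.all fun b => Nat.beq (T.trL w b) b) = true) :
    evw ev w ∈ r.Fx bs := fun i hi => (r.fix_iff h1 i).2 (Nat.eq_of_beq_eq_true (List.all_eq_true.1 h _ hi))

theorem chain [Finite G] {K : Subgroup G} {σ : List (List ℕ)} (hw : ∀ y, byW ev σ y ∈ K) (d : ℕ)
    (l : List (Stp × ℕ)) : ∀ bs : List ℕ, T.chn σ d l bs = true → ∀ L : Subgroup G, K ⊓ r.Fx bs ≤ L →
      (l.map Prod.snd).prod * Nat.card (L ⊓ r.Fx (l.map fun s => s.1.p) : Subgroup G) ≤ Nat.card L := by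
  induction l with
  | nil => intro bs _ L _; simpa using card_le_of_le (inf_le_left : L ⊓ _ ≤ L)
  | cons s l ih =>
    intro bs h L hL
    have h : (Nat.blt s.1.p T.N && (s.1.ws.map (subst σ)).all (allLt T.nc) &&
      (s.1.ws.map (subst σ)).all (fun w => bs.all fun b => Nat.beq (T.trL w b) b) &&
      Nat.ble s.2 (popc d (T.growL (s.1.ws.map (subst σ)) s.1.m s.1.l (Nat.shiftLeft 1 s.1.p))) &&
      T.chn σ d l (s.1.p :: bs)) = true := h
    simp only [Bool.and_eq_true] at h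
    obtain ⟨⟨⟨⟨h1, h2⟩, h3⟩, h4⟩, h5⟩ := h
    let p : r.Pt := ⟨s.1.p, blt1 h1⟩
    have h6 := ih _ h5 (L ⊓ stabilizer G p) fun g hg =>
      ⟨hL ⟨hg.1, fun i hi => hg.2 i (List.mem_cons_of_mem _ hi)⟩, hg.2 p List.mem_cons_self⟩
    have h7 := r.orb_ge (K := L) (ws := s.1.ws.map (subst σ)) (fun w hw' => hL ⟨by
      obtain ⟨v, -, rfl⟩ := List.mem_map.1 hw'
      exact evw_sub hw v, r.word_Fx (allLt_all h2 w hw') (List.all_eq_true.1 h3 w hw')⟩) p s.1.m s.1.l s.2 d
      (by rw [h2]; exact h4)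
    have e : (L ⊓ r.Fx ((s :: l).map fun s => s.1.p) : Subgroup G) =
        (L ⊓ stabilizer G p) ⊓ r.Fx (l.map fun s => s.1.p) := by
      ext g
      simp only [mem_inf, mem_stabilizer_iff, mem_Fx, List.map_cons, List.mem_cons, and_assoc]
      refine and_congr_right fun _ => ⟨fun h => ⟨h p (Or.inl rfl), fun i hi => h i (Or.inr hi)⟩, fun h i hi => ?_⟩
      rcases hi with hi | hi
      · rw [show i = p from Subtype.ext hi, h.1]
      · exact h.2 i hi
    rw [e, card_orbit_mul L p, List.map_cons, List.prod_cons, mul_assoc]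
    exact Nat.mul_le_mul h7 h6

include r in
theorem chain_ge [Finite G] {K : Subgroup G} {σ : List (List ℕ)} (hw : ∀ y, byW ev σ y ∈ K) (d : ℕ)
    (l : List (Stp × ℕ)) (h : T.chn σ d l [] = true) : (l.map Prod.snd).prod ≤ Nat.card K := by
  have h1 := r.chain hw d l [] h K inf_le_left
  have h2 : 0 < Nat.card (K ⊓ r.Fx (l.map fun s => s.1.p) : Subgroup G) := Nat.card_pos
  nlinarith

theorem chain_base [Finite G] {K : Subgroup G} {σ : List (List ℕ)} (hw : ∀ y, byW ev σ y ∈ K) (d : ℕ)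
    (l : List (Stp × ℕ)) (h : T.chn σ d l [] = true) (hc : Nat.card K ≤ (l.map Prod.snd).prod) :
    ∀ g ∈ K, g ∈ r.Fx (l.map fun s => s.1.p) → g = 1 := by
  have h1 := r.chain hw d l [] h K inf_le_left
  have h2 : 0 < Nat.card (K ⊓ r.Fx (l.map fun s => s.1.p) : Subgroup G) := Nat.card_pos
  have h0 : 0 < Nat.card K := Nat.card_pos
  have h4 : (K ⊓ r.Fx (l.map fun s => s.1.p) : Subgroup G) = ⊥ := eq_bot_of_card_le _ (by nlinarith)
  intro g h5 h6
  have : g ∈ (K ⊓ r.Fx (l.map fun s => s.1.p) : Subgroup G) := ⟨h5, h6⟩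
  rwa [h4, mem_bot] at this

theorem wone {bs : List ℕ} (hb : ∀ g ∈ r.Fx bs, g = 1) (ws : List (List ℕ))
    (h : (ws.all fun w => allLt T.nc w && bs.all fun b => Nat.beq (T.trL w b) b) = true) :
    ∀ w ∈ ws, evw ev w = 1 := fun w hw => by
  have := List.all_eq_true.1 h w hw
  rw [Bool.and_eq_true] at this
  exact hb _ (r.word_Fx (allLt_sound this.1) this.2)

theorem dvd_order (w : List ℕ) (b : r.Pt) {p : ℕ} (hp : p.Prime)
    (h : (allLt T.nc w && Nat.beq (T.trL (wpow w p) b.1) b.1 && !Nat.beq (T.trL w b.1) b.1) = true) :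
    p ∣ orderOf (evw ev w) := by
  simp only [Bool.and_eq_true] at h
  have h1 : evw ev w ^ p • b = b := by
    rw [← evw_wpow]
    refine (r.fix_iff (fun x hx => ?_) b).2 (Nat.eq_of_beq_eq_true h.1.2)
    obtain ⟨v, hv, hx⟩ := List.mem_flatten.1 hx
    rw [List.eq_of_mem_replicate hv] at hx
    exact allLt_sound h.1.1 x hx
  rcases (Nat.dvd_prime hp).1 (pow_smul_eq_iff_period_dvd.1 h1) with e | e
  · have := (r.fix_iff (allLt_sound h.1.1) b).1 (period_eq_one_iff.1 e)
    rw [this, Nat.beq_refl] at h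
    exact absurd h.2 (by decide)
  · rw [← e]; exact period_dvd_orderOf _ _

theorem closed [Finite G] (p : ℕ → Bool) (ws : List (List ℕ))
    (h : (ws.all (allLt T.nc) && allN (fun i => !p i || ws.all fun w => p (T.trL w i)) T.N) = true)
    {g : G} (hg : g ∈ gensub (byW ev ws) ws.length) (i : r.Pt) (hi : p i.1 = true) : p (g • i).1 = true := by
  rw [Bool.and_eq_true, allN_iff] at h
  let K : Subgroup G := subOf (fun g => ∀ i : r.Pt, p i.1 = true → p (g • i).1 = true)
    (fun i hi => by rwa [one_smul]) (fun a b ha hb i hi => by rw [mul_smul]; exact ha _ (hb i hi))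
  have : gensub (byW ev ws) ws.length ≤ K := gensub_le fun x hx => by
    rw [← K.inv_mem_iff]
    intro i hi
    have hm : ws.getD x [] ∈ ws := by rw [List.getD_eq_getElem _ _ hx]; exact List.getElem_mem hx
    rw [byW, r.word (allLt_all h.1 _ hm)]
    have := h.2 i.1 i.2
    rw [hi] at this
    have h2 : (ws.all fun w => p (T.trL w i.1)) = true := this
    exact List.all_eq_true.1 h2 _ hm
  exact this hg i hi

theorem ncard_le (p : ℕ → Bool) {A : Set r.Pt} (hA : ∀ i ∈ A, p i.1 = true) (c : ℕ)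
    (h : Nat.ble (cntN p T.N) c = true) : A.ncard ≤ c := by
  refine le_trans ?_ (Nat.le_of_ble_eq_true h)
  rw [cntN_eq, ← Set.ncard_image_of_injective A Subtype.val_injective]
  refine Set.ncard_le_ncard ?_ ((Set.finite_lt_nat T.N).subset fun _ h => h.1)
  rintro _ ⟨i, hi, rfl⟩
  exact ⟨i.2, hA i hi⟩

/-- maps of the points that keep the first `n` points and their adjacency -/
def GHom (A n : ℕ) (σ : r.Pt → r.Pt) : Prop :=
  ∀ i : r.Pt, i.1 < n → (σ i).1 < n ∧ ∀ j : r.Pt, j.1 < n → (rowM A n i.1).testBit j.1 = true →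
    (rowM A n (σ i).1).testBit (σ j).1 = true

def Pres [Finite G] (A n : ℕ) : Subgroup G :=
  subOf (fun g => r.GHom A n fun i => g • i) (fun i hi => by simpa using hi) fun a b ha hb i hi => by
    simp only [mul_smul]
    exact ⟨(ha _ (hb i hi).1).1, fun j hj e => (ha _ (hb i hi).1).2 _ (hb j hj).1 ((hb i hi).2 j hj e)⟩

theorem mem_Pres [Finite G] {A n : ℕ} {g : G} : g ∈ r.Pres A n ↔ r.GHom A n fun i => g • i := Iff.rfl

theorem pres_word [Finite G] (A n : ℕ) (w : List ℕ) (h : T.presW A n w = true) : evw ev w ∈ r.Pres A n := by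
  rw [← Subgroup.inv_mem_iff, mem_Pres]
  rw [Tab.presW, Bool.and_eq_true, allN_iff] at h
  intro i hi
  have h1 := h.2 i.1 hi
  simp only [frc_eq, Bool.and_eq_true, allN_iff] at h1
  simp only [r.word (allLt_sound h.1)]
  refine ⟨blt1 h1.1, fun j hj e => ?_⟩
  have := h1.2 j.1 hj
  rw [bitN_eq, bitN_eq, e] at this
  simpa using this

theorem mem_cand {A n : ℕ} {σ : r.Pt → r.Pt} (hσ : r.GHom A n σ)
    (hi : ∀ i j : r.Pt, i.1 < n → j.1 < n → σ i = σ j → i = j) (hn : n ≤ T.N) (p : r.Pt) (hp : p.1 < n) (bs : List ℕ)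
    (hb : ∀ b ∈ bs, b < n ∧ b ≠ p.1) (hf : ∀ i : r.Pt, i.1 ∈ bs → σ i = i) :
    (cand A n p.1 bs).testBit (σ p).1 = true := by
  induction bs with
  | nil => exact (testBit_mask _ _).trans (decide_eq_true (hσ p hp).1)
  | cons b bs ih =>
    have ih := ih (fun c hc => hb c (List.mem_cons_of_mem _ hc)) fun i h => hf i (List.mem_cons_of_mem _ h)
    obtain ⟨b1, b2⟩ := hb b List.mem_cons_self
    let q : r.Pt := ⟨b, b1.trans_le hn⟩
    have hq : σ q = q := hf q List.mem_cons_self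
    have e : cand A n p.1 (b :: bs) = (Nat.pred (Nat.shiftLeft 1 n) ^^^ Nat.shiftLeft 1 b) &&&
        (Bool.rec (cand A n p.1 bs) (cand A n p.1 bs &&& rowM A n b) (bitN (rowM A n b) p.1) : ℕ) := by
      simp only [cand, frc_eq]; rfl
    rw [e, Nat.testBit_and, Nat.testBit_xor, testBit_mask, decide_eq_true (hσ p hp).1]
    have h1 : (Nat.shiftLeft 1 b).testBit (σ p).1 = false := by
      by_contra hc
      have := bit_one (Bool.not_eq_false _ ▸ hc)
      exact b2 (congrArg Subtype.val (hi q p b1 hp (hq.trans (Subtype.ext this))))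
    rw [h1]
    cases hb' : bitN (rowM A n b) p.1 with
    | false => simpa using ih
    | true =>
      rw [bitN_eq] at hb'
      have := (hσ q b1).2 p hp hb'
      rw [hq] at this
      change ((true ^^ false) && (cand A n p.1 bs &&& rowM A n b).testBit (σ p).1) = true
      rw [Nat.testBit_and, ih]
      exact this

/-- every injective adjacency-preserving map fixing `bs` is induced by the subgroup `K` -/
theorem aut_le [Finite G] {A n : ℕ} (hn : n ≤ T.N) {K : Subgroup G} (hK : K ≤ r.Pres A n) (σw : List (List ℕ))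
    (hw : ∀ y, byW ev σw y ∈ K) (l : List Stp) : ∀ bs : List ℕ, (∀ b ∈ bs, b < n) → T.stps A n σw l bs = true →
      ∀ σ : r.Pt → r.Pt, r.GHom A n σ → (∀ i j : r.Pt, i.1 < n → j.1 < n → σ i = σ j → i = j) →
        (∀ i : r.Pt, i.1 ∈ bs → σ i = i) → ∃ k ∈ K, ∀ i : r.Pt, i.1 < n → σ i = k • i := by
  induction l with
  | nil =>
    intro bs _ h σ _ _ hf
    refine ⟨1, K.one_mem, fun i hi => ?_⟩
    obtain ⟨b, hb, e⟩ := List.any_eq_true.1 ((allN_iff _ _).1 h i.1 hi)
    rw [one_smul]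
    exact hf i (Nat.eq_of_beq_eq_true e ▸ hb)
  | cons s l ih =>
    intro bs hbs h σ hσ hi hf
    have h : (T.stpOk A n σw s bs && T.stps A n σw l (s.p :: bs)) = true := h
    simp only [Tab.stpOk, Bool.and_eq_true, frc_eq] at h
    obtain ⟨⟨⟨⟨⟨h1, h2⟩, h3⟩, h4⟩, h5⟩, h6⟩ := h
    let p : r.Pt := ⟨s.p, (blt1 h1).trans_le hn⟩
    let L : Subgroup G := K ⊓ r.Fx bs
    have hL : ∀ w ∈ s.ws.map (subst σw), evw ev w ∈ L := fun w hw' => by
      refine ⟨?_, r.word_Fx (allLt_all h3 w hw') (List.all_eq_true.1 h4 w hw')⟩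
      obtain ⟨v, -, rfl⟩ := List.mem_map.1 hw'
      exact evw_sub hw v
    have hc := r.mem_cand hσ hi hn p (blt1 h1) bs (fun b hb => ⟨hbs b hb, fun e => by
      have := List.all_eq_true.1 h2 b hb
      rw [e] at this
      simp [p] at this⟩) hf
    rw [← Nat.eq_of_beq_eq_true h5] at hc
    change Nat.testBit (_ &&& _) _ = true at hc
    rw [Nat.testBit_and, Bool.and_eq_true] at hc
    obtain ⟨a, ⟨k, hk⟩, e⟩ := r.orb_sub h3 hL p s.m s.l _ hc.2
    have hk : (k : G) • p = σ p := hk.trans (Subtype.ext e)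
    have hk' : r.GHom A n fun i => (k : G)⁻¹ • i := (r.Pres A n).inv_mem (hK k.2.1)
    obtain ⟨k', hk1, hk2⟩ := ih (s.p :: bs) (List.forall_mem_cons.2 ⟨blt1 h1, hbs⟩) h6 (fun i => (k : G)⁻¹ • σ i)
      (fun i h => ⟨(hk' _ (hσ i h).1).1, fun j hj e => (hk' _ (hσ i h).1).2 _ (hσ j hj).1 ((hσ i h).2 j hj e)⟩)
      (fun i j a b e => hi i j a b (smul_left_cancel _ e)) fun i h => by
        rw [inv_smul_eq_iff]
        rcases List.mem_cons.1 h with h | h
        · rw [show i = p from Subtype.ext h, hk]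
        · rw [hf i h, k.2.2 i h]
    exact ⟨k * k', K.mul_mem k.2.1 hk1, fun i h => by rw [mul_smul, ← hk2 i h, smul_inv_smul]⟩

end Rep
end CfL
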