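import Cfsg.Agent.OD.Pre
import Cfsg.Agent.L.Cnt
import Cfsg.Agent.H4.Extra2
/-! Extraspecial groups of order 32 with an automorphism of order 5. -/
set_option autoImplicit false
open Subgroup CfH9 CfH4
namespace CfL

theorem dvd_ncard_of_aut {Q : Type*} [Group Q] [Finite Q] (φ : MulAut Q) {p : ℕ} (hp : p.Prime)
    (hc : φ ^ p = 1) (S : Set Q) (hS : ∀ x ∈ S, φ x ∈ S) (hS' : ∀ x ∈ S, φ x ≠ x) : p ∣ S.ncard := by
  classical
  haveI : Fact p.Prime := ⟨hp⟩
  haveI : Fintype S := Fintype.ofFinite S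
  let f : Function.End S := fun x => ⟨φ x, hS _ x.2⟩
  have hf : ∀ (k : ℕ) (x : S), ((f ^ k) x : Q) = (φ ^ k) x := by
    intro k
    induction k with
    | zero => intro x; rfl
    | succ k ih =>
      intro x
      rw [pow_succ', pow_succ']
      change φ ((f ^ k) x : Q) = _
      rw [ih]; rfl
  have h1 : f ^ p ^ 1 = 1 := by
    funext x
    apply Subtype.ext
    rw [pow_one, hf, hc]; rfl
  have h2 := Equiv.Perm.card_fixedPoints_modEq h1
  have h3 : Fintype.card f.fixedPoints = 0 := by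
    rw [Fintype.card_eq_zero_iff]
    exact ⟨fun x => hS' _ x.1.2 (congrArg Subtype.val x.2)⟩
  rw [h3] at h2
  rw [← Nat.card_coe_set_eq, Nat.card_eq_fintype_card]
  exact (Nat.modEq_zero_iff_dvd).1 h2

variable {Q : Type*} [Group Q]

structure U5 (z : Q) (u : Fin 5 → Q) : Prop where
  es : ES2 z
  u2 : ∀ i, u i * u i = 1
  anti : ∀ i j, i ≠ j → csgn (u i) (u j) = -1
  prod : u 0 * u 1 * u 2 * u 3 * u 4 = 1
  gen : ∀ p, (∀ i, p * u i = u i * p) → p = 1 ∨ p = z

theorem csgn_cases (x y : Q) : csgn x y = 1 ∨ csgn x y = -1 := by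
  unfold csgn; split_ifs <;> simp

theorem csgn_map (φ : MulAut Q) (x y : Q) : csgn (φ x) (φ y) = csgn x y := by
  by_cases h : x * y = y * x
  · rw [csgn_of_comm h, csgn_of_comm (by rw [← map_mul, h, map_mul])]
  · rw [csgn_of_not_comm h, csgn_of_not_comm (fun e => h (φ.injective (by simpa using e)))]

theorem es_map {z : Q} (h : ES2 z) (φ : MulAut Q) : φ z = z := by
  rcases h.center (φ z) (fun y => by
    obtain ⟨y, rfl⟩ := φ.surjective y
    rw [← map_mul, h.cent, map_mul]) with e | e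
  · exact absurd (φ.injective (by rw [e, map_one])) h.ne
  · exact e

theorem pat5 : ∀ c : Fin 5 → ℤˣ, c 0 * c 1 * c 2 * c 3 * c 4 = 1 → (∀ i, c i = 1) ∨
    (∃ j, ∀ i, c i = if j = i then 1 else -1) ∨
    ∃ j k, j ≠ k ∧ ∀ i, c i = (if j = i then 1 else -1) * (if k = i then 1 else -1) := by
  decide

theorem exists_u5 [Finite Q] {z : Q} (h : ES2 z) (hc : Nat.card Q = 32) (φ : MulAut Q) (h5 : φ ^ 5 = 1)
    (h1 : φ ≠ 1) : ∃ u : Fin 5 → Q, U5 z u := by
  have p5 : Nat.Prime 5 := by norm_num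
  have hz := es_map h φ
  have dv : ∀ n, n ∣ 32 → n % 5 = 2 → n = 2 ∨ n = 32 := by
    intro n a b
    have := Nat.le_of_dvd (by norm_num) a
    interval_cases n <;> simp_all
  have two : ∀ A : Subgroup Q, z ∈ A → Nat.card A = 2 → ∀ p ∈ A, p = 1 ∨ p = z := by
    intro A hA h2 p hp
    classical
    have : zpowers z = A := Subgroup.eq_of_le_of_card_ge (zpowers_le.2 hA) (by
      rw [Nat.card_zpowers, h2, orderOf_eq_prime (p := 2) (by rw [pow_two, h.sq]) h.ne])
    rw [← this, mem_zpowers_iff_mem_range_orderOf, orderOf_eq_prime (p := 2) (by rw [pow_two, h.sq]) h.ne] at hp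
    obtain ⟨k, hk, rfl⟩ := Finset.mem_image.1 hp
    rw [Finset.mem_range] at hk
    interval_cases k <;> simp
  have fix : ∀ p, φ p = p → p = 1 ∨ p = z := by
    let C : Subgroup Q := MonoidHom.eqLocus φ.toMonoidHom (MonoidHom.id Q)
    have a := dvd_ncard_of_aut φ p5 h5 (C : Set Q)ᶜ (fun x hx e => hx (φ.injective e)) (fun x hx e => hx e)
    have b := Set.ncard_add_ncard_compl (C : Set Q)
    rw [← Nat.card_coe_set_eq] at b
    change Nat.card C + _ = _ at b
    rcases dv (Nat.card C) (hc ▸ card_subgroup_dvd_card C) (by omega) with e | e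
    · exact fun p hp => two C hz e p hp
    · exfalso
      have : C = ⊤ := Subgroup.eq_top_of_card_eq _ (e.trans hc.symm)
      exact h1 (MulEquiv.ext fun x => (this ▸ mem_top x : x ∈ C))
  have top : ∀ A : Subgroup Q, z ∈ A → (∀ x ∈ A, φ x ∈ A) → ∀ p ∈ A, p ≠ 1 → p ≠ z → A = ⊤ := by
    intro A hA hφ p hp p1 pz
    have a := dvd_ncard_of_aut φ p5 h5 ((A : Set Q) \ {1, z}) (fun x hx => ⟨hφ x hx.1, by
        rintro (e | e)
        · exact hx.2 (Or.inl (φ.injective (by rw [e, map_one])))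
        · exact hx.2 (Or.inr (φ.injective (by rw [e, hz])))⟩) (fun x hx e => hx.2 (fix x e))
    have hs : ({1, z} : Set Q) ⊆ A := by
      rintro x (rfl | rfl)
      · exact one_mem _
      · exact hA
    have b := Set.ncard_le_ncard hs
    rw [Set.ncard_sdiff hs] at a
    rw [Set.ncard_pair h.ne.symm, ← Nat.card_coe_set_eq] at a b
    change 5 ∣ Nat.card A - 2 at a
    change 2 ≤ Nat.card A at b
    rcases dv (Nat.card A) (hc ▸ card_subgroup_dvd_card A) (by omega) with e | e
    · exact absurd (two A hA e p hp) (by tauto)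
    · exact Subgroup.eq_top_of_card_eq _ (e.trans hc.symm)
  obtain ⟨v, v2, v1, vz⟩ : ∃ v : Q, v * v = 1 ∧ v ≠ 1 ∧ v ≠ z := by
    by_contra hcon
    have sq : ∀ v : Q, v ≠ 1 → v ≠ z → v * v = z := fun v a b =>
      (h.sq_eq v).resolve_left fun e => hcon ⟨v, e, a, b⟩
    obtain ⟨x, x1, xz⟩ : ∃ x : Q, x ≠ 1 ∧ x ≠ z := by
      by_contra h3
      have : (Set.univ : Set Q) ⊆ {1, z} := fun x _ => by
        by_contra h4
        exact h3 ⟨x, fun e => h4 (Or.inl e), fun e => h4 (Or.inr e)⟩
      have := (Set.ncard_le_ncard this).trans (Set.ncard_insert_le _ _)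
      rw [Set.ncard_univ, hc, Set.ncard_singleton] at this
      omega
    have c1 := ncard_class_mul x
    have c2 : {b | IsConj x b}.ncard ≤ 2 := by
      refine (Set.ncard_le_ncard (t := {x, z * x}) ?_).trans ((Set.ncard_insert_le _ _).trans (by simp))
      intro b hb
      obtain ⟨c, rfl⟩ := isConj_iff.1 hb
      rcases h.comm c x with e | e
      · left; rw [e]; group
      · right; rw [e, Set.mem_singleton_iff]; group
    have c3 : Nat.card Cx(x) ≤ 4 := by
      change Nat.card ((Cx(x) : Subgroup Q) : Set Q) ≤ 4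
      rw [Nat.card_coe_set_eq]
      refine (Set.ncard_le_ncard (t := {1, z, x⁻¹, x⁻¹ * z}) ?_).trans ((Set.ncard_insert_le _ _).trans
        (Nat.succ_le_succ ((Set.ncard_insert_le _ _).trans (Nat.succ_le_succ ((Set.ncard_insert_le _ _).trans
          (by simp))))))
      intro y hy
      by_contra hn
      simp only [Set.mem_insert_iff, Set.mem_singleton_iff, not_or] at hn
      have e := mem_Cx.1 hy
      have a1 : x * y ≠ 1 := fun e => hn.2.2.1 (eq_inv_of_mul_eq_one_right e)
      have a2 : x * y ≠ z := fun e => hn.2.2.2 (by rw [← e]; group)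
      have a3 := sq _ a1 a2
      rw [mul_assoc, ← mul_assoc y, e, mul_assoc, sq y hn.1 hn.2.1, ← mul_assoc, sq x x1 xz, h.sq] at a3
      exact h.ne a3.symm
    rw [hc] at c1
    nlinarith
  let u : Fin 5 → Q := fun i => (φ ^ (i : ℕ)) v
  have u2 : ∀ i, u i * u i = 1 := fun i => by simp only [u]; rw [← map_mul, v2, map_one]
  have e0 : φ (u 0) = u 1 := rfl
  have e1 : φ (u 1) = u 2 := rfl
  have e2 : φ (u 2) = u 3 := rfl
  have e3 : φ (u 3) = u 4 := rfl
  have e4 : φ (u 4) = u 0 := by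
    change (φ ^ 5) v = v
    rw [h5]; rfl
  have gen : ∀ p, (∀ i, p * u i = u i * p) → p = 1 ∨ p = z := by
    intro p hp
    let A : Subgroup Q := closure (insert z (Set.range u))
    have hA : A = ⊤ := top A (subset_closure (Set.mem_insert _ _)) (fun x hx => by
      have : A ≤ A.comap φ.toMonoidHom := (closure_le _).2 (by
        rintro y (rfl | ⟨i, rfl⟩)
        · exact subset_closure (Or.inl hz)
        · refine subset_closure (Or.inr ?_)
          fin_cases i
          · exact ⟨_, e0.symm⟩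
          · exact ⟨_, e1.symm⟩
          · exact ⟨_, e2.symm⟩
          · exact ⟨_, e3.symm⟩
          · exact ⟨_, e4.symm⟩)
      exact this hx) v (subset_closure (Or.inr ⟨0, rfl⟩)) v1 vz
    have : A ≤ Cx(p) := (closure_le _).2 (by
      rintro y (rfl | ⟨i, rfl⟩)
      · exact mem_Cx.2 (h.cent p)
      · exact mem_Cx.2 (hp i).symm)
    exact h.center p fun y => (mem_Cx.1 (this (hA ▸ mem_top y))).symm
  have c12 : csgn (u 1) (u 2) = csgn (u 0) (u 1) := by rw [← e1, ← e0, csgn_map, e0]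
  have c23 : csgn (u 2) (u 3) = csgn (u 0) (u 1) := by rw [← e2, ← e1, csgn_map, e1, c12]
  have c34 : csgn (u 3) (u 4) = csgn (u 0) (u 1) := by rw [← e3, ← e2, csgn_map, e2, c23]
  have c04 : csgn (u 0) (u 4) = csgn (u 0) (u 1) := by rw [← e4, ← e3, csgn_map, e3, csgn_comm, c34, e4]
  have c13 : csgn (u 1) (u 3) = csgn (u 0) (u 2) := by rw [← e2, ← e0, csgn_map]
  have c24 : csgn (u 2) (u 4) = csgn (u 0) (u 2) := by rw [← e3, ← e1, csgn_map, e1, c13]
  have c03 : csgn (u 0) (u 3) = csgn (u 0) (u 2) := by rw [← e4, ← e2, csgn_map, csgn_comm, c24, e4]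
  have c14 : csgn (u 1) (u 4) = csgn (u 0) (u 2) := by rw [← e0, ← e3, csgn_map, c03]
  have hω : u 0 * u 1 * u 2 * u 3 * u 4 = 1 ∨ u 0 * u 1 * u 2 * u 3 * u 4 = z := by
    apply fix
    set ω := u 0 * u 1 * u 2 * u 3 * u 4 with hω
    have a : φ ω = (u 0)⁻¹ * ω * u 0 := by
      rw [hω]; simp only [map_mul, e0, e1, e2, e3, e4]; group
    rcases h.comm ω (u 0) with e | e
    · rw [a, mul_assoc, e]; group
    · exfalso
      have b : φ ω = z * ω := by rw [a, mul_assoc, e, h.left_comm]; group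
      have b2 : (φ ^ 5) ω = z * ω := by
        change φ (φ (φ (φ (φ ω)))) = _
        simp only [b, map_mul, hz, h.z_mul_z_mul]
      rw [h5] at b2
      exact h.z_mul_ne ω b2.symm
  have s1 : ∀ i, ssgn (u i) = 1 := fun i => if_pos (u2 i)
  have sω : ssgn (u 0 * u 1 * u 2 * u 3 * u 4) = 1 := by
    rcases hω with e | e <;> rw [e]
    · exact if_pos (by simp)
    · exact if_pos h.sq
  simp only [h.ssgn_mul, h.csgn_mul_left, s1, c12, c23, c34, c04, c13, c24, c03, c14] at sω
  have ab : csgn (u 0) (u 1) = -1 ∧ csgn (u 0) (u 2) = -1 := by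
    rcases csgn_cases (u 0) (u 1) with a | a <;> rcases csgn_cases (u 0) (u 2) with b | b
    · exfalso
      have := gen (u 0) (fun i => csgn_eq_one_iff.1 (by
        fin_cases i
        · exact csgn_of_comm rfl
        · exact a
        · exact b
        · exact c03.trans b
        · exact c04.trans a))
      tauto
    · rw [a, b] at sω; norm_num at sω
    · rw [a, b] at sω; norm_num at sω
    · exact ⟨a, b⟩
  have anti : ∀ i j, i ≠ j → csgn (u i) (u j) = -1 := by
    have key : ∀ i j, i < j → csgn (u i) (u j) = -1 := by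
      intro i j hij
      fin_cases i <;> fin_cases j <;> simp at hij <;>
        first | exact ab.1 | exact ab.2 | simp only [← ab.1]; assumption | simp only [← ab.2]; assumption
    intro i j hij
    rcases lt_or_gt_of_ne hij with e | e
    · exact key i j e
    · rw [csgn_comm]; exact key j i e
  rcases hω with e | e
  · exact ⟨u, h, u2, anti, e, gen⟩
  · refine ⟨fun i => z * u i, h, fun i => ?_, fun i j hij => ?_, ?_, fun p hp => gen p fun i => ?_⟩
    · rw [mul_assoc, h.left_comm, h.z_mul_z_mul, u2]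
    · rw [h.csgn_mul_left, h.csgn_mul_right, h.csgn_mul_right, anti i j hij, csgn_of_comm (h.cent _),
        csgn_of_comm (h.cent _), csgn_of_comm (h.cent _).symm]
      norm_num
    · simp only [mul_assoc, h.left_comm (u _), h.z_mul_z_mul] at e ⊢
      rw [e, h.sq]
    · have := hp i
      rw [h.left_comm, mul_assoc] at this
      exact mul_left_cancel this

namespace U5
variable {z : Q} {u : Fin 5 → Q} (h : U5 z u)
include h

theorem csgn_u (i j : Fin 5) : csgn (u i) (u j) = if i = j then 1 else -1 := by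
  split_ifs with e
  · rw [e]; exact csgn_of_comm rfl
  · exact h.anti i j e

theorem cls (p : Q) : ∃ c : Q, (c = 1 ∨ c = z) ∧ (p = c ∨ (∃ j, p = c * u j) ∨ ∃ j k, j ≠ k ∧ p = c * (u j * u k)) := by
  let c : Fin 5 → ℤˣ := fun i => if csgn p (u i) = 1 then 1 else -1
  have hc : ∀ i, (c i : ℤ) = csgn p (u i) := fun i => by
    rcases csgn_cases p (u i) with e | e <;> simp [c, e]
  have hp : c 0 * c 1 * c 2 * c 3 * c 4 = 1 := by
    apply Units.val_injective
    simp only [Units.val_mul, hc, ← h.es.csgn_mul_right, h.prod]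
    exact csgn_of_comm (by simp)
  have ui : ∀ i, (u i)⁻¹ = u i := fun i => inv_eq_of_mul_eq_one_right (h.u2 i)
  rcases pat5 c hp with e | ⟨j, e⟩ | ⟨j, k, hjk, e⟩
  · exact ⟨p, h.gen p fun i => csgn_eq_one_iff.1 (by rw [← hc, e]; rfl), Or.inl rfl⟩
  · refine ⟨p * u j, h.gen _ fun i => csgn_eq_one_iff.1 ?_, Or.inr (Or.inl ⟨j, by rw [mul_assoc, h.u2, mul_one]⟩)⟩
    rw [h.es.csgn_mul_left, ← hc, e, h.csgn_u]
    split_ifs <;> rfl
  · refine ⟨p * (u k * u j), h.gen _ fun i => csgn_eq_one_iff.1 ?_, Or.inr (Or.inr ⟨j, k, hjk, ?_⟩)⟩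
    · rw [h.es.csgn_mul_left, h.es.csgn_mul_left, ← hc, e, h.csgn_u, h.csgn_u]
      split_ifs <;> rfl
    · rw [mul_assoc, mul_assoc, ← mul_assoc (u j), h.u2, one_mul, h.u2, mul_one]

theorem invol {p : Q} (hp : p * p = 1) : p = 1 ∨ p = z ∨ ∃ j, p = u j ∨ p = z * u j := by
  obtain ⟨c, hc, e | ⟨j, e⟩ | ⟨j, k, hjk, e⟩⟩ := h.cls p
  · rw [e]; tauto
  · rcases hc with rfl | rfl
    · exact Or.inr (Or.inr ⟨j, Or.inl (by rw [e, one_mul])⟩)
    · exact Or.inr (Or.inr ⟨j, Or.inr e⟩)
  · exfalso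
    have s1 : ssgn p = 1 := if_pos hp
    have s2 : ∀ i, ssgn (u i) = 1 := fun i => if_pos (h.u2 i)
    have s3 : ssgn c = 1 := by
      rcases hc with rfl | rfl
      · exact if_pos (by simp)
      · exact if_pos h.es.sq
    have s4 : csgn c (u j * u k) = 1 := by
      rcases hc with rfl | rfl
      · exact csgn_of_comm (by simp)
      · exact csgn_of_comm (h.es.cent _)
    rw [e, h.es.ssgn_mul, h.es.ssgn_mul, s2, s2, s3, s4, h.anti j k hjk] at s1
    norm_num at s1

theorem aut_eq_one (θ : MulAut Q) (hθ : ∀ i, θ (u i) = u i) : θ = 1 := by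
  ext p
  obtain ⟨c, hc, e⟩ := h.cls p
  have : θ c = c := by
    rcases hc with rfl | rfl
    · exact map_one _
    · exact es_map h.es θ
  rcases e with e | ⟨j, e⟩ | ⟨j, k, _, e⟩ <;> rw [e] <;> simp [this, hθ]

theorem ne_center (i : Fin 5) : u i ≠ 1 ∧ u i ≠ z := by
  obtain ⟨j, hj⟩ := exists_ne i
  have := h.anti i j hj.symm
  constructor <;> intro e <;> rw [e] at this
  · rw [csgn_of_comm (by simp)] at this; norm_num at this
  · rw [csgn_of_comm (h.es.cent _)] at this; norm_num at this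

theorem exists_img (θ : MulAut Q) (i : Fin 5) : ∃ j, θ (u i) = u j ∨ θ (u i) = z * u j := by
  rcases h.invol (p := θ (u i)) (by rw [← map_mul, h.u2, map_one]) with e | e | e
  · exact absurd (θ.injective (by rw [e, map_one])) (h.ne_center i).1
  · exact absurd (θ.injective (by rw [e, es_map h.es])) (h.ne_center i).2
  · exact e

theorem img_unique {p : Q} {j k : Fin 5} (h1 : p = u j ∨ p = z * u j) (h2 : p = u k ∨ p = z * u k) : j = k := by
  by_contra hne
  have a : csgn p (u j) = 1 := by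
    rcases h1 with e | e <;> rw [e]
    · exact csgn_of_comm rfl
    · rw [h.es.csgn_mul_left, csgn_of_comm (h.es.cent _), csgn_of_comm rfl]; rfl
  have b : csgn p (u j) = -1 := by
    rcases h2 with e | e <;> rw [e]
    · exact h.anti _ _ (Ne.symm hne)
    · rw [h.es.csgn_mul_left, csgn_of_comm (h.es.cent _), h.anti _ _ (Ne.symm hne)]; rfl
  rw [a] at b; norm_num at b

noncomputable def pf (θ : MulAut Q) (i : Fin 5) : Fin 5 := (h.exists_img θ i).choose

theorem pf_spec (θ : MulAut Q) (i : Fin 5) : θ (u i) = u (h.pf θ i) ∨ θ (u i) = z * u (h.pf θ i) :=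
  (h.exists_img θ i).choose_spec

theorem pf_mul (θ η : MulAut Q) (i : Fin 5) : h.pf (θ * η) i = h.pf θ (h.pf η i) := by
  refine h.img_unique (h.pf_spec _ i) ?_
  have hz := es_map h.es θ
  rcases h.pf_spec η i with e | e <;> rcases h.pf_spec θ (h.pf η i) with e' | e' <;>
    simp [MulAut.mul_apply, e, e', hz, h.es.z_mul_z_mul]

noncomputable def pi : MulAut Q →* Equiv.Perm (Fin 5) :=
  MonoidHom.toHomPerm
    { toFun := fun θ => h.pf θ
      map_one' := funext fun i => h.img_unique (h.pf_spec 1 i) (Or.inl rfl)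
      map_mul' := fun θ η => funext fun i => h.pf_mul θ η i }

theorem pi_spec (θ : MulAut Q) (i : Fin 5) : θ (u i) = u (h.pi θ i) ∨ θ (u i) = z * u (h.pi θ i) :=
  h.pf_spec θ i

/-- even sign changes are inner -/
theorem exists_signs (s : Fin 5 → Q) (hs : ∀ i, s i = 1 ∨ s i = z) (hp : s 0 * s 1 * s 2 * s 3 * s 4 = 1) :
    ∃ q : Q, ∀ i, q * u i * q⁻¹ = s i * u i := by
  classical
  let e : Fin 5 → ℤ := fun i => if s i = 1 then 1 else -1
  let r : Fin 5 → Q := fun i => if s i = 1 then 1 else u i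
  have hr : ∀ i j, csgn (r i) (u j) = if i = j then 1 else e i := by
    intro i j
    by_cases a : s i = 1
    · simp only [r, e, if_pos a, ite_self]; exact csgn_of_comm (by simp)
    · simp only [r, e, if_neg a]; exact h.csgn_u i j
  have he : e 0 * e 1 * e 2 * e 3 * e 4 = 1 := by
    have zne := h.es.ne
    rcases hs 0 with a0 | a0 <;> rcases hs 1 with a1 | a1 <;> rcases hs 2 with a2 | a2 <;>
      rcases hs 3 with a3 | a3 <;> rcases hs 4 with a4 | a4 <;>
      simp only [a0, a1, a2, a3, a4, mul_one, one_mul, h.es.sq, mul_assoc, h.es.z_mul_z_mul] at hp <;>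
      simp [e, a0, a1, a2, a3, a4, zne] <;> exact zne hp
  have ee : ∀ i, e i = 1 ∨ e i = -1 := fun i => by simp only [e]; split_ifs <;> simp
  refine ⟨r 0 * r 1 * r 2 * r 3 * r 4, fun j => ?_⟩
  have key : csgn (r 0 * r 1 * r 2 * r 3 * r 4) (u j) = e j := by
    simp only [h.es.csgn_mul_left, hr]
    rcases ee 0 with a0 | a0 <;> rcases ee 1 with a1 | a1 <;> rcases ee 2 with a2 | a2 <;>
      rcases ee 3 with a3 | a3 <;> rcases ee 4 with a4 | a4 <;>
      simp only [a0, a1, a2, a3, a4] at he <;> (try norm_num at he) <;>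
      fin_cases j <;> simp [a0, a1, a2, a3, a4]
  by_cases a : s j = 1
  · rw [a, one_mul, csgn_eq_one_iff.1 (key.trans (if_pos a))]; group
  · rw [(hs j).resolve_left a, h.es.anti (x := r 0 * r 1 * r 2 * r 3 * r 4) (y := u j) (fun c => by
      rw [csgn_of_comm c] at key
      simp only [e, if_neg a] at key
      norm_num at key)]
    group

theorem anti' {i j : Fin 5} (hij : i ≠ j) : u i * u j = z * (u j * u i) :=
  h.es.anti fun c => by have := h.anti i j hij; rw [csgn_of_comm c] at this; norm_num at this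

theorem swap' {i j : Fin 5} (hij : i ≠ j) (x : Q) : u i * (u j * x) = z * (u j * (u i * x)) := by
  rw [← mul_assoc, h.anti' hij]; group

/-- an automorphism inducing `σ` can be corrected by an inner one to permute the `u i` exactly -/
theorem exists_exact (θ : MulAut Q) (σ : Equiv.Perm (Fin 5)) (hσ : h.pi θ = σ)
    (hp : u (σ 0) * u (σ 1) * u (σ 2) * u (σ 3) * u (σ 4) = 1) :
    ∃ q : Q, ∀ i, q * θ (u i) * q⁻¹ = u (σ i) := by
  have : ∀ i, ∃ s, (s = 1 ∨ s = z) ∧ θ (u (σ⁻¹ i)) = s * u i := fun i => by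
    have := h.pi_spec θ (σ⁻¹ i)
    rw [hσ, show σ (σ⁻¹ i) = i by simp] at this
    rcases this with e | e
    · exact ⟨1, Or.inl rfl, by rw [e, one_mul]⟩
    · exact ⟨z, Or.inr rfl, e⟩
  choose s hs hs' using this
  have hs2 : ∀ i, θ (u i) = s (σ i) * u (σ i) := fun i => by rw [← hs']; simp
  have sc : ∀ i x, s i * x = x * s i := fun i x => by
    rcases hs i with e | e <;> rw [e]
    · simp
    · exact h.es.cent x
  have ss : ∀ i, s i * s i = 1 := fun i => by
    rcases hs i with e | e <;> rw [e]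
    · simp
    · exact h.es.sq
  have p1 := congrArg θ h.prod
  simp only [map_mul, map_one, hs2] at p1
  have p2 : s (σ 0) * s (σ 1) * s (σ 2) * s (σ 3) * s (σ 4) = 1 := by
    have lc : ∀ i x y, x * (s i * y) = s i * (x * y) := fun i x y => by
      rw [← mul_assoc, ← sc, mul_assoc]
    simp only [mul_assoc, lc _ (u _)] at p1 hp ⊢
    rw [hp, mul_one] at p1
    exact p1
  obtain ⟨q, hq⟩ := h.exists_signs (fun i => s i) hs (by
    have m : ∀ i, s i ∈ center Q := fun i => mem_center_iff.2 fun g => (sc i g).symm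
    open scoped IsMulCommutative in
    have := Equiv.prod_comp σ (fun i => (⟨s i, m i⟩ : center Q))
    simp only [Fin.prod_univ_five] at this
    have := congrArg Subtype.val this
    simp only [Subgroup.coe_mul] at this
    rw [← this, p2])
  refine ⟨q, fun i => ?_⟩
  rw [hs2, ← mul_assoc, ← sc, mul_assoc (s _), mul_assoc (s _), hq, ← mul_assoc, ss, one_mul]

end U5
end CfL
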