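import Cfsg.Agent.OD.Pre
import Cfsg.Agent.L.ZT1
import Cfsg.Agent.L.J2a
import Cfsg.Agent.OD.Helper3x4f69990d91
import Cfsg.Agent.OD.Helper4xc8bbdf3e29
/-! Extraspecial groups of order 128 and their automorphism groups. -/
set_option autoImplicit false
set_option maxRecDepth 100000
open CfH6 MulAction Subgroup CfH9 CfH4
namespace CfL

section
variable {G : Type*} [Group G]

/-- a `p`-element is conjugate into any subgroup of index prime to `p` -/
theorem conj_into [Finite G] {p n : ℕ} [Fact p.Prime] {K B : Subgroup G} (hB : B ≤ K) (hi : ¬ p ∣ B.relIndex K) {g : G}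
    (hg : g ∈ K) (hp : g ^ p ^ n = 1) : ∃ c ∈ K, c * g * c⁻¹ ∈ B := by
  have h1 : IsPGroup p (zpowers (⟨g, hg⟩ : K)) := isPGroup_zpowers (k := n) (Subtype.ext hp)
  obtain ⟨q, hq⟩ := h1.nonempty_fixed_point_of_prime_not_dvd_card (K ⧸ B.subgroupOf K) hi
  obtain ⟨c, rfl⟩ := QuotientGroup.mk_surjective q
  have := hq ⟨_, mem_zpowers _⟩
  refine ⟨c⁻¹, inv_mem c.2, ?_⟩
  have h2 : ((⟨g, hg⟩ * c : K) : K ⧸ B.subgroupOf K) = c := this
  rw [QuotientGroup.eq, mem_subgroupOf] at h2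
  simpa [mul_assoc] using B.inv_mem h2

theorem not_dvd_relIndex [Finite G] {p a b : ℕ} {K B : Subgroup G} (hB : B ≤ K) (h1 : Nat.card K = a * b)
    (h2 : Nat.card B = a) (h : ¬ p ∣ b) : ¬ p ∣ B.relIndex K := by
  have := card_mul_relIndex hB
  have h0 : 0 < a := h2 ▸ Nat.card_pos
  rw [h1, h2] at this
  rwa [Nat.eq_of_mul_eq_mul_left h0 this]

theorem exists_theta {T : Type*} [Group T] [Finite T] {ι : T →* G} (hι : Function.Injective ι) (K : Subgroup G)
    (hK : ∀ k ∈ K, ∀ t, k * ι t * k⁻¹ ∈ ι.range) : ∃ θ : K →* MulAut T, ∀ k t, ι (θ k t) = k * ι t * (k : G)⁻¹ := by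
  have : Finite ι.range := Finite.of_surjective _ ι.rangeRestrict_surjective
  have h : K ≤ normalizer (ι.range : Set G) := fun k hk => mem_normalizer_fintype (by
    rintro _ ⟨t, rfl⟩; exact hK k hk t)
  let e := MonoidHom.ofInjective hι
  refine ⟨(MulAut.congr e.symm).toMonoidHom.comp (ι.range.normalizerMonoidHom.comp (inclusion h)), fun k t => ?_⟩
  exact MonoidHom.apply_ofInjective_symm hι _

theorem g32 (X : ℕ → G) (hi : ∀ x < 8, X (zg4_il.getD x 0) = (X x)⁻¹) (hr : ∀ r ∈ zg4_rels, evw X r = 1) :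
    Finite (gensub X 8) ∧ Nat.card (gensub X 8) ≤ 25920 := by
  have s : ∀ {l : List (List ℕ)} {k : ℕ}, l.all (allLt k) = true → ∀ s ∈ l, evw X s ∈ gensub X k := fun h s hs =>
    evw_mem (fun _ => mem_gensub) (allLt_all h s hs)
  exact (zg4_cov X _ hi hr (s rfl)).card_le ((zg3_cov X _ (fun x hx => by rw [← hi x (by omega)]; interval_cases x <;> rfl)
    (fun r h => hr r (by revert r; decide)) (s rfl)).card_le ((zg2_cov X _
    (fun x hx => by rw [← hi x (by omega)]; interval_cases x <;> rfl) (fun r h => hr r (by revert r; decide))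
    (s rfl)).card_le ((zg1_cov X _ (fun x hx => by rw [← hi x (by omega)]; interval_cases x <;> rfl)
    (fun r h => hr r (by revert r; decide)) (s (k := 0) rfl)).card_le (m := 1) (by
      rw [show gensub X 0 = ⊥ by simp [gensub]]; exact bot_fin))))

/-- the same modulo a normal subgroup -/
theorem g32q {N P : Subgroup G} [Finite N] (hN : N ≤ P) (hn : ∀ p ∈ P, ∀ n ∈ N, p * n * p⁻¹ ∈ N) (X : ℕ → G)
    (hX : ∀ x, X x ∈ P) (hi : ∀ x < 8, X (zg4_il.getD x 0) = (X x)⁻¹) (hr : ∀ r ∈ zg4_rels, evw X r ∈ N) :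
    ∃ D, N ≤ D ∧ (∀ x < 8, X x ∈ D) ∧ D ≤ P ∧ Finite D ∧ Nat.card D ≤ 25920 * Nat.card N := by
  have : (N.subgroupOf P).Normal := ⟨fun n h p => hn p p.2 n h⟩
  let π := QuotientGroup.mk' (N.subgroupOf P)
  let Y : ℕ → P := fun x => ⟨X x, hX x⟩
  have hY : ∀ w, ((evw Y w : P) : G) = evw X w := fun w => map_evw P.subtype Y w
  obtain ⟨h1, h2⟩ := g32 (fun x => π (Y x)) (fun x hx => by
    rw [← map_inv]; exact congrArg π (Subtype.ext (hi x hx))) fun r h => by
    rw [← map_evw]; exact (QuotientGroup.eq_one_iff _).2 (by rw [mem_subgroupOf, hY]; exact hr r h)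
  let E := (gensub (fun x => π (Y x)) 8).comap π
  have h3 : Nat.card E = Nat.card (gensub (fun x => π (Y x)) 8) * Nat.card N := by
    refine (Nat.card_congr (QuotientGroup.preimageMkEquivSubgroupProdSet (N.subgroupOf P)
      (gensub (fun x => π (Y x)) 8))).trans ?_
    rw [Nat.card_prod, mul_comm, Nat.card_congr (subgroupOfEquivOfLe hN).toEquiv]
    rfl
  have h4 : Nat.card (E.map P.subtype) = Nat.card E := card_map_of_injective P.subtype_injective
  refine ⟨E.map P.subtype, fun n h => ⟨⟨n, hN h⟩, ?_, rfl⟩, fun x hx => ⟨Y x, mem_gensub hx, rfl⟩, map_subtype_le _,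
    Nat.finite_of_card_ne_zero ?_, ?_⟩
  · refine mem_comap.2 ?_
    rw [show π ⟨n, hN h⟩ = 1 from (QuotientGroup.eq_one_iff _).2 h]; exact one_mem _
  · rw [h4, h3]; exact mul_ne_zero Nat.card_pos.ne' Nat.card_pos.ne'
  · rw [h4, h3]; exact Nat.mul_le_mul_right _ h2

variable {z : G}

def Nd (z : G) (A : Subgroup G) : Prop := z ∈ A ∧ ∀ p ∈ A, (∀ y ∈ A, p * y = y * p) → p = 1 ∨ p = z

theorem half [Finite G] (h : ES2 z) {A : Subgroup G} {x y : G} (hy : y ∈ A) (a : y * x ≠ x * y) :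
    Nat.card A = Nat.card (A ⊓ Cx(x) : Subgroup G) * 2 := by
  rw [← card_mul_relIndex (inf_le_left : A ⊓ Cx(x) ≤ A), inf_relIndex_left, relIndex_eq_two_iff.2 ⟨y, hy, fun b _ => ?_⟩]
  simp only [mem_Cx, ← csgn_eq_one_iff, h.csgn_mul_left, csgn_of_not_comm a]
  rcases csgn_cases b x with e | e <;> simp [e]

theorem Nd.split [Finite G] (h : ES2 z) {A : Subgroup G} (hA : Nd z A) {x y : G} (hx : x ∈ A) (hy : y ∈ A)
    (a : x * y ≠ y * x) : Nd z (A ⊓ Cx(x) ⊓ Cx(y)) ∧ Nat.card A = Nat.card (A ⊓ Cx(x) ⊓ Cx(y) : Subgroup G) * 4 := by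
  refine ⟨⟨⟨⟨hA.1, mem_Cx.2 (h.cent x)⟩, mem_Cx.2 (h.cent y)⟩, fun p hp hc => hA.2 p hp.1.1 fun q hq => ?_⟩, by
    rw [half h hy a.symm, half h (A := A ⊓ Cx(x)) ⟨hx, mem_Cx.2 rfl⟩ a]; omega⟩
  have p1 := csgn_of_comm (mem_Cx.1 hp.1.2)
  have p2 := csgn_of_comm (mem_Cx.1 hp.2)
  have a1 := csgn_of_not_comm a
  have a2 := csgn_of_not_comm a.symm
  have key : ∀ s ∈ A, csgn p s = 1 → csgn q x * csgn s x = 1 → csgn q y * csgn s y = 1 → p * q = q * p :=
    fun s hs e1 e2 e3 => by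
      have := csgn_of_comm (hc (q * s) ⟨⟨mul_mem hq hs, mem_Cx.2 (csgn_eq_one_iff.1 (by rwa [h.csgn_mul_left]))⟩,
        mem_Cx.2 (csgn_eq_one_iff.1 (by rwa [h.csgn_mul_left]))⟩)
      rwa [h.csgn_mul_right, e1, mul_one, csgn_eq_one_iff] at this
  have o : ∀ s : G, csgn s s = 1 := fun s => csgn_of_comm rfl
  rcases csgn_cases q x with e | e <;> rcases csgn_cases q y with e' | e'
  · exact key z hA.1 (csgn_of_comm (h.cent p).symm) (by rw [e, csgn_of_comm (h.cent x)]; rfl)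
      (by rw [e', csgn_of_comm (h.cent y)]; rfl)
  · exact key x hx p1 (by rw [e, o]; rfl) (by rw [e', a1]; rfl)
  · exact key y hy p2 (by rw [e, a2]; rfl) (by rw [e', o]; rfl)
  · exact key (x * y) (mul_mem hx hy) (by rw [h.csgn_mul_right, p1, p2]; rfl)
      (by rw [h.csgn_mul_left, e, o, a2]; rfl) (by rw [h.csgn_mul_left, e', o, a1]; rfl)

theorem ssgn_cases (x : G) : ssgn x = 1 ∨ ssgn x = -1 := by unfold ssgn; split_ifs <;> simp

theorem Nd.pair [Finite G] (h : ES2 z) {A : Subgroup G} (hA : Nd z A) (hc : 2 < Nat.card A) :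
    ∃ x ∈ A, ∃ y ∈ A, csgn x y = -1 ∧ ssgn x = ssgn y := by
  obtain ⟨x, hx, y, hy, a⟩ : ∃ x ∈ A, ∃ y ∈ A, x * y ≠ y * x := by
    by_contra hn
    have : (A : Set G) ⊆ {1, z} := fun p hp => hA.2 p hp fun y hy => by
      by_contra e; exact hn ⟨p, hp, y, hy, e⟩
    have := (Set.ncard_le_ncard this).trans (Set.ncard_insert_le _ _)
    rw [Set.ncard_singleton, ← Nat.card_coe_set_eq] at this
    exact absurd this (not_le.2 hc)
  have a1 := csgn_of_not_comm a
  have o : ∀ s : G, csgn s s = 1 := fun s => csgn_of_comm rfl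
  rcases ssgn_cases x with e | e <;> rcases ssgn_cases y with e' | e'
  · exact ⟨x, hx, y, hy, a1, e.trans e'.symm⟩
  · exact ⟨x, hx, x * y, mul_mem hx hy, by rw [h.csgn_mul_right, o, a1]; rfl, by rw [h.ssgn_mul, e, e', a1]; rfl⟩
  · exact ⟨x * y, mul_mem hx hy, y, hy, by rw [h.csgn_mul_left, o, a1]; rfl, by rw [h.ssgn_mul, e, e', a1]; rfl⟩
  · exact ⟨x, hx, y, hy, a1, e.trans e'.symm⟩

theorem Nd.pairD [Finite G] (h : ES2 z) {A : Subgroup G} (hA : Nd z A) (hc : 8 < Nat.card A) :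
    ∃ x ∈ A, ∃ y ∈ A, csgn x y = -1 ∧ ssgn x = 1 ∧ ssgn y = 1 := by
  obtain ⟨x, hx, y, hy, a, s⟩ := hA.pair h (by omega)
  rcases ssgn_cases y with e | e
  · exact ⟨x, hx, y, hy, a, s.trans e, e⟩
  obtain ⟨h1, h2⟩ := hA.split h hx hy fun c => by rw [csgn_of_comm c] at a; omega
  obtain ⟨u, hu, v, hv, a', s'⟩ := h1.pair h (by omega)
  rcases ssgn_cases v with e' | e'
  · exact ⟨u, hu.1.1, v, hv.1.1, a', s'.trans e', e'⟩
  have c1 := csgn_of_comm (mem_Cx.1 hu.1.2).symm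
  have c2 := csgn_of_comm (mem_Cx.1 hu.2).symm
  refine ⟨x * u, mul_mem hx hu.1.1, y * u, mul_mem hy hu.1.1, ?_, ?_, ?_⟩
  · rw [h.csgn_mul_left, h.csgn_mul_right, h.csgn_mul_right, a, c1, csgn_comm u y, c2, csgn_of_comm rfl]; rfl
  · rw [h.ssgn_mul, s, e, s', e', c1]; rfl
  · rw [h.ssgn_mul, e, s', e', c2]; rfl

theorem es_rels (h : ES2 z) (u : ℕ → G) (h0 : u 0 = z) (h1 : ∀ i < 7, ssgn (u i) = 1) (A : List (ℕ × ℕ))
    (h2 : ∀ j < 7, ∀ i < j, csgn (u i) (u j) = if (i, j) ∈ A then -1 else 1) (rels : List (List ℕ))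
    (h3 : ∀ r ∈ rels, ∃ j < 7, ∃ i < j, r = if (i, j) ∈ A then [i, j, i, j, 0] else [i, j, i, j]) :
    (∀ x < 7, u ([0, 1, 2, 3, 4, 5, 6].getD x 0) = (u x)⁻¹) ∧ ∀ r ∈ rels, evw u r = 1 := by
  have s : ∀ i < 7, u i * u i = 1 := fun i hi => by
    by_contra e; have := h1 i hi; rw [ssgn, if_neg e] at this; omega
  refine ⟨fun x hx => ?_, fun r hr => ?_⟩
  · rw [inv_eq_of_mul_eq_one_right (s x hx)]; interval_cases x <;> rfl
  · obtain ⟨j, hj, i, hi, rfl⟩ := h3 r hr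
    have := h2 j hj i hi
    split_ifs at this ⊢
    · simp only [evw_cons, evw_nil, mul_one, h0]
      rw [← mul_assoc, h.anti (x := u i) (y := u j) fun c => by rw [csgn_of_comm c] at this; omega]
      calc _ = z * (u j * (u i * u i) * u j) * z := by group
        _ = _ := by rw [s i (by omega), mul_one, s j hj, mul_one, h.sq]
    · simp only [evw_cons, evw_nil, mul_one]
      rw [← mul_assoc, csgn_eq_one_iff.1 this, mul_assoc, ← csgn_eq_one_iff.1 this, ← mul_assoc (u i), s i (by omega),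
        one_mul, s j hj]

theorem inj_es {T : Type*} [Group T] {Z : T} (hZ : ∀ t : T, t = 1 ∨ t = Z ∨ ∃ s, t * s * t⁻¹ * s⁻¹ = Z) (ι : T →* G)
    (h : ι Z ≠ 1) : Function.Injective ι := (injective_iff_map_eq_one ι).2 fun t ht => by
  rcases hZ t with e | e | ⟨s, e⟩
  · exact e
  · exact absurd (e ▸ ht) h
  · exact absurd (by rw [← e]; simp [ht]) h
end

abbrev Tm := TE zqm_g
abbrev Tp := TE zqp_g
noncomputable def Zm : Tm := .mk _ 1
noncomputable def Zp : Tp := .mk _ 1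
theorem hZm : ∀ t : Tm, t = 1 ∨ t = Zm ∨ ∃ s, t * s * t⁻¹ * s⁻¹ = Zm := by decide +kernel
theorem hZp : ∀ t : Tp, t = 1 ∨ t = Zp ∨ ∃ s, t * s * t⁻¹ * s⁻¹ = Zp := by decide +kernel

theorem es128 {G : Type*} [Group G] [Finite G] {z : G} (h : ES2 z) (hc : Nat.card G = 128) :
    (∃ ι : Tm →* G, Function.Bijective ι ∧ ι Zm = z) ∨ ∃ ι : Tp →* G, Function.Bijective ι ∧ ι Zp = z := by
  have h0 : Nd z ⊤ := ⟨trivial, fun p _ hp => h.center p fun y => hp y trivial⟩
  have c0 : Nat.card (⊤ : Subgroup G) = 128 := by rw [card_top, hc]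
  have ne : ∀ {x y : G}, csgn x y = -1 → x * y ≠ y * x := fun a c => by rw [csgn_of_comm c] at a; omega
  obtain ⟨a, -, b, -, ab, sa, sb⟩ := h0.pairD h (by omega)
  obtain ⟨h1, c1⟩ := h0.split h (mem_top a) (mem_top b) (ne ab)
  obtain ⟨c, hc', d, hd, cd, sc, sd⟩ := h1.pairD h (by omega)
  obtain ⟨h2, c2⟩ := h1.split h hc' hd (ne cd)
  obtain ⟨e, he, f, hf, ef, se⟩ := h2.pair h (by omega)
  have k : ∀ {x y : G}, y ∈ Cx(x) → csgn x y = 1 := fun a => csgn_of_comm (mem_Cx.1 a).symm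
  have k1 := k hc'.1.2; have k2 := k hc'.2; have k3 := k hd.1.2; have k4 := k hd.2
  have k5 := k he.1.1.1.2; have k6 := k he.1.1.2; have k7 := k he.1.2; have k8 := k he.2
  have k9 := k hf.1.1.1.2; have k10 := k hf.1.1.2; have k11 := k hf.1.2; have k12 := k hf.2
  have kz : ∀ x, csgn z x = 1 := fun x => csgn_of_comm (h.cent x)
  have sz : ssgn z = 1 := if_pos h.sq
  have o : ∀ s : G, csgn s s = 1 := fun s => csgn_of_comm rfl
  rcases ssgn_cases f with sf | sf <;> rw [sf] at se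
  · obtain ⟨r1, r2⟩ := es_rels h (fun i => [z, a, b, c, d, e, f].getD i 1) rfl (fun i hi => by
      interval_cases i <;> assumption) [(1, 2), (3, 4), (5, 6)] (fun j hj i hi => by
      interval_cases j <;> interval_cases i <;> first | exact kz _ | assumption) zqprels (by decide)
    obtain ⟨ι, -, e2⟩ := TE.exists_hom zqp_g (fun i => [z, a, b, c, d, e, f].getD i 1) r1 r2
    have e3 : ι Zp = z := e2 0 Zp (by decide) (by decide +kernel)
    exact Or.inr ⟨ι, (inj_es hZp ι (e3 ▸ h.ne)).bijective_of_nat_card_le (by rw [hc, TE.card]; rfl), e3⟩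
  · have dc := (csgn_comm d c).trans cd
    have ec := (csgn_comm e c).trans k7
    have ed := (csgn_comm e d).trans k8
    obtain ⟨r1, r2⟩ := es_rels h (fun i => [z, a, b, c, d, c * d * e, c * d * f].getD i 1) rfl (fun i hi => by
      interval_cases i <;> simp [h.ssgn_mul, h.csgn_mul_left, *]) [(1, 2), (3, 4), (3, 5), (3, 6), (4, 5), (4, 6), (5, 6)]
      (fun j hj i hi => by
      interval_cases j <;> interval_cases i <;> simp [h.csgn_mul_left, h.csgn_mul_right, *]) zqmrels (by decide)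
    obtain ⟨ι, -, e2⟩ := TE.exists_hom zqm_g (fun i => [z, a, b, c, d, c * d * e, c * d * f].getD i 1) r1 r2
    have e3 : ι Zm = z := e2 0 Zm (by decide) (by decide +kernel)
    exact Or.inl ⟨ι, (inj_es hZm ι (e3 ▸ h.ne)).bijective_of_nat_card_le (by rw [hc, TE.card]; rfl), e3⟩

section
variable {T : Tab} {il : List ℕ} {rels : List (List ℕ)} {g : T.Good il rels}

theorem TE.top_of (K : Subgroup (TE g)) (h : ∀ x < T.nc, ∀ a : TE g, T.R x 0 = a.1 → a ∈ K) (a : TE g) : a ∈ K := by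
  let u : ℕ → TE g := fun x => if hx : x < T.nc then ⟨T.R x 0, (g.R_spec hx g.pos).1⟩ else 1
  have hu : ∀ x < T.nc, (u x).1 = T.R x 0 := fun x hx => congrArg Subtype.val (dif_pos hx)
  have : evw u (T.wl a.1) = a := TE.ext' <| (hom_evw (ρ := MonoidHom.mk' (fun a : TE g => g.pel a.1) TE.pel_mul)
    (fun x hx => by
      have := g.pel_trL g.pos [x] (by simpa using hx)
      rw [g.pel_zero, one_mul, evw_cons, evw_nil, mul_one] at this
      exact (congrArg g.pel (hu x hx)).trans this) _ (g.w_spec a.2).1)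
  exact this ▸ evw_mem (fun x hx => h x hx _ (hu x hx).symm) (g.w_spec a.2).1

noncomputable def autOk (Z : TE g) (l : List (TE g × ℕ)) : List (TE g) → Bool :=
  List.rec (fun bs => decide (∀ x < T.nc, ∃ b ∈ Z :: bs, T.R x 0 = b.1))
    (fun s _ ih bs => decide (s.1 * s.1 = 1 ∧ s.1 ≠ 1 ∧ s.1 ≠ Z) && Nat.ble (TE.cnt fun t => t * t = 1 ∧ t ≠ 1 ∧ t ≠ Z ∧
      ∀ b ∈ bs, (t * b = b * t ↔ s.1 * b = b * s.1)) s.2 && ih (s.1 :: bs)) l

theorem aut_le {Z : TE g} (hZ : ∀ φ : MulAut (TE g), φ Z = Z) (l : List (TE g × ℕ)) : ∀ bs, autOk Z l bs = true →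
    Nat.card (fixL (MulAut (TE g)) bs) ≤ (l.map Prod.snd).prod := by
  induction l with
  | nil =>
    intro bs h
    refine (card_le_of_le (K := ⊥) fun φ hφ => MulEquiv.ext fun t => TE.top_of
      (φ.toMonoidHom.eqLocus (MonoidHom.id _)) (fun x hx a e => ?_) t).trans (by simp)
    obtain ⟨b, hb, e'⟩ := of_decide_eq_true h x hx
    rw [show a = b from Subtype.ext (e.symm.trans e')]
    exact (List.mem_cons.1 hb).elim (fun e => e ▸ hZ φ) (hφ b)
  | cons s l ih =>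
    intro bs h
    have h : (decide (s.1 * s.1 = 1 ∧ s.1 ≠ 1 ∧ s.1 ≠ Z) && Nat.ble (TE.cnt fun t => t * t = 1 ∧ t ≠ 1 ∧ t ≠ Z ∧
      ∀ b ∈ bs, (t * b = b * t ↔ s.1 * b = b * s.1)) s.2 && autOk Z l (s.1 :: bs)) = true := h
    simp only [Bool.and_eq_true, decide_eq_true_eq] at h
    refine card_step s.1 (fun φ hφ => ?_) ((TE.cnt_eq _).le.trans (Nat.le_of_ble_eq_true h.1.2))
      ((card_le_of_le fun φ hφ => by exact List.forall_mem_cons.2 ⟨hφ.2, hφ.1⟩).trans (ih _ h.2))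
    refine ⟨by rw [MulAut.smul_def, ← map_mul, h.1.1.1, map_one], fun e => h.1.1.2.1 (φ.injective (e.trans (map_one φ).symm)),
      fun e => h.1.1.2.2 (φ.injective (e.trans (hZ φ).symm)), fun b hb => ?_⟩
    have : φ b = b := hφ b hb
    rw [MulAut.smul_def, ← φ.injective.eq_iff (a := s.1 * b), map_mul, map_mul, this]

theorem aut_Z {Z : TE g} (h : ∀ t : TE g, (∀ s, t * s = s * t) ∧ t ≠ 1 ↔ t = Z) (φ : MulAut (TE g)) : φ Z = Z :=
  (h _).1 ⟨fun s => by
    obtain ⟨s, rfl⟩ := φ.surjective s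
    rw [← map_mul, ((h Z).2 rfl).1, map_mul], fun e => ((h Z).2 rfl).2 (φ.injective (e.trans (map_one φ).symm))⟩
end

theorem cZm : ∀ t : Tm, (∀ s, t * s = s * t) ∧ t ≠ 1 ↔ t = Zm := by decide +kernel
theorem cZp : ∀ t : Tp, (∀ s, t * s = s * t) ∧ t ≠ 1 ↔ t = Zp := by decide +kernel

theorem autm : Nat.card (MulAut Tm) ≤ 2 * 1658880 := by
  have := aut_le (aut_Z cZm) [(.mk _ 2, 54), (.mk _ 3, 32), (.mk _ 4, 10), (.mk _ 5, 8), (.mk _ 6, 6), (.mk _ 7, 4)] []
    (by decide +kernel)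
  rwa [show fixL (MulAut Tm) ([] : List Tm) = ⊤ from top_unique fun _ _ => forall_nil, card_top] at this

theorem autp : Nat.card (MulAut Tp) < 2 * 1658880 ∧ 7 ∣ Nat.card (MulAut Tp) := by
  have := aut_le (aut_Z cZp) [(.mk _ 2, 70), (.mk _ 3, 32), (.mk _ 4, 18), (.mk _ 5, 8), (.mk _ 6, 4), (.mk _ 7, 2)] []
    (by decide +kernel)
  rw [show fixL (MulAut Tp) ([] : List Tp) = ⊤ from top_unique fun _ _ => forall_nil, card_top] at this
  refine ⟨this.trans_lt (by decide), ?_⟩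
  let u : ℕ → Tp := fun i => [Zp, .mk _ 81, .mk _ 118, .mk _ 16, .mk _ 82, .mk _ 124, .mk _ 84].getD i 1
  obtain ⟨f, e1, e2⟩ := TE.exists_hom zqp_g u (by decide +kernel) (by decide +kernel)
  have e3 : f Zp = Zp := e2 0 Zp (by decide) (by decide +kernel)
  let φ := MulEquiv.ofBijective f (Finite.injective_iff_bijective.1 (inj_es hZp f (by rw [e3]; decide +kernel)))
  have : Fact (Nat.Prime 7) := ⟨by norm_num⟩
  have e4 : ∀ t, φ t = evw u (zqp.wl t.1) := e1
  rw [← orderOf_eq_prime (x := φ) (p := 7) (MulEquiv.ext fun t => by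
    simp only [pow_succ, pow_zero, one_mul, MulAut.mul_apply, MulAut.one_apply, e4]; revert t; decide +kernel) fun e => by
    have := e4 (.mk _ 2)
    rw [e] at this; revert this; decide +kernel]
  exact orderOf_dvd_natCard (G := MulAut Tp) ⊤ trivial |>.trans (by rw [card_top])
end CfL
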