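import Cfsg.Agent.OD.Pre
import Cfsg.Agent.L.GA
import Cfsg.Agent.L.SE
/-! Enumeration along a stabiliser chain, graphs of homomorphisms, the class argument. -/
set_option autoImplicit false
open CfH6 MulAction Subgroup CfH9
namespace CfL

section
variable {G : Type*} [Group G]

theorem conj_mul_zpowers {z v w : G} (z2 : z * z = 1) (v2 : v * v = 1) (hw : w ∈ zpowers (v * z)) :
    IsConj z (z * w) ∨ IsConj v (z * w) := by
  obtain ⟨n, rfl⟩ := mem_zpowers_iff.1 hw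
  have zi : z⁻¹ = z := inv_eq_of_mul_eq_one_right z2
  have e : ∀ j : ℤ, ((v * z) ^ j)⁻¹ = z * (v * z) ^ j * z := fun j => by
    rw [← (inv_conj_mul v2 z2 (zpow_mem_zpowers (v * z) j)).2, zi]
  rcases Int.even_or_odd' n with ⟨j, rfl | rfl⟩
  · refine Or.inl (isConj_iff.2 ⟨((v * z) ^ j)⁻¹, ?_⟩)
    rw [inv_inv, e, mul_assoc (z * _), z2, mul_one, two_mul, zpow_add, mul_assoc]
  · refine Or.inr (isConj_iff.2 ⟨((v * z) ^ (j + 1))⁻¹, ?_⟩)
    rw [inv_inv, e, show (2 * j + 1 : ℤ) = (j + 1) + -1 + (j + 1) by ring, zpow_add _ _ (j + 1), zpow_add _ _ (-1),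
      zpow_neg_one, mul_inv_rev, zi, inv_eq_of_mul_eq_one_right v2]
    simp only [mul_assoc]

/-- the class argument -/
theorem se_cls [Finite G] (M : Subgroup G) {z t : G} (hz : z ∈ M) (z2 : z * z = 1)
    (hC : ∀ g, g * z * g⁻¹ ∈ M → g ∈ M)
    (hp : ∀ s ∈ M, IsConj z s → s * z = z * s → s ≠ z → Cx(z * s) ≤ M) (ht : IsConj z t) (htM : t ∉ M) :
    ∃ D ≤ M, (∀ s ∈ D, ¬ IsConj z s) ∧
      Nat.card D * Nat.card Cx(z) = Nat.card M * Nat.card (D ⊓ Cx(z) : Subgroup G) := by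
  have t2 := sq_of_isConj ht z2
  have ti : t⁻¹ = t := inv_eq_of_mul_eq_one_right t2
  have cz : Cx(z) ≤ M := fun g hg => hC g (by rwa [mem_Cx'.1 hg])
  let D : Subgroup G := M ⊓ M.comap (MulAut.conj t).toMonoidHom
  refine ⟨D, inf_le_left, fun s hs h => ?_, ?_⟩
  · obtain ⟨g, rfl⟩ := isConj_iff.1 h
    have b := hC (t * g) (by
      have : t * (g * z * g⁻¹) * t⁻¹ ∈ M := hs.2
      simpa [mul_assoc] using this)
    exact htM ((mul_mem_cancel_right (hC g hs.1)).1 b)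
  · have e : {b | ∃ g ∈ D, g * z * g⁻¹ = b} = {b | ∃ g ∈ M, g * z * g⁻¹ = b} := by
      ext b
      refine ⟨fun ⟨g, hg, e⟩ => ⟨g, hg.1, e⟩, ?_⟩
      rintro ⟨m, hm, rfl⟩
      have vc : IsConj z (t * m * z * (t * m)⁻¹) := isConj_iff.2 ⟨t * m, rfl⟩
      have v2 := sq_of_isConj vc z2
      have vM : t * m * z * (t * m)⁻¹ ∉ M := fun h => htM ((mul_mem_cancel_right hm).1 (hC _ h))
      obtain ⟨j, j2, hj⟩ := invol_conj_of_odd z2 v2 (by
        by_contra h
        obtain ⟨w, hw, w2, w1⟩ := exists_invol_of_even (Nat.not_odd_iff_even.1 h)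
        obtain ⟨c1, c2⟩ := comm_of_mem_zpowers v2 z2 hw w2
        have := hp (z * w) (mul_mem hz (cz (mem_Cx.2 c2.symm))) ((conj_mul_zpowers z2 v2 hw).elim id vc.trans)
          (by rw [mul_assoc, ← c2]) (fun e => w1 (mul_eq_left.1 e))
        rw [← mul_assoc, z2, one_mul] at this
        exact vM (this (mem_Cx.2 c1)))
      have ji : j⁻¹ = j := inv_eq_of_mul_eq_one_right j2
      have e : t * j * z * (t * j)⁻¹ = m * z * m⁻¹ := by
        rw [mul_inv_rev, ji, show t * j * z * (j * t⁻¹) = t * (j * z * j) * t⁻¹ by group, hj]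
        calc _ = (t * t) * (m * z * m⁻¹) * (t * t)⁻¹ := by group
          _ = _ := by rw [t2]; group
      have dM : t * j ∈ M := hC _ (e ▸ mul_mem (mul_mem hm hz) (inv_mem hm))
      refine ⟨t * j, ⟨dM, ?_⟩, e⟩
      change t * (t * j) * t⁻¹ ∈ M
      rw [← mul_assoc, t2, one_mul, ← ji, ← mul_inv_rev]
      exact inv_mem dM
    have a := ncard_conj_mul D z
    have b := ncard_conj_mul M z
    rw [inf_eq_right.2 cz] at b
    rw [e] at a
    rw [← a, ← b]; ring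

theorem sq_mem_of_card [Finite G] {R : Subgroup G} (h : Nat.card G ≤ 2 * Nat.card R) (g : G) : g * g ∈ R := by
  have h1 := R.card_mul_index
  have h2 : 0 < Nat.card R := Nat.card_pos
  have h3 : R.index ≠ 0 := index_ne_zero_of_finite
  have : R.index = 1 ∨ R.index = 2 := by
    have : R.index ≤ 2 := by nlinarith
    omega
  rcases this with e | e
  · rw [index_eq_one.1 e]; trivial
  · exact mul_self_mem_of_index_two e g

theorem covers_two {M X : Subgroup G} (h : Covers M X 2) {g : G} (hg : g ∈ X) : g * g ∈ M := by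
  obtain ⟨h0, h1⟩ := h.relIndex
  have : M.relIndex X = 1 ∨ M.relIndex X = 2 := by omega
  rcases this with e | e
  · exact relIndex_eq_one.1 e (mul_mem hg hg)
  · exact mul_self_mem_of_index_two (H := M.subgroupOf X) e ⟨g, hg⟩

theorem card_step {X : Type*} [MulAction G X] [Finite X] [Finite G] {L : Subgroup G} (b : X) {A : Set X} {c n : ℕ}
    (h : ∀ g ∈ L, g • b ∈ A) (hc : A.ncard ≤ c) (hn : Nat.card (L ⊓ stabilizer G b : Subgroup G) ≤ n) :
    Nat.card L ≤ c * n := by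
  rw [card_orbit_mul L b]
  exact Nat.mul_le_mul ((Set.ncard_le_ncard (by rintro _ ⟨g, rfl⟩; exact h g g.2)).trans hc) hn

/-- a subgroup of a product that is not larger than its first projection is a graph -/
theorem graph_one {S : Type*} [Group S] {K : Subgroup (S × G)} {n : ℕ} (h : Finite K ∧ Nat.card K ≤ n)
    (h2 : n ≤ Nat.card (K.map (MonoidHom.fst S G))) {π : S × G} (hπ : π ∈ K) (h1 : π.1 = 1) : π.2 = 1 := by
  have := h.1
  have hb := ((MonoidHom.fst S G).subgroupMap_surjective K).bijective_of_nat_card_le (h.2.trans h2)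
  have : (⟨π, hπ⟩ : K) = 1 := hb.1 (Subtype.ext (by simpa using h1))
  exact congrArg (fun x : K => x.1.2) this

theorem map_gensub {Γ : Type*} [Group Γ] (f : G →* Γ) (ev : ℕ → G) (k : ℕ) :
    (gensub ev k).map f = gensub (fun x => f (ev x)) k := by
  rw [gensub, MonoidHom.map_closure, gensub, Set.image_image]

theorem conj_gensub {ev : ℕ → G} {k : ℕ} {L : Subgroup G} {g : G} (h : ∀ x < k, g * ev x * g⁻¹ ∈ L) :
    ∀ s ∈ gensub ev k, g * s * g⁻¹ ∈ L :=
  gensub_le (K := L.comap (MulAut.conj g).toMonoidHom) h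

theorem evw_rev {ev : ℕ → G} {k : ℕ} (h : ∀ x < k, ev x * ev x = 1) {w : List ℕ} (hw : ∀ x ∈ w, x < k) :
    evw ev w.reverse = (evw ev w)⁻¹ := by
  induction w with
  | nil => simp
  | cons x w ih =>
    rw [List.reverse_cons, evw_append, ih fun y hy => hw y (List.mem_cons_of_mem _ hy), evw_cons, evw_cons, evw_nil,
      mul_one, mul_inv_rev, inv_eq_of_mul_eq_one_right (h x (hw x List.mem_cons_self))]
end

/-- the images of `b` under the words are distinct -/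
noncomputable def Tab.dist (T : Tab) (b : ℕ) (U : List (List ℕ)) : ℕ → Bool :=
  List.rec (fun _ => true) (fun t _ ih S => frc S fun S => frc (T.trL t b) fun j =>
    !bitN S j && ih (Nat.lor S (Nat.shiftLeft 1 j))) U

abbrev Lv := List (ℕ × List (List ℕ))

noncomputable def Tab.lvOk (T : Tab) (k : ℕ) (l : Lv) : List ℕ → Bool :=
  List.rec (fun _ => true) (fun s _ ih bs => Nat.blt s.1 T.N && s.2.all (allLt k) &&
    s.2.all (fun w => bs.all fun b => Nat.beq (T.trL w b) b) && T.dist s.1 s.2 0 && ih (s.1 :: bs)) l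

def lvN (l : Lv) : ℕ := (l.map fun s => s.2.length).prod

/-- a pruning rule: the image of `b` moved by `y` lies in `S` or is the image of `b'` -/
structure Rul where
  y : List ℕ
  b : ℕ
  b' : ℕ
  S : ℕ

noncomputable def Tab.pass (T : Tab) (w : List ℕ) (ρ : Rul) : Bool :=
  frc (T.trL ρ.y (T.trL w ρ.b)) fun j => bitN ρ.S j || Nat.beq ρ.S 0 && Nat.beq j (T.trL w ρ.b')

noncomputable def Tab.dfs (T : Tab) (fin : List ℕ → Bool) (l : Lv) : List (List Rul) → List ℕ → Bool :=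
  List.rec (fun _ w => fin w) (fun s _ ih rs w => s.2.all fun t =>
    !(rs.headD []).all (T.pass (t ++ w)) || ih rs.tail (t ++ w)) l

def rulOk (l : Lv) : List (List Rul) → List ℕ → Bool :=
  List.rec (fun _ _ => true) (fun s _ ih rs bs =>
    (rs.headD []).all (fun ρ => (s.1 :: bs).contains ρ.b && (s.1 :: bs).contains ρ.b') && ih rs.tail (s.1 :: bs)) l

namespace Rep
variable {T : Tab} {G : Type*} [Group G] {ev : ℕ → G} (r : Rep T ev)

theorem dist_ge (b : r.Pt) {A : Set r.Pt} (U : List (List ℕ)) : ∀ S, (∀ t ∈ U, ∀ x ∈ t, x < T.nc) →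
    (∀ t ∈ U, (evw ev t)⁻¹ • b ∈ A) → T.dist b.1 U S = true →
      ∃ B ⊆ A, B.ncard = U.length ∧ ∀ i ∈ B, S.testBit i.1 = false ∧ ∃ t ∈ U, (evw ev t)⁻¹ • b = i := by
  induction U with
  | nil => exact fun _ _ _ _ => ⟨∅, Set.empty_subset _, by simp, by simp⟩
  | cons t U ih =>
    intro S h1 h2 h
    have h : (!bitN S (T.trL t b.1) && T.dist b.1 U (Nat.lor S (Nat.shiftLeft 1 (T.trL t b.1)))) = true := by
      simpa only [Tab.dist, frc_eq] using h
    rw [Bool.and_eq_true, ← r.word (h1 t List.mem_cons_self), bitN_eq] at h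
    obtain ⟨B, b1, b2, b3⟩ := ih _ (fun u hu => h1 u (List.mem_cons_of_mem _ hu))
      (fun u hu => h2 u (List.mem_cons_of_mem _ hu)) h.2
    have b4 : ∀ i ∈ B, S.testBit i.1 = false ∧ i ≠ (evw ev t)⁻¹ • b := fun i hi => by
      have : Nat.testBit (S ||| (1 <<< _)) _ = false := (b3 i hi).1
      rw [Nat.testBit_or, Bool.or_eq_false_iff] at this
      refine ⟨this.1, fun e => ?_⟩
      rw [e, Nat.one_shiftLeft, Nat.testBit_two_pow_self] at this
      exact absurd this.2 (by decide)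
    refine ⟨insert ((evw ev t)⁻¹ • b) B, Set.insert_subset (h2 t List.mem_cons_self) b1,
      by rw [Set.ncard_insert_of_notMem fun h => (b4 _ h).2 rfl, b2, List.length_cons], ?_⟩
    rintro i (rfl | hi)
    · exact ⟨by simpa using h.1, t, List.mem_cons_self, rfl⟩
    · obtain ⟨u, hu, e⟩ := (b3 i hi).2
      exact ⟨(b4 i hi).1, u, List.mem_cons_of_mem _ hu, e⟩

theorem Fx_cons (K : Subgroup G) (p : r.Pt) (bs : List ℕ) :
    (K ⊓ r.Fx bs) ⊓ stabilizer G p = K ⊓ r.Fx (p.1 :: bs) := by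
  ext g
  simp only [mem_inf, mem_stabilizer_iff, mem_Fx, List.mem_cons, and_assoc]
  refine and_congr_right fun _ => ⟨fun h i hi => ?_, fun h => ⟨fun i hi => h i (Or.inr hi), h p (Or.inl rfl)⟩⟩
  rcases hi with hi | hi
  · rw [show i = p from Subtype.ext hi, h.2]
  · exact h.1 i hi

variable [Finite G] {k : ℕ} (hk : k ≤ T.nc)
include hk

theorem lv_step {s : ℕ × List (List ℕ)} {l : Lv} {bs : List ℕ} (h : T.lvOk k (s :: l) bs = true) :
    ∃ p : r.Pt, p.1 = s.1 ∧ T.lvOk k l (p.1 :: bs) = true ∧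
      (∀ t ∈ s.2, (∀ x ∈ t, x < T.nc) ∧ evw ev t ∈ gensub ev k ⊓ r.Fx bs) ∧
      ∃ B ⊆ orbit (gensub ev k ⊓ r.Fx bs : Subgroup G) p, B.ncard = s.2.length ∧
        ∀ i ∈ B, ∃ t ∈ s.2, (evw ev t)⁻¹ • p = i := by
  have h : (Nat.blt s.1 T.N && s.2.all (allLt k) && s.2.all (fun w => bs.all fun b => Nat.beq (T.trL w b) b) &&
    T.dist s.1 s.2 0 && T.lvOk k l (s.1 :: bs)) = true := h
  simp only [Bool.and_eq_true] at h
  obtain ⟨⟨⟨⟨h1, h2⟩, h3⟩, h4⟩, h5⟩ := h
  have a : ∀ t ∈ s.2, (∀ x ∈ t, x < T.nc) ∧ evw ev t ∈ gensub ev k ⊓ r.Fx bs := fun t ht =>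
    have := fun x hx => (allLt_all h2 t ht x hx).trans_le hk
    ⟨this, evw_mem (fun _ => mem_gensub) (allLt_all h2 t ht), r.word_Fx this (List.all_eq_true.1 h3 t ht)⟩
  obtain ⟨B, b1, b2, b3⟩ := r.dist_ge ⟨s.1, blt1 h1⟩ (A := orbit (gensub ev k ⊓ r.Fx bs : Subgroup G) ⟨s.1, blt1 h1⟩)
    s.2 0 (fun t ht => (a t ht).1) (fun t ht => ⟨(⟨_, (a t ht).2⟩ : (gensub ev k ⊓ r.Fx bs : Subgroup G))⁻¹, rfl⟩) h4
  exact ⟨⟨s.1, blt1 h1⟩, rfl, h5, a, B, b1, b2, fun i hi => (b3 i hi).2⟩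

theorem lv_ge (l : Lv) : ∀ bs, T.lvOk k l bs = true → lvN l ≤ Nat.card (gensub ev k ⊓ r.Fx bs : Subgroup G) := by
  induction l with
  | nil => exact fun _ _ => Nat.card_pos
  | cons s l ih =>
    intro bs h
    obtain ⟨p, -, h1, -, B, b1, b2, -⟩ := r.lv_step hk h
    rw [card_orbit_mul _ p, r.Fx_cons]
    exact Nat.mul_le_mul (b2.ge.trans (Set.ncard_le_ncard b1)) (ih _ h1)

def Ok (h : G) (ρ : Rul) : Prop := (∀ x ∈ ρ.y, x < T.nc) ∧ ∀ i j : r.Pt, i.1 = ρ.b → j.1 = ρ.b' →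
  ρ.S.testBit ((evw ev ρ.y)⁻¹ • h⁻¹ • i).1 = true ∨ ρ.S = 0 ∧ (evw ev ρ.y)⁻¹ • h⁻¹ • i = h⁻¹ • j

theorem lv_enum (fin : List ℕ → Bool) (l : Lv) : ∀ bs rs w, (∀ b ∈ bs, b < T.N) → T.lvOk k l bs = true →
    rulOk l rs bs = true → Nat.card (gensub ev k ⊓ r.Fx bs : Subgroup G) ≤ lvN l → (∀ x ∈ w, x < T.nc) →
    T.dfs fin l rs w = true → ∀ h ∈ gensub ev k ⊓ r.Fx bs, (∀ ρ ∈ rs.flatten, r.Ok (h * evw ev w) ρ) →
      ∃ u, (∀ x ∈ u, x < T.nc) ∧ evw ev u = h * evw ev w ∧ fin u = true := by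
  induction l with
  | nil =>
    intro bs rs w _ _ _ hc hw hd h hh _
    rw [eq_bot_of_card_le _ hc, mem_bot] at hh
    exact ⟨w, hw, by rw [hh, one_mul], hd⟩
  | cons s l ih =>
    intro bs rs w hb hl hr hc hw hd h hh hρ
    obtain ⟨p, hp, h1, h2, B, b1, b2, b3⟩ := r.lv_step hk hl
    have h3 := r.lv_ge hk l _ h1
    have h4 := Set.ncard_le_ncard b1
    rw [card_orbit_mul _ p, r.Fx_cons, lvN, List.map_cons, List.prod_cons, ← lvN, ← b2] at hc
    have h5 : 0 < (orbit (gensub ev k ⊓ r.Fx bs : Subgroup G) p).ncard :=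
      (Set.ncard_pos (Set.toFinite _)).2 ⟨p, mem_orbit_self p⟩
    have h6 : 0 < Nat.card (gensub ev k ⊓ r.Fx (p.1 :: bs) : Subgroup G) := Nat.card_pos
    obtain ⟨t, ht, e⟩ := b3 (h⁻¹ • p) ((Set.eq_of_subset_of_ncard_le b1 (by nlinarith)).ge
      ⟨(⟨h, hh⟩ : (gensub ev k ⊓ r.Fx bs : Subgroup G))⁻¹, rfl⟩)
    have h7 : h * (evw ev t)⁻¹ ∈ gensub ev k ⊓ r.Fx (p.1 :: bs) := by
      rw [← r.Fx_cons]
      exact mem_inf.2 ⟨mul_mem hh (inv_mem (h2 t ht).2), by rw [mem_stabilizer_iff, mul_smul, e, smul_inv_smul]⟩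
    have h8 : ∀ x ∈ t ++ w, x < T.nc := fun x hx => (List.mem_append.1 hx).elim ((h2 t ht).1 x) (hw x)
    have e2 : h * (evw ev t)⁻¹ * evw ev (t ++ w) = h * evw ev w := by rw [evw_append]; group
    have hr : ((rs.headD []).all (fun ρ => (s.1 :: bs).contains ρ.b && (s.1 :: bs).contains ρ.b') &&
      rulOk l rs.tail (s.1 :: bs)) = true := hr
    rw [Bool.and_eq_true, ← hp] at hr
    have hb' : ∀ b ∈ p.1 :: bs, b < T.N := List.forall_mem_cons.2 ⟨p.2, hb⟩
    have h9 := List.all_eq_true.1 hd t ht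
    rw [List.all_eq_true.2 fun ρ hm => ?_] at h9
    · rw [← e2] at hρ ⊢
      refine ih _ rs.tail _ hb' h1 hr.2 (by nlinarith) h8 h9 _ h7 fun ρ hm => hρ ρ ?_
      cases rs with
      | nil => exact hm
      | cons a rs => exact List.mem_append_right _ hm
    · have a := List.all_eq_true.1 hr.1 ρ hm
      simp only [Bool.and_eq_true, List.contains_iff_mem] at a
      have im : ∀ i : r.Pt, i.1 ∈ p.1 :: bs → T.trL (t ++ w) i.1 = ((h * evw ev w)⁻¹ • i).1 := fun i hi => by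
        rw [← e2, mul_inv_rev, mul_smul, inv_smul_eq_iff.2 (h7.2 i hi).symm, r.word h8]
      obtain ⟨o1, o2⟩ := hρ ρ (by
        cases rs with
        | nil => exact hm
        | cons a rs => exact List.mem_append_left _ hm)
      rw [Tab.pass, frc_eq, im ⟨_, hb' _ a.1⟩ a.1, im ⟨_, hb' _ a.2⟩ a.2, ← r.word o1, bitN_eq, Bool.or_eq_true]
      exact (o2 ⟨_, hb' _ a.1⟩ ⟨_, hb' _ a.2⟩ rfl rfl).imp id fun e => by rw [e.1, e.2, Nat.beq_refl, Nat.beq_refl]; rfl

omit [Finite G] hk in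
theorem ok_of {h : G} {ys : List (List ℕ)} {fx : List (ℕ × ℕ)} (hy : ∀ y ∈ ys, evw ev y * h = h * evw ev y)
    (hf : ∀ s ∈ fx, ∀ i : r.Pt, i.1 = s.1 → s.2.testBit (h⁻¹ • i).1 = true) (rs : List Rul)
    (hc : (rs.all fun ρ => allLt T.nc ρ.y &&
      (ys.contains ρ.y && Nat.beq (T.trL ρ.y ρ.b) ρ.b' && Nat.beq ρ.S 0 ||
      ρ.y.isEmpty && fx.contains (ρ.b, ρ.S))) = true) : ∀ ρ ∈ rs, r.Ok h ρ := fun ρ hm => by
  have := List.all_eq_true.1 hc ρ hm
  simp only [Bool.and_eq_true, Bool.or_eq_true, List.contains_iff_mem, List.isEmpty_iff] at this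
  refine ⟨allLt_sound this.1, fun i j hi hj => ?_⟩
  rcases this.2 with ⟨⟨a, b⟩, c⟩ | ⟨a, b⟩
  · refine Or.inr ⟨Nat.eq_of_beq_eq_true c, ?_⟩
    rw [← mul_smul, ← mul_inv_rev, ← hy _ a, mul_inv_rev, mul_smul]
    exact congrArg _ (Subtype.ext (by rw [r.word (allLt_sound this.1), hi, hj, Nat.eq_of_beq_eq_true b]))
  · left
    rw [a, evw_nil, inv_one, one_smul]
    exact hf _ b i hi

end Rep

theorem beq_ne {a b : ℕ} (h : a ≠ b) : Nat.beq a b = false :=
  Bool.eq_false_iff.2 fun e => h (Nat.eq_of_beq_eq_true e)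

/-- substitute the word `w` for the letter `v` -/
noncomputable def plug (v : ℕ) (w t : List ℕ) : List ℕ :=
  List.rec [] (fun x _ ih => Bool.rec (x :: ih) (w ++ ih) (Nat.beq x v)) t

def upd {G : Type*} (ev : ℕ → G) (v : ℕ) (h : G) (x : ℕ) : G := if x = v then h else ev x

theorem evw_plug {G : Type*} [Group G] (ev : ℕ → G) (v : ℕ) (w t : List ℕ) :
    evw ev (plug v w t) = evw (upd ev v (evw ev w)) t := by
  induction t with
  | nil => rfl
  | cons x t ih =>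
    change evw ev (Bool.rec (x :: plug v w t) (w ++ plug v w t) (Nat.beq x v)) = _
    by_cases h : x = v
    · rw [h, Nat.beq_refl, evw_cons, ← ih, upd, if_pos rfl]; exact evw_append _ _ _
    · rw [beq_ne h, evw_cons, evw_cons, ← ih, upd, if_neg h]

theorem plug_lt {n : ℕ} {w : List ℕ} (hw : ∀ x ∈ w, x < n) (t : List ℕ) (ht : ∀ x ∈ t, x < n + 1) :
    ∀ x ∈ plug n w t, x < n := by
  induction t with
  | nil => exact fun _ h => absurd h List.not_mem_nil
  | cons y t ih =>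
    have ih := ih fun x hx => ht x (List.mem_cons_of_mem _ hx)
    change ∀ x ∈ (Bool.rec (y :: plug n w t) (w ++ plug n w t) (Nat.beq y n) : List ℕ), x < n
    by_cases h : y = n
    · rw [h, Nat.beq_refl]; exact fun x hx => (List.mem_append.1 hx).elim (hw x) (ih x)
    · rw [beq_ne h]
      exact List.forall_mem_cons.2 ⟨by have := ht y List.mem_cons_self; omega, ih⟩

noncomputable def Tab.same (T : Tab) (bs u w : List ℕ) : Bool := bs.all fun b => Nat.beq (T.trL u b) (T.trL w b)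

noncomputable def Tab.slv (T : Tab) (bs : List ℕ) (ys ts cs : List (List ℕ)) (w : List ℕ) : Bool :=
  ys.any (fun y => !T.same bs (y ++ w) (w ++ y)) || ts.any (fun t => !T.same bs (plug T.nc w t) []) ||
    cs.any fun c => T.same bs w c

namespace Rep
variable {T : Tab} {G : Type*} [Group G] {ev : ℕ → G} (r : Rep T ev) {bs : List ℕ}

include r in
theorem same_of (hb : ∀ b ∈ bs, b < T.N) {u w : List ℕ} (hu : ∀ x ∈ u, x < T.nc) (hw : ∀ x ∈ w, x < T.nc)
    (e : evw ev u = evw ev w) : T.same bs u w = true := List.all_eq_true.2 fun b h => by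
  rw [← r.word hu ⟨b, hb b h⟩, ← r.word hw ⟨b, hb b h⟩, e, Nat.beq_refl]

theorem of_same (hb : ∀ g ∈ r.Fx bs, g = 1) {u w : List ℕ} (hu : ∀ x ∈ u, x < T.nc) (hw : ∀ x ∈ w, x < T.nc)
    (e : T.same bs u w = true) : evw ev u = evw ev w := by
  refine mul_inv_eq_one.1 (hb _ fun i hi => ?_)
  have := Nat.eq_of_beq_eq_true (List.all_eq_true.1 e _ hi)
  rw [← r.word hu, ← r.word hw] at this
  rw [mul_smul, ← Subtype.ext this, smul_inv_smul]

/-- all solutions of a system of equations in the subgroup generated by the first `k` letters -/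
theorem solve [Finite G] {k : ℕ} (hk : k ≤ T.nc) (hb : ∀ g ∈ r.Fx bs, g = 1) {l : Lv} (hl : T.lvOk k l [] = true)
    (hc : Nat.card (gensub ev k) ≤ lvN l) (rs : List (List Rul)) (ys : List (List ℕ)) (fx : List (ℕ × ℕ))
    (ts cs : List (List ℕ))
    (h : (bs.all (fun b => Nat.blt b T.N) && ys.all (allLt T.nc) && ts.all (allLt (T.nc + 1)) && cs.all (allLt T.nc) &&
      rulOk l rs [] && (rs.flatten.all fun ρ => allLt T.nc ρ.y &&
      (ys.contains ρ.y && Nat.beq (T.trL ρ.y ρ.b) ρ.b' && Nat.beq ρ.S 0 ||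
      ρ.y.isEmpty && fx.contains (ρ.b, ρ.S))) && T.dfs (T.slv bs ys ts cs) l rs []) = true)
    {g : G} (hg : g ∈ gensub ev k) (hy : ∀ y ∈ ys, evw ev y * g = g * evw ev y)
    (hf : ∀ s ∈ fx, ∀ i : r.Pt, i.1 = s.1 → s.2.testBit (g⁻¹ • i).1 = true)
    (ht : ∀ t ∈ ts, evw (upd ev T.nc g) t = 1) : ∃ c ∈ cs, g = evw ev c := by
  simp only [Bool.and_eq_true] at h
  obtain ⟨⟨⟨⟨⟨⟨h1, h2⟩, h3⟩, h4⟩, h5⟩, h6⟩, h7⟩ := h
  have b1 : ∀ b ∈ bs, b < T.N := fun b h => blt1 (List.all_eq_true.1 h1 b h)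
  obtain ⟨u, u1, u2, u3⟩ := r.lv_enum hk _ l [] rs [] (by simp) hl h5 ((card_le_of_le inf_le_left).trans hc) (by simp) h7
    g ⟨hg, fun _ h => absurd h List.not_mem_nil⟩ (by simpa using r.ok_of hy hf _ h6)
  rw [evw_nil, mul_one] at u2
  subst u2
  simp only [Tab.slv, Bool.or_eq_true, List.any_eq_true] at u3
  have ap : ∀ {a b : List ℕ}, (∀ x ∈ a, x < T.nc) → (∀ x ∈ b, x < T.nc) → ∀ x ∈ a ++ b, x < T.nc :=
    fun ha hb x hx => (List.mem_append.1 hx).elim (ha x) (hb x)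
  rcases u3 with (⟨y, a, e⟩ | ⟨t, a, e⟩) | ⟨c, a, e⟩
  · rw [r.same_of b1 (ap (allLt_all h2 y a) u1) (ap u1 (allLt_all h2 y a)) (by simpa using hy y a)] at e
    exact absurd e (by decide)
  · rw [r.same_of b1 (plug_lt u1 t (allLt_all h3 t a)) (by simp) (by rw [evw_plug, ht t a, evw_nil])] at e
    exact absurd e (by decide)
  · exact ⟨c, a, r.of_same hb u1 (allLt_all h4 c a) e⟩

end Rep
end CfL
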