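import Cfsg.Agent.OD.Pre
import Cfsg.Agent.H4.D8b
/-! Products of two involutions in `SL₃(2)` and `A₆`. -/
set_option autoImplicit false
set_option maxRecDepth 100000
open CfH4
namespace CfL

theorem d8_pow {G : Type*} [Group G] (h : Nonempty (G ≃* SL32) ∨ Nonempty (G ≃* alternatingGroup (Fin 6))) {c d : G}
    (hc : c * c = 1) (hd : d * d = 1) : (c * d) ^ 3 = 1 ∨ (c * d) ^ 4 = 1 ∨ (c * d) ^ 5 = 1 := by
  rcases h with ⟨⟨e⟩⟩ | ⟨⟨e⟩⟩ <;> simp only [← e.map_eq_one_iff, map_pow]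
  · have : ∀ x : Matrix (Fin 3) (Fin 3) (ZMod 2), x.det = 1 → x ^ 3 = 1 ∨ x ^ 4 = 1 ∨ (x * x ^ 6 = 1 ∧ x.trace ≠ (x ^ 6).trace) := by
      decide +kernel
    rcases this _ (e (c * d)).2 with a | a | ⟨a, b⟩
    · exact Or.inl (Subtype.ext a)
    · exact Or.inr (Or.inl (Subtype.ext a))
    · have : e (d * c) = e (c * d) ^ 6 := by
        rw [← mul_right_inj (e (c * d)), ← map_mul, mul_assoc, ← mul_assoc d, hd, one_mul, hc, map_one]
        exact (Subtype.ext a).symm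
      refine b.elim ?_
      rw [← Matrix.SpecialLinearGroup.coe_pow, ← this, map_mul, map_mul]
      exact Matrix.trace_mul_comm (e c).1 (e d).1
  · have : ∀ x : Equiv.Perm (Fin 6), Equiv.Perm.sign x = 1 → x ^ 3 = 1 ∨ x ^ 4 = 1 ∨ x ^ 5 = 1 := by decide +kernel
    exact (this _ (e (c * d)).2).imp Subtype.ext (Or.imp Subtype.ext Subtype.ext)

end CfL
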