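import Cfsg.Agent.H6.N23a
/-! The three steps of the character theoretic part for `M₂₃`, and a multiset search engine. -/
set_option autoImplicit false
open Subgroup
namespace CfLm
universe u

/-- centralizer and normalizer orders at the prime `p` -/
def CN (G : Type*) [Group G] (p c n : ℕ) : Prop := ∀ u : G, orderOf u = p →
  Nat.card (centralizer ({u} : Set G)) = c ∧ Nat.card (normalizer (zpowers u : Set G)) = n

def QA : Prop := ∀ {G : Type u} [Group G] [Finite G], IsSimpleGroup G → Nat.card G = 10200960 → CN G 23 23 253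
def QB : Prop := ∀ {G : Type u} [Group G] [Finite G], IsSimpleGroup G → Nat.card G = 10200960 → CN G 23 23 253 →
  CN G 11 11 55
def QC : Prop := ∀ {G : Type u} [Group G] [Finite G], IsSimpleGroup G → Nat.card G = 10200960 → CN G 23 23 253 →
  CN G 11 11 55 → CN G 7 14 42 ∧ CN G 5 15 60 ∧ Nat.card (ConjClasses G) = 17

theorem q0_of (a : QA.{u}) (b : QB.{u}) (c : QC.{u}) : CfH6.M23.Q0.{u} := fun hs hG => by
  have h1 := a hs hG
  have h2 := b hs hG h1
  obtain ⟨h3, h4, h5⟩ := c hs hG h1 h2
  exact ⟨hs, hG, fun u h => (h1 u h).1, fun u h => (h1 u h).2, fun u h => (h2 u h).1, fun u h => (h2 u h).2,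
    fun u h => (h3 u h).1, fun u h => (h3 u h).2, fun u h => (h4 u h).1, fun u h => (h4 u h).2, h5⟩

section engine
variable {α β σ : Type}

/-- enumerate all multisets of candidates whose partial states pass `ok` -/
def chk (ok : σ → Bool) (add : σ → α → σ) (fin : σ → List α → Bool) : ℕ → List α → σ → List α → Bool
  | 0, _, _, _ => false
  | _ + 1, [], s, acc => fin s acc
  | n + 1, c :: cs, s, acc => chk ok add fin n cs s acc &&
      (match ok (add s c) with
        | false => true
        | true => chk ok add fin n (c :: cs) (add s c) (c :: acc))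

theorem chk_sound {ok : σ → Bool} {add : σ → α → σ} {fin : σ → List α → Bool} (f : β → α) (Inv : σ → List β → Prop)
    (h1 : ∀ s x M, Inv s (x :: M) → ok (add s (f x)) = true ∧ Inv (add s (f x)) M)
    (h2 : ∀ s M M', M.Perm M' → Inv s M → Inv s M') :
    ∀ (n : ℕ) (cs : List α) (s : σ) (acc : List α) (M : List β), chk ok add fin n cs s acc = true →
      (∀ x ∈ M, f x ∈ cs) → Inv s M → ∃ s' M', List.Perm M' M ∧ Inv s' [] ∧ fin s' (M'.map f ++ acc) = true := by
  intro n
  induction n with
  | zero => intro cs s acc M h; simp [chk] at h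
  | succ n ih =>
    intro cs s acc M h hM hI
    cases cs with
    | nil =>
      cases M with
      | nil => exact ⟨s, [], .refl _, hI, by simpa [chk] using h⟩
      | cons x M => simpa using hM x (by simp)
    | cons c cs =>
      rw [chk, Bool.and_eq_true] at h
      by_cases hc : ∃ x ∈ M, f x = c
      · obtain ⟨x, hx, rfl⟩ := hc
        obtain ⟨A, B, rfl⟩ := List.append_of_mem hx
        obtain ⟨o, hI'⟩ := h1 s x (A ++ B) (h2 _ _ _ List.perm_middle hI)
        have h' := h.2
        rw [o] at h'
        obtain ⟨s', M', p, i, e⟩ := ih _ _ _ (A ++ B) h' (fun y hy => hM y (by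
          rcases List.mem_append.1 hy with h | h <;> simp [h])) hI'
        refine ⟨s', M' ++ [x], ?_, i, by simpa using e⟩
        exact (List.perm_append_singleton _ _).trans ((p.cons x).trans List.perm_middle.symm)
      · exact ih _ _ _ M h.1 (fun x hx => (List.mem_cons.1 (hM x hx)).resolve_left fun e => hc ⟨x, hx, e⟩) hI

end engine
end CfLm
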