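import Cfsg.Agent.H4.Mc1
import Cfsg.Agent.H4.ZStar
import Cfsg.Agent.L.M23a
import Cfsg.Agent.OD.Helper8xf0e503a5e1
/-! Row constraints for the principal block of defect one. -/
set_option autoImplicit false
set_option linter.unusedSectionVars false
open Cfsg CfH4 CfH4.GA CfH4.D1 CfH9 CfH7 Subgroup Finset
open scoped ComplexConjugate
namespace CfLm
universe u
variable {G : Type u} [Group G] [Finite G] {p : ℕ} [hp : Fact p.Prime] {x : G}

theorem hom_triv [IsSimpleGroup G] (hn : ¬ (Nat.card G).Prime) (f : G →* ℂˣ) (g : G) : f g = 1 := by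
  rcases (MonoidHom.normal_ker f).eq_bot_or_eq_top with h | h
  · have i := (MonoidHom.ker_eq_bot_iff f).1 h
    letI : CommGroup G := { ‹Group G› with mul_comm := fun a b => i (by rw [map_mul, map_mul, mul_comm]) }
    exact absurd IsSimpleGroup.prime_card hn
  · exact (MonoidHom.mem_ker).1 (h ▸ mem_top g)

theorem pm_ms (S : Multiset ℂ) (h : ∀ z ∈ S, z ^ 2 = 1) : ∃ k : ℕ, (S.card : ℂ) - S.sum = 2 * k ∧ S.prod = (-1) ^ k := by
  induction S using Multiset.induction_on with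
  | empty => exact ⟨0, by simp⟩
  | cons a S ih =>
    obtain ⟨k, h1, h2⟩ := ih fun z hz => h z (Multiset.mem_cons_of_mem hz)
    rcases sq_eq_one_iff.1 (h a (Multiset.mem_cons_self _ _)) with rfl | rfl
    · exact ⟨k, by simp; linear_combination h1, by simp [h2]⟩
    · exact ⟨k + 1, by simp; linear_combination h1, by simp [h2, pow_succ]⟩

theorem four [IsSimpleGroup G] (hn : ¬ (Nat.card G).Prime) {χ : G → ℂ} (hχ : IsCharacter G χ) {s : G} (hs : s * s = 1) :
    ∃ k : ℕ, χ 1 - χ s = 4 * k := by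
  obtain ⟨n, ρ, rfl⟩ := hχ
  obtain ⟨S, h1, h2, h3, h4⟩ := rep_exists_eigen ρ s
  obtain ⟨c, hc⟩ : orderOf s ∣ 2 := orderOf_dvd_of_pow_eq_one (by rw [sq, hs])
  obtain ⟨k, a, b⟩ := pm_ms S fun z hz => by rw [hc, pow_mul, h2 z hz, one_pow]
  have d : LinearMap.det (ρ s) = 1 := congrArg Units.val (hom_triv hn (LinearMap.det.comp ρ).toHomUnits s)
  rw [← h4, d] at b
  obtain ⟨j, rfl⟩ := (neg_one_pow_eq_one_iff_even (by norm_num)).1 b.symm
  refine ⟨j, ?_⟩
  have := h3 1
  simp only [pow_one, Multiset.map_id'] at this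
  rw [this, ρ.char_one, ← h1, a]; push_cast; ring

theorem faith [IsSimpleGroup G] {χ : IrrCharacter G} (h : χ ≠ triv G) {s : G} (s1 : s ≠ 1) :
    (χ : G → ℂ) s ≠ (χ : G → ℂ) 1 := fun e => by
  rcases χ.2.classFun.normal_charKer.eq_bot_or_eq_top with k | k
  · exact s1 (mem_bot.1 (k ▸ χ.2.isCharacter.mem_charKer.2 e))
  · exact h (irr_eq_triv k)

theorem row [IsSimpleGroup G] (hn : ¬ (Nat.card G).Prime) (h : Syl p x) {s : G} (hs : s * s = 1) (s1 : s ≠ 1)
    (hc : Commute x s) (p2 : p ≠ 2) {χ : IrrCharacter G} (hχ : χ ∈ B0 p G) (h1 : χ ≠ triv G) :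
    ∃ j : ℕ, 1 ≤ j ∧ (χ : G → ℂ) s = deg (χ : G → ℂ) - 4 * p * j ∧ ∀ l : ZMod p, 2 * j ≤ m x χ l := by
  obtain ⟨k, hk⟩ := four hn χ.2.isCharacter hs
  have a : ∀ l : ZMod p, ∃ n ≤ m x χ l, p * n = 2 * k := fun l => by
    obtain ⟨n, a, b⟩ := h.inK hs hc p2 hχ l
    refine ⟨n, a, ?_⟩
    have : (p : ℂ) * n = 2 * k := by linear_combination (hk - b) / 2
    exact_mod_cast this
  obtain ⟨n, -, b⟩ := a 0
  obtain ⟨j, rfl⟩ : 2 ∣ n := (Nat.Coprime.dvd_mul_left ((Nat.coprime_primes Nat.prime_two hp.out).2 p2.symm)).1 ⟨k, b⟩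
  have c : (p : ℂ) * (2 * j) = 2 * k := by exact_mod_cast b
  have e : (χ : G → ℂ) s = deg (χ : G → ℂ) - 4 * p * j := by
    rw [χ.2.isCharacter.deg_eq]; linear_combination -hk + 2 * c
  refine ⟨j, Nat.pos_of_ne_zero fun j0 => faith h1 s1 ?_, e, fun l => ?_⟩
  · rw [e, j0, χ.2.isCharacter.deg_eq]; simp
  · obtain ⟨n, a, b'⟩ := a l
    rwa [← Nat.eq_of_mul_eq_mul_left hp.out.pos (b'.trans b.symm)]

theorem dvd_u (h : Syl p x) (j : ZMod p) (χ : IrrCharacter G) :
    (deg (χ : G → ℂ) : ℤ) ∣ (Cx(x).index : ℤ) * (p * u x j χ) := by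
  refine CfH5.int_dvd_of_isIntegral_div (by exact_mod_cast χ.2.deg_pos.ne') ?_
  push_cast
  rw [h.pu]
  split_ifs
  · rw [mul_sum, sum_div]
    refine IsIntegral.sum _ fun a _ => ?_
    by_cases ha : a = 0
    · simp [ha, κ_zero, isIntegral_zero]
    · have := CfH5.isIntegral_centralChar χ.2 (xp x a)
      rw [centralChar, show centralizer {xp x a} = Cx(x) from h.cx ha, ← χ.2.isCharacter.deg_eq] at this
      have k : IsIntegral ℤ (κ j a) := (CfH5.isIntegral_conj (CfH5.isIntegral_of_pow_eq_one hp.out.ne_zero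
        (by rw [← AddChar.map_nsmul_eq_pow]; simp))).sub isIntegral_one
      convert this.mul k using 1
      ring
  · simp [isIntegral_zero]

theorem E_iff (h : Syl p x) (t : ZMod p) : E x t ↔ t ^ e p x = 1 := by
  classical
  have he : e p x = (univ.filter (E (p := p) x)).card := by
    rw [e, Nat.card_eq_fintype_card, Fintype.card_subtype]; rfl
  have h1 : E x (1 : ZMod p) := by rw [E, h.xp_one]
  have e0 : e p x ≠ 0 := by rw [he]; exact card_ne_zero.2 ⟨1, by simpa using h1⟩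
  have a : ∀ t : ZMod p, E x t → t ^ e p x = 1 := fun t ht => by
    have t0 := h.E_ne ht
    have k : ∀ a : ZMod p, E x (a * t) ↔ E x a := fun a => by
      have := h.conj_iff (b := a * t) t0
      rw [mul_inv_cancel_right₀ t0] at this
      exact ⟨fun c => this.1 (ht.symm.trans c), fun c => ht.trans (this.2 c)⟩
    have b : ∏ a ∈ univ.filter (E (p := p) x), (a * t) = ∏ a ∈ univ.filter (E (p := p) x), a :=
      prod_bij (fun a _ => a * t) (fun a ha => by simpa [k] using ha) (fun a _ b _ e => mul_right_cancel₀ t0 e)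
        (fun b hb => ⟨b * t⁻¹, by
          rw [mem_filter, ← k, inv_mul_cancel_right₀ t0]; exact ⟨mem_univ _, (mem_filter.1 hb).2⟩, inv_mul_cancel_right₀ t0 b⟩) fun _ _ => rfl
    rw [prod_mul_distrib, prod_const, ← he] at b
    exact mul_left_cancel₀ (prod_ne_zero_iff.2 fun a ha => h.E_ne (mem_filter.1 ha).2) (b.trans (mul_one _).symm)
  refine ⟨a t, fun ht => ?_⟩
  have s : univ.filter (E x) = (Polynomial.nthRoots (e p x) (1 : ZMod p)).toFinset :=
    eq_of_subset_of_card_le (fun t ht => by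
      rw [Multiset.mem_toFinset, Polynomial.mem_nthRoots (Nat.pos_of_ne_zero e0)]; exact a t (mem_filter.1 ht).2)
      (he ▸ (Multiset.toFinset_card_le _).trans (Polynomial.card_nthRoots _ _))
  have : t ∈ univ.filter (E x) := by
    rw [s, Multiset.mem_toFinset, Polynomial.mem_nthRoots (Nat.pos_of_ne_zero e0)]; exact ht
  exact (mem_filter.1 this).2

theorem deg2 (h : Syl p x) {k : ℕ} {g : ZMod p} (hE : ∀ t : ZMod p, t ^ k = 1 → E x t)
    (c1 : (univ.filter fun j : ZMod p => j ^ k = 1).card = k)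
    (c2 : (univ.filter fun j : ZMod p => j ≠ 0 ∧ j ^ k ≠ 1).card = k) (k0 : k ≠ 0)
    (hg : ∀ j : ZMod p, j ≠ 0 → j ^ k ≠ 1 → ∃ t : ZMod p, t ^ k = 1 ∧ j = g * t) {χ : G → ℂ} (hχ : IsCharacter G χ) :
    deg χ = m x χ (0 : ZMod p) + k * m x χ (1 : ZMod p) + k * m x χ g := by
  classical
  rw [h.deg_eq hχ, ← sum_filter_add_sum_filter_not univ fun j : ZMod p => j ^ k = 1,
    ← sum_filter_add_sum_filter_not (univ.filter fun j : ZMod p => ¬ j ^ k = 1) fun j : ZMod p => j ≠ 0, filter_filter, filter_filter,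
    sum_congr rfl (g := fun _ => m x χ (1 : ZMod p)) fun j hj => by
      rw [← h.m_mul hχ.classFun 1 (hE j (mem_filter.1 hj).2), one_mul],
    sum_congr (s₂ := univ.filter fun j : ZMod p => j ≠ 0 ∧ j ^ k ≠ 1) (filter_congr fun _ _ => and_comm)
      (g := fun _ => m x χ g) fun j hj => by
      obtain ⟨t, a, rfl⟩ := hg j (mem_filter.1 hj).2.1 (mem_filter.1 hj).2.2
      exact h.m_mul hχ.classFun g (hE t a),
    sum_congr (s₂ := {0}) (by ext j; by_cases j0 : j = 0 <;> simp [j0, k0]) (g := fun j => m x χ j) fun _ _ => rfl,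
    sum_const, sum_const, c1, c2, sum_singleton, smul_eq_mul, smul_eq_mul]
  ring

theorem EB (h : Syl p x) (p2 : p ≠ 2) {s : G} (hs : s * s = 1) (hA : (Syl.A x s).Nonempty) {χ : G → ℂ} (hχ : IsCharacter G χ)
    {z : ℤ} (hz : χ s = z) : |z| ≤ m x χ (0 : ZMod p) := by
  obtain ⟨g, hg⟩ := hA
  have hF := h.F_eq hχ 0
  rw [← hχ.classFun.conj_apply s g] at hz
  have ht : g * s * g⁻¹ * (g * s * g⁻¹) = 1 := by rw [conj_mul, hs, mul_one, mul_inv_cancel]
  change g * s * g⁻¹ * x = x⁻¹ * (g * s * g⁻¹) at hg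
  generalize g * s * g⁻¹ = t at hg hz ht
  have c : ∀ a : ZMod p, t * xp x a = xp x (-a) * t := fun a => by
    rw [h.xp_neg, xp, ← inv_pow]; exact (show SemiconjBy t x x⁻¹ from hg).pow_right _
  have two : (2 : ZMod p) ≠ 0 := fun e => p2 ((Nat.prime_dvd_prime_iff_eq hp.out Nat.prime_two).1
    ((ZMod.natCast_eq_zero_iff 2 p).1 (by exact_mod_cast e)))
  have v : ∀ a : ZMod p, χ (t * xp x a) = z := fun a => by
    rw [← hz, ← hχ.classFun.conj_apply' t (xp x (a / 2)), ← h.xp_neg, ← c, mul_assoc, ← h.xp_add,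
      show a / 2 + a / 2 = a by field_simp; norm_num]
  obtain ⟨n, ρ, rfl⟩ := hχ
  obtain ⟨P, hP⟩ : ∃ P : Module.End ℂ (Fin n → ℂ), P = (p : ℂ)⁻¹ • ∑ a : ZMod p, ρ (xp x a) := ⟨_, rfl⟩
  have p1 : ∀ b : ZMod p, ρ (xp x b) * P = P := fun b => by
    rw [hP, mul_smul_comm, mul_sum]
    simp only [← map_mul, ← h.xp_add]
    rw [Fintype.sum_equiv (Equiv.addLeft b) (fun a => ρ (xp x (b + a))) (fun a => ρ (xp x a)) fun _ => rfl]
  have p3 : P * P = P := by
    nth_rw 1 [hP]
    rw [smul_mul_assoc, sum_mul]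
    simp only [p1, sum_const, card_univ, ZMod.card]
    rw [← Nat.cast_smul_eq_nsmul ℂ, smul_smul, inv_mul_cancel₀ pne, one_smul]
  have p4 : P * ρ t = ρ t * P := by
    rw [hP, mul_smul_comm, smul_mul_assoc, mul_sum, sum_mul]
    simp only [← map_mul, c]
    rw [Fintype.sum_equiv (Equiv.neg _) (fun a => ρ (xp x (-a) * t)) (fun a => ρ (xp x a * t)) fun _ => rfl]
  have p5 : ρ t * ρ t = 1 := by rw [← map_mul, ht, map_one]
  have t1 : LinearMap.trace ℂ _ P = m x ρ.character (0 : ZMod p) := by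
    refine mul_left_cancel₀ (pne (p := p)) ?_
    rw [← hF, hP, map_smul, map_sum, smul_eq_mul, mul_inv_cancel_left₀ pne]
    simp [F, Representation.character]
  have t2 : LinearMap.trace ℂ _ (ρ t * P) = z := by
    rw [hP, mul_smul_comm, mul_sum, map_smul, map_sum]
    simp only [← map_mul]
    simp only [Representation.character] at v
    simp only [v]
    rw [sum_const, card_univ, ZMod.card, nsmul_eq_mul, smul_eq_mul, inv_mul_cancel_left₀ pne]
  have key : ∀ ε : ℤ, ε * ε = 1 → 0 ≤ (m x ρ.character (0 : ZMod p) : ℤ) + ε * z := fun ε hε => by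
    have e2 : (ε : ℂ) * ε = 1 := by exact_mod_cast hε
    have i : IsIdempotentElem ((2 : ℂ)⁻¹ • (P + (ε : ℂ) • (ρ t * P))) := by
      have a1 : P * (ρ t * P) = ρ t * P := by rw [← mul_assoc, p4, mul_assoc, p3]
      have a2 : ρ t * P * (ρ t * P) = P := by rw [mul_assoc, a1, ← mul_assoc, p5, one_mul]
      have a3 : ρ t * P * P = ρ t * P := by rw [mul_assoc, p3]
      simp only [IsIdempotentElem, smul_mul_assoc, mul_smul_comm, mul_add, add_mul, a1, a2, a3, p3, smul_add, smul_smul, e2]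
      match_scalars
      · first | ring1 | linear_combination (1 / 4 : ℂ) * e2
      · ring
    have := (LinearMap.isProj_range_iff_isIdempotentElem _ |>.2 i).trace
    rw [map_smul, map_add, map_smul, t1, t2, smul_eq_mul, smul_eq_mul] at this
    have e3 : (((m x ρ.character (0 : ZMod p) : ℤ) + ε * z : ℤ) : ℂ) = ((2 * Module.finrank ℂ (LinearMap.range
      ((2 : ℂ)⁻¹ • (P + (ε : ℂ) • (ρ t * P)))) : ℕ) : ℤ) := by push_cast; linear_combination 2 * this
    rw [Int.cast_injective e3]; positivity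
  have := key 1 (by norm_num)
  have := key (-1) (by norm_num)
  rw [abs_le]; constructor <;> linarith

end CfLm
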