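import Cfsg.Agent.OD.Pre
import Cfsg.Agent.L.CA
/-! Rank 3 actions. -/
set_option autoImplicit false
open MulAction Subgroup
namespace CfL
variable {G Ω : Type*} [Group G] [MulAction G Ω]

theorem r3_tri [Finite Ω] {a b c : Ω} {k l : ℕ} (hb : (orbit (stabilizer G a) b).ncard = k)
    (hc : (orbit (stabilizer G a) c).ncard = l) (hk : k ≠ 1) (hl : l ≠ 1) (hkl : k ≠ l)
    (h : Nat.card Ω = 1 + k + l) (x : Ω) :
    x = a ∨ x ∈ orbit (stabilizer G a) b ∨ x ∈ orbit (stabilizer G a) c := by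
  have ha : orbit (stabilizer G a) a = {a} := by
    ext y
    exact ⟨fun ⟨g, e⟩ => e.symm.trans g.2, fun e => e ▸ mem_orbit_self _⟩
  have dj : ∀ u v : Ω, (orbit (stabilizer G a) u).ncard ≠ (orbit (stabilizer G a) v).ncard →
      Disjoint (orbit (stabilizer G a) u) (orbit (stabilizer G a) v) := fun u v hn =>
    Set.disjoint_left.2 fun y h1 h2 => hn (by rw [← orbit_eq_iff.2 h1, orbit_eq_iff.2 h2])
  have h1 : (orbit (stabilizer G a) a).ncard = 1 := by rw [ha, Set.ncard_singleton]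
  have : orbit (stabilizer G a) a ∪ orbit (stabilizer G a) b ∪ orbit (stabilizer G a) c = Set.univ := by
    refine Set.eq_of_subset_of_ncard_le (Set.subset_univ _) ?_
    rw [Set.ncard_union_eq (Set.disjoint_union_left.2 ⟨dj _ _ (by omega), dj _ _ (by omega)⟩),
      Set.ncard_union_eq (dj _ _ (by omega)), h1, hb, hc, Set.ncard_univ, h]
  have hx := this.ge (Set.mem_univ x)
  rw [ha] at hx
  exact or_assoc.1 hx

theorem r3_swap [Finite G] [Finite Ω] [IsPretransitive G Ω] {a b c : Ω} {k l : ℕ}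
    (hb : (orbit (stabilizer G a) b).ncard = k) (hc : (orbit (stabilizer G a) c).ncard = l) (hk : k ≠ 1)
    (hl : l ≠ 1) (hkl : k ≠ l) (h : Nat.card Ω = 1 + k + l) : ∃ t : G, t • a = b ∧ t • b = a := by
  obtain ⟨g, hg⟩ := exists_smul_eq G a b
  have h1 := card_orbit_mul (stabilizer G a) b
  have h2 := card_orbit_mul (stabilizer G a) (g⁻¹ • a)
  have h3 : Nat.card (stabilizer G a ⊓ stabilizer G (g⁻¹ • a) : Subgroup G) =
      Nat.card (stabilizer G a ⊓ stabilizer G b : Subgroup G) := by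
    refine Nat.card_congr ⟨fun x => ⟨g * x * g⁻¹, ?_, ?_⟩, fun x => ⟨g⁻¹ * x * g, ?_, ?_⟩, fun x => by simp [mul_assoc],
      fun x => by simp [mul_assoc]⟩
    · change (g * x * g⁻¹) • a = a
      rw [mul_smul, mul_smul, show (x : G) • g⁻¹ • a = _ from x.2.2, smul_inv_smul]
    · change (g * x * g⁻¹) • b = b
      rw [← hg, mul_smul, mul_smul, inv_smul_smul, show (x : G) • a = _ from x.2.1]
    · change (g⁻¹ * x * g) • a = a
      rw [mul_smul, mul_smul, hg, show (x : G) • b = _ from x.2.2, ← hg, inv_smul_smul]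
    · change (g⁻¹ * x * g) • g⁻¹ • a = g⁻¹ • a
      rw [mul_smul, mul_smul, smul_inv_smul, show (x : G) • a = _ from x.2.1]
  rw [h3, h1, hb] at h2
  have h4 := Nat.eq_of_mul_eq_mul_right Nat.card_pos h2
  rcases r3_tri hb hc hk hl hkl h (g⁻¹ • a) with e | ⟨x, e⟩ | e
  · rw [e, show orbit (stabilizer G a) a = {a} from Set.ext fun y =>
      ⟨fun ⟨g, e⟩ => e.symm.trans g.2, fun e => e ▸ mem_orbit_self _⟩, Set.ncard_singleton] at h4
    exact absurd h4 hk
  · have e : (x : G) • b = g⁻¹ • a := e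
    exact ⟨g * x, by rw [mul_smul, show (x : G) • a = a from x.2, hg], by rw [mul_smul, e, smul_inv_smul]⟩
  · rw [orbit_eq_iff.2 e, hc] at h4
    exact absurd h4 hkl

/-- a model of the stabiliser of `a` by the stabiliser of `p0`, matching `b` with `b0` -/
structure Mdl {S P : Type*} [Group S] [MulAction S P] (p0 b0 : P) (a b : Ω) (Φ : S → G) : Prop where
  m : ∀ x y, x • p0 = p0 → y • p0 = p0 → Φ (x * y) = Φ x * Φ y
  f : ∀ x, x • p0 = p0 → Φ x • a = a
  s : ∀ h : G, h • a = a → ∃ x, x • p0 = p0 ∧ Φ x = h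
  i : ∀ x y, x • p0 = p0 → y • p0 = p0 → Φ x = Φ y → x = y
  b : ∀ x, x • p0 = p0 → (Φ x • b = b ↔ x • b0 = b0)

namespace Mdl
variable {S P : Type*} [Group S] [MulAction S P] {p0 b0 : P} {a b : Ω} {Φ : S → G} (M : Mdl p0 b0 a b Φ)
include M

theorem one : Φ 1 = 1 := by simpa using M.m 1 1 (one_smul _ _) (one_smul _ _)

theorem inv {x : S} (h : x • p0 = p0) : Φ x⁻¹ = (Φ x)⁻¹ :=
  eq_inv_of_mul_eq_one_left (by rw [← M.m _ _ (inv_smul_eq_iff.2 h.symm) h, inv_mul_cancel, M.one])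

theorem pt {x y : S} (hx : x • p0 = p0) (hy : y • p0 = p0) : Φ x • b = Φ y • b ↔ x • b0 = y • b0 := by
  have h := inv_smul_eq_iff.2 hy.symm
  rw [← inv_smul_eq_iff, ← M.inv hy, ← mul_smul, ← M.m _ _ h hx, M.b _ (by rw [mul_smul, hx, h]), mul_smul,
    inv_smul_eq_iff]

theorem pow {x : S} (h : x • p0 = p0) (n : ℕ) : Φ (x ^ n) = Φ x ^ n := by
  induction n with
  | zero => simpa using M.one
  | succ n ih => rw [pow_succ, pow_succ, M.m _ _ (pow_mem (show x ∈ stabilizer S p0 from h) n) h, ih]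

theorem evw {el : ℕ → S} {ev : ℕ → G} {k : ℕ} (h : ∀ x < k, el x • p0 = p0 ∧ ev x = Φ (el x)) (w : List ℕ)
    (hw : ∀ x ∈ w, x < k) : CfH6.evw ev w = Φ (CfH6.evw el w) := by
  induction w with
  | nil => exact M.one.symm
  | cons x w ih =>
    have h1 := h x (hw x List.mem_cons_self)
    have h2 : ∀ y ∈ w, y < k := fun y hy => hw y (List.mem_cons_of_mem _ hy)
    rw [CfH6.evw_cons, CfH6.evw_cons, ih h2, h1.2,
      M.m _ _ h1.1 (CfH6.evw_mem (K := stabilizer S p0) (fun x hx => (h x hx).1) h2)]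

/-- conjugation by an element swapping `a` and `b` -/
theorem tau {t : G} (h1 : t • a = b) (h2 : t • b = a) : ∃ τ : S → S, (∀ y, y • p0 = p0 → y • b0 = b0 →
    (τ y • p0 = p0 ∧ τ y • b0 = b0) ∧ Φ (τ y) = t * Φ y * t⁻¹) ∧
    ∀ y, y • p0 = p0 → y • b0 = b0 → ∃ x, (x • p0 = p0 ∧ x • b0 = b0) ∧ τ x = y := by
  have key : ∀ t : G, t • a = b → t • b = a → ∀ y : S, ∃ y', y • p0 = p0 → y • b0 = b0 →
      (y' • p0 = p0 ∧ y' • b0 = b0) ∧ Φ y' = t * Φ y * t⁻¹ := fun t h1 h2 y => by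
    by_cases h : y • p0 = p0 ∧ y • b0 = b0
    · obtain ⟨y', e1, e2⟩ := M.s (t * Φ y * t⁻¹) (by
        rw [mul_smul, mul_smul, inv_smul_eq_iff.2 h2.symm, (M.b y h.1).2 h.2, h2])
      refine ⟨y', fun _ _ => ⟨⟨e1, (M.b _ e1).1 ?_⟩, e2⟩⟩
      rw [e2, mul_smul, mul_smul, inv_smul_eq_iff.2 h1.symm, M.f y h.1, h1]
    · exact ⟨1, fun u v => absurd ⟨u, v⟩ h⟩
  choose τ hτ using key t h1 h2
  refine ⟨τ, hτ, fun y u v => ?_⟩
  obtain ⟨x, hx⟩ := key t⁻¹ (inv_smul_eq_iff.2 h2.symm) (inv_smul_eq_iff.2 h1.symm) y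
  obtain ⟨⟨x1, x2⟩, x3⟩ := hx u v
  refine ⟨x, ⟨x1, x2⟩, M.i _ _ (hτ x x1 x2).1.1 u ?_⟩
  rw [(hτ x x1 x2).2, x3]
  simp [mul_assoc]

end Mdl

/-- a model from an isomorphism of the stabilisers and a classification of the subgroups of a given order -/
theorem exists_mdl {S P X : Type*} [Group S] [MulAction S P] [Group X] {p0 b0 : P} {a b : Ω} (ι : X →* S)
    (h1 : Function.Injective ι) (h2 : ι.range = stabilizer S p0) (e : stabilizer G a ≃* X)
    (cls : ∀ Y : Subgroup S, Y ≤ stabilizer S p0 →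
      Nat.card Y = Nat.card (stabilizer G a ⊓ stabilizer G b : Subgroup G) →
      ∃ x : S, x • p0 = p0 ∧ ∀ y, y • p0 = p0 → (y ∈ Y ↔ y • x • b0 = x • b0)) :
    ∃ (Φ : S → G) (b' : Ω), b' ∈ orbit (stabilizer G a) b ∧ Mdl p0 b0 a b' Φ := by
  classical
  let ψ : X →* G := (stabilizer G a).subtype.comp e.symm.toMonoidHom
  have hψ : Function.Injective ψ := Subtype.val_injective.comp e.symm.injective
  let Φ : S → G := fun x => ψ (Function.invFun ι x)
  have hΦ : ∀ g, Φ (ι g) = ψ g := fun g => congrArg ψ (Function.leftInverse_invFun h1 g)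
  have hr : ∀ x : S, x • p0 = p0 → ∃ g, ι g = x := fun x hx => h2.ge hx
  have hp : ∀ g, ι g • p0 = p0 := fun g => h2.le ⟨g, rfl⟩
  have hrange : ψ.range = stabilizer G a := by
    rw [MonoidHom.range_comp, MonoidHom.range_eq_top.2 e.symm.surjective, ← MonoidHom.range_eq_map, range_subtype]
  obtain ⟨x, hx, hY⟩ := cls (((stabilizer G b).comap ψ).map ι) (h2 ▸ map_le_range _ _) (by
    rw [card_map_of_injective h1, ← card_map_of_injective hψ, map_comap_eq, hrange])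
  obtain ⟨x, rfl⟩ := hr x hx
  refine ⟨Φ, (ψ x)⁻¹ • b, ⟨(e.symm x)⁻¹, rfl⟩, fun x y hx hy => ?_, fun x hx => ?_, fun h hh => ?_,
    fun x y hx hy => ?_, fun y hy => ?_⟩
  · obtain ⟨x, rfl⟩ := hr x hx
    obtain ⟨y, rfl⟩ := hr y hy
    rw [← map_mul, hΦ, hΦ, hΦ, map_mul]
  · obtain ⟨x, rfl⟩ := hr x hx
    rw [hΦ]; exact (e.symm x).2
  · obtain ⟨x, rfl⟩ := hrange.ge hh
    exact ⟨ι x, hp x, hΦ x⟩
  · obtain ⟨x, rfl⟩ := hr x hx
    obtain ⟨y, rfl⟩ := hr y hy
    rw [hΦ, hΦ]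
    exact fun e => congrArg ι (hψ e)
  · obtain ⟨y, rfl⟩ := hr y hy
    have := hY (ι (x * y * x⁻¹)) (hp _)
    rw [mem_map_iff_mem h1, mem_comap, mem_stabilizer_iff] at this
    simp only [map_mul, map_inv, mul_smul, inv_smul_smul, smul_left_cancel_iff] at this
    rw [hΦ, ← this, eq_inv_smul_iff]

/-- a small normal subgroup is killed -/
theorem r3_lift [Finite Ω] {a b c : Ω} {k l : ℕ} (hb : (orbit (stabilizer G a) b).ncard = k)
    (hc : (orbit (stabilizer G a) c).ncard = l) (hkl : k ≠ l) (h : Nat.card Ω = 1 + k + l)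
    [IsSimpleGroup (stabilizer G a)] {Γ S : Type*} [Group Γ] [Group S] [Finite Γ] (ψ : Γ →* G) (χ : Γ →* S)
    (hχ : Function.Surjective χ) (hψ : stabilizer G a ≤ ψ.range) {n : ℕ} (hn : Nat.card Γ ≤ n * Nat.card S)
    (h1 : 1 ≤ n) (hk : n < k) (hl : n < l) (hs : n < Nat.card (stabilizer G a)) :
    ∃ ρ : S →* G, ∀ g, ρ (χ g) = ψ g := by
  have : Finite S := Finite.of_surjective χ hχ
  have h2 : Nat.card χ.ker ≤ n := by
    have := χ.ker.card_mul_index
    rw [index_ker, MonoidHom.range_eq_top.2 hχ, card_top] at this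
    exact Nat.le_of_mul_le_mul_right (this.le.trans hn) Nat.card_pos
  let M := χ.ker.map ψ
  have : Finite M := Finite.of_surjective _ (ψ.subgroupMap_surjective χ.ker)
  have h3 : Nat.card M ≤ n := (Nat.card_le_card_of_surjective _ (ψ.subgroupMap_surjective χ.ker)).trans h2
  have hN : ∀ g ∈ stabilizer G a, ∀ m ∈ M, g * m * g⁻¹ ∈ M := by
    rintro g hg _ ⟨m, hm, rfl⟩
    obtain ⟨g, rfl⟩ := hψ hg
    exact ⟨g * m * g⁻¹, χ.normal_ker.conj_mem m hm g, by simp⟩
  have h4 : M ≤ stabilizer G a := fun m hm => by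
    have h5 : (orbit (stabilizer G a) (m • a)).ncard ≤ n := by
      refine le_trans (Set.ncard_le_ncard (t := orbit M a) ?_ (Set.toFinite _)) (le_trans ?_ h3)
      · rintro _ ⟨g, rfl⟩
        refine ⟨⟨_, hN g g.2 m hm⟩, ?_⟩
        change ((g : G) * m * (g : G)⁻¹) • a = (g : G) • m • a
        rw [mul_smul, mul_smul, inv_smul_eq_iff.2 (show (g : G) • a = a from g.2).symm]
      · rw [card_orbit_mul M a]
        exact Nat.le_mul_of_pos_right _ (Nat.card_pos_iff.2 ⟨inferInstance,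
          Finite.of_injective _ (inclusion_injective inf_le_left)⟩)
    rcases r3_tri hb hc (by omega) (by omega) hkl h (m • a) with e | e | e
    · exact e
    · rw [orbit_eq_iff.2 e] at h5; omega
    · rw [orbit_eq_iff.2 e] at h5; omega
  have h5 : (M.subgroupOf (stabilizer G a)).Normal := ⟨fun m hm g => hN g g.2 m hm⟩
  have h6 : χ.ker ≤ ψ.ker := fun g hg => by
    rcases h5.eq_bot_or_eq_top with e | e
    · have : (⟨ψ g, h4 ⟨g, hg, rfl⟩⟩ : stabilizer G a) ∈ M.subgroupOf (stabilizer G a) := ⟨g, hg, rfl⟩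
      rw [e, mem_bot] at this
      exact congrArg Subtype.val this
    · have := card_le_of_le (subgroupOf_eq_top.1 e)
      omega
  exact ⟨χ.liftOfSurjective hχ ⟨ψ, h6⟩, fun g => by simp⟩

end CfL
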