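import Cfsg.Agent.OD.Pre
import Cfsg.Agent.L.J2a
/-! Generators for a group of shape `2^{1+4}.A5`. -/
set_option autoImplicit false
open Subgroup CfH9 CfH4
namespace CfL

def pα : Equiv.Perm (Fin 5) := Equiv.swap 0 1 * Equiv.swap 2 3
def pβ : Equiv.Perm (Fin 5) := Equiv.swap 0 2 * Equiv.swap 0 1
def pγ : Equiv.Perm (Fin 5) := Equiv.swap 0 1 * Equiv.swap 3 4

structure HG {H : Type*} [Group H] (z : H) (u : Fin 5 → H) (a b c : H) : Prop where
  z2 : z * z = 1
  zc : ∀ g, z * g = g * z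
  u2 : ∀ i, u i * u i = 1
  anti : ∀ i j, i ≠ j → u i * u j = z * (u j * u i)
  prod : u 0 * u 1 * u 2 * u 3 * u 4 = 1
  au : ∀ i, a * u i * a⁻¹ = u (pα i)
  bu : ∀ i, b * u i * b⁻¹ = u (pβ i)
  cu : ∀ i, c * u i * c⁻¹ = u (pγ i)
  b3 : b * b * b = 1
  ab3 : a * b * (a * b) * (a * b) = 1
  ca3 : c * a * (c * a) * (c * a) = 1
  a2 : a * a = 1 ∨ a * a = z
  c2 : c * c = a * a
  cb2 : c * b * (c * b) = a * a

theorem exists_HG {H : Type*} [Group H] [Finite H] (Q : Subgroup H) [Q.Normal] (hQ : Cfsg.IsExtraspecial 2 Q)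
    (hc : Nat.card Q = 32) (hC : centralizer (Q : Set H) ≤ Q) (h60 : Nat.card (H ⧸ Q) = 60) {z : H} (z1 : z ≠ 1)
    (zc : ∀ g, z * g = g * z) : ∃ (u : Fin 5 → H) (a b c : H), HG z u a b c ∧ Nat.card H = 1920 ∧
      (∀ q ∈ Q, q * q = 1 → q = 1 ∨ q = z ∨ ∃ j, q = u j ∨ q = z * u j) ∧
      ∀ g ∈ centralizer (Q : Set H), g = 1 ∨ g = z := by
  obtain ⟨z0, h0⟩ := exists_es2 hQ
  have cz : ∀ g ∈ centralizer (Q : Set H), g = 1 ∨ g = z0 := fun g hg => by
    rcases h0.center ⟨g, hC hg⟩ (fun y => Subtype.ext (hg y y.2).symm) with e | e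
    · exact Or.inl (congrArg Subtype.val e)
    · exact Or.inr (congrArg Subtype.val e)
  have hz : z = z0 := (cz z fun q _ => (zc q).symm).resolve_left z1
  rw [← hz] at cz
  have hH : Nat.card H = 1920 := by rw [card_eq_card_quotient_mul_card_subgroup Q, h60, hc]
  have : Fact (Nat.Prime 5) := ⟨by norm_num⟩
  obtain ⟨f, hf⟩ := exists_prime_orderOf_dvd_card' (G := H) 5 (by rw [hH]; norm_num)
  let ψ : H →* MulAut Q := MulAut.conjNormal
  have kψ : ∀ g, ψ g = 1 → g = 1 ∨ g = z := fun g hg => cz g fun q hq => by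
    have := congrArg (fun θ : MulAut Q => ((θ ⟨q, hq⟩ : Q) : H)) hg
    simp only [ψ, MulAut.conjNormal_apply, MulAut.one_apply] at this
    rw [← mul_inv_eq_iff_eq_mul.1 this]
  have z2 : z * z = 1 := by rw [hz]; exact congrArg Subtype.val h0.sq
  obtain ⟨u, hu⟩ := exists_u5 h0 hc (ψ f) (by rw [← map_pow, ← hf, pow_orderOf_eq_one, map_one]) (fun e => by
    rcases kψ f e with e | e
    · rw [e, orderOf_one] at hf; norm_num at hf
    · rw [e, orderOf_eq_prime (p := 2) (by rw [pow_two, z2]) z1] at hf; norm_num at hf)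
  let π : H →* Equiv.Perm (Fin 5) := hu.pi.comp ψ
  have ψq : ∀ (q : Q) (g : H) (x : Q), ψ (q * g) x = q * ψ g x * q⁻¹ := fun q g x => Subtype.ext (by
    simp [ψ, mul_assoc])
  have kπ : π.ker = Q := by
    ext g
    constructor
    · intro hg
      obtain ⟨q, hq⟩ := hu.exists_exact (ψ g) 1 hg hu.prod
      have := hu.aut_eq_one (ψ (q * g)) fun i => by rw [ψq, hq]; rfl
      have h2 : (q : H) * g ∈ Q := by
        rcases kψ _ this with e | e <;> rw [e]
        · exact one_mem _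
        · rw [hz]; exact z0.2
      exact (mul_mem_cancel_left q.2).1 h2
    · intro hg
      ext i
      have := ψq ⟨g, hg⟩ 1 (u i)
      rw [mul_one, map_one, MulAut.one_apply] at this
      refine congrArg _ (hu.img_unique (hu.pi_spec (ψ g) i) ?_)
      change ψ ((⟨g, hg⟩ : Q) : H) _ = _ ∨ ψ ((⟨g, hg⟩ : Q) : H) _ = _
      rw [this]
      rcases h0.comm ⟨g, hg⟩ (u i) with e | e <;> rw [e]
      · left; simp
      · right; simp [mul_assoc]
  have rπ : π.range = alternatingGroup (Fin 5) := by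
    apply Equiv.Perm.eq_alternatingGroup_of_index_eq_two
    have a := π.range.card_mul_index
    rw [← Nat.card_congr (QuotientGroup.quotientKerEquivRange π).toEquiv, kπ, h60, Nat.card_perm] at a
    simp only [Nat.card_eq_fintype_card, Fintype.card_fin, Nat.factorial] at a
    omega
  have ex : ∀ σ : Equiv.Perm (Fin 5), Equiv.Perm.sign σ = 1 → u (σ 0) * u (σ 1) * u (σ 2) * u (σ 3) * u (σ 4) = 1 →
      ∃ g : H, ∀ i, ψ g (u i) = u (σ i) := by
    intro σ h1 h2
    obtain ⟨g, hg⟩ : σ ∈ π.range := by rw [rπ]; exact h1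
    obtain ⟨q, hq⟩ := hu.exists_exact (ψ g) σ hg h2
    exact ⟨q * g, fun i => by rw [ψq, hq]⟩
  have p0 := hu.prod
  simp only [mul_assoc] at p0
  obtain ⟨a, ha⟩ := ex pα (by decide) (by
    change u 1 * u 0 * u 3 * u 2 * u 4 = 1
    simp only [mul_assoc]
    rw [hu.swap' (i := 3) (j := 2) (by decide), hu.swap' (i := 1) (j := 0) (by decide), h0.left_comm (u 1),
      h0.left_comm (u 0), h0.z_mul_z_mul, p0])
  obtain ⟨b, hb⟩ := ex pβ (by decide) (by
    change u 1 * u 2 * u 0 * u 3 * u 4 = 1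
    simp only [mul_assoc]
    rw [hu.swap' (i := 2) (j := 0) (by decide), h0.left_comm (u 1), hu.swap' (i := 1) (j := 0) (by decide),
      h0.z_mul_z_mul, p0])
  obtain ⟨c, hc'⟩ := ex pγ (by decide) (by
    change u 1 * u 0 * u 2 * u 4 * u 3 = 1
    simp only [mul_assoc]
    rw [hu.anti' (i := 4) (j := 3) (by decide), hu.swap' (i := 1) (j := 0) (by decide), h0.left_comm (u 2),
      h0.left_comm (u 1), h0.left_comm (u 0), h0.z_mul_z_mul, p0])
  -- exact action as a predicate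
  let Ac : H → Equiv.Perm (Fin 5) → Prop := fun g σ => ∀ i, ψ g (u i) = u (σ i)
  have Am : ∀ {g h σ τ}, Ac g σ → Ac h τ → Ac (g * h) (σ * τ) := fun {g h σ τ} h1 h2 i => by
    rw [map_mul, MulAut.mul_apply, h2, h1]; rfl
  have A1 : ∀ {g σ}, Ac g σ → σ = 1 → g = 1 ∨ g = z := fun {g σ} h1 h2 =>
    kψ g (hu.aut_eq_one _ fun i => by rw [h1, h2]; rfl)
  have Az : Ac z 1 := fun i => Subtype.ext (by
    simp only [ψ, MulAut.conjNormal_apply, zc, Equiv.Perm.one_apply]; group)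
  have zl : ∀ x y : H, x * (z * y) = z * (x * y) := fun x y => by rw [← mul_assoc, ← zc, mul_assoc]
  have zz : ∀ x : H, z * (z * x) = x := fun x => by rw [← mul_assoc, z2, one_mul]
  -- adjusting by `z`
  have adj : ∀ (g h : H) (σ τ : Equiv.Perm (Fin 5)), Ac g σ → Ac h τ → σ * τ * (σ * τ) * (σ * τ) = 1 →
      ∃ g', Ac g' σ ∧ g' * h * (g' * h) * (g' * h) = 1 := by
    intro g h σ τ h1 h2 h3
    rcases A1 (Am (Am (Am h1 h2) (Am h1 h2)) (Am h1 h2)) h3 with e | e
    · exact ⟨g, h1, e⟩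
    · refine ⟨z * g, by simpa using Am Az h1, ?_⟩
      simp only [mul_assoc, zl g, zl h, zz] at e ⊢
      rw [e, z2]
  have A0 : Ac 1 1 := fun i => by simp
  obtain ⟨b', hb', b3⟩ := adj b 1 pβ 1 hb A0 (by decide)
  simp only [mul_one] at b3
  obtain ⟨a', ha', ab3⟩ := adj a b' pα pβ ha hb' (by decide)
  obtain ⟨c', hc'', ca3⟩ := adj c a' pγ pα hc' ha' (by decide)
  have a2 := A1 (Am ha' ha') (by decide)
  have c2 := A1 (Am hc'' hc'') (by decide)
  have cb2 := A1 (Am (Am hc'' hb') (Am hc'' hb')) (by decide)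
  have key : ∀ x y s t : H, (s = 1 ∨ s = z) → (t = 1 ∨ t = z) → x * x = s → x * y * (x * y) = t →
      y * y * y = 1 → s = t := by
    intro x y s t hs ht h1 h2 h3
    have e : x * y * x⁻¹ = t * s * y⁻¹ := by
      have hs' : s⁻¹ = s := by
        rcases hs with e | e <;> rw [e]
        · simp
        · exact inv_eq_of_mul_eq_one_right z2
      have hs2 : y⁻¹ * s = s * y⁻¹ := by
        rcases hs with e | e <;> rw [e]
        · simp
        · exact (zc _).symm
      calc _ = x * y * (x * y) * (y⁻¹ * (x * x)⁻¹) := by group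
        _ = _ := by rw [h2, h1, hs', hs2, mul_assoc]
    have e3 : t * s * y⁻¹ * (t * s * y⁻¹) * (t * s * y⁻¹) = 1 := by
      rw [← e]
      calc _ = x * (y * y * y) * x⁻¹ := by group
        _ = 1 := by rw [h3]; group
    have y3 : y⁻¹ * (y⁻¹ * y⁻¹) = 1 := by rw [← mul_inv_rev, ← mul_inv_rev, h3, inv_one]
    rcases hs with rfl | rfl <;> rcases ht with rfl | rfl
    · rfl
    · simp only [mul_one, mul_assoc, zl y⁻¹, zz, y3] at e3; exact e3.symm
    · simp only [one_mul, mul_assoc, zl y⁻¹, zz, y3, mul_one] at e3; exact e3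
    · rfl
  have e1 : c' * c' = c' * b' * (c' * b') := key c' b' _ _ c2 cb2 rfl rfl b3
  have e2 : a' * a' = c' * c' := by
    have := key a' (a'⁻¹ * c'⁻¹) _ (c' * c') a2 c2 rfl (by
      have : (c' * c')⁻¹ = c' * c' := by
        rcases c2 with e | e <;> rw [e]
        · simp
        · exact inv_eq_of_mul_eq_one_right z2
      rw [← this]; group) (by
      calc _ = (c' * a' * (c' * a') * (c' * a'))⁻¹ := by group
        _ = 1 := by rw [ca3, inv_one])
    exact this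
  have cv : ∀ {g σ}, Ac g σ → ∀ i, g * u i * g⁻¹ = u (σ i) := fun {g σ} h i => by
    have := congrArg Subtype.val (h i)
    simpa [ψ] using this
  refine ⟨fun i => u i, a', b', c', ⟨z2, zc, fun i => congrArg Subtype.val (hu.u2 i), fun i j hij => ?_,
    congrArg Subtype.val hu.prod, cv ha', cv hb', cv hc'', b3, ab3, ca3, a2, e2.symm, (e2.trans e1).symm⟩,
    hH, fun q hq h2 => ?_, cz⟩
  · rw [hz]; exact congrArg Subtype.val (hu.anti' hij)
  · rw [hz]
    rcases hu.invol (p := ⟨q, hq⟩) (Subtype.ext h2) with e | e | ⟨j, e | e⟩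
    · exact Or.inl (congrArg Subtype.val e)
    · exact Or.inr (Or.inl (congrArg Subtype.val e))
    · exact Or.inr (Or.inr ⟨j, Or.inl (congrArg Subtype.val e)⟩)
    · exact Or.inr (Or.inr ⟨j, Or.inr (congrArg Subtype.val e)⟩)

/-- every involution is conjugate into the centraliser -/
theorem invol_conj_into {G : Type*} [Group G] [Finite G] {z : G} (z2 : z * z = 1) (z1 : z ≠ 1) (Q : Subgroup Cx(z))
    [Q.Normal] (hQ : IsPGroup 2 Q) (cz : ∀ g ∈ centralizer (Q : Set Cx(z)), g = 1 ∨ (g : G) = z) :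
    ∃ T, SylIn 2 T ⊤ ∧ SylIn 2 T Cx(z) := by
  obtain ⟨T, hT⟩ := exists_sylIn 2 Cx(z)
  have hQT : Q.map (Cx(z)).subtype ≤ T := hT.le_of_le_Nm (hQ.map _) (map_subtype_le Q) (fun t ht =>
    mem_normalizer_of_conj_mem (by
      rintro _ ⟨q, hq, rfl⟩
      exact ⟨_, ‹Q.Normal›.conj_mem q hq ⟨t, hT.le ht⟩, rfl⟩))
  have zT : z ∈ T := hT.le_of_le_Nm (isPGroup_zpowers (k := 1) (by rw [pow_one, pow_two, z2]))
    (zpowers_le.2 (mem_Cx.2 rfl)) (fun t ht => Cz_le_Nm _ (by rw [Cz_zpowers]; exact hT.le ht)) (mem_zpowers z)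
  obtain ⟨S, hS, hle⟩ := exists_sylIn_ge hT.pgrp (le_top (a := T))
  refine ⟨T, ?_, hT⟩
  by_contra hne
  have lt : T < S := lt_of_le_of_ne hle (fun e => hne (e ▸ hS))
  have lt2 := lt_inf_Nm hS.pgrp lt
  refine lt2.not_ge (hT.max _ (hS.pgrp.to_le inf_le_left) ?_ lt2.le)
  rintro n ⟨_, hn⟩
  have h1 : n * z * n⁻¹ ∈ T := conj_mem_of_mem_normalizer hn zT
  rcases cz ⟨_, hT.le h1⟩ (fun q hq => Subtype.ext (by
    have h2 : n⁻¹ * q * n ∈ T := conj_mem_of_mem_normalizer' hn (hQT ⟨q, hq, rfl⟩)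
    have h3 := mem_Cx.1 (hT.le h2)
    change (q : G) * (n * z * n⁻¹) = n * z * n⁻¹ * q
    calc _ = n * (n⁻¹ * q * n * z) * n⁻¹ := by group
      _ = _ := by rw [h3]; group)) with e | e
  · exact absurd (congrArg Subtype.val e) (ne_one_of_isConj (isConj_iff.2 ⟨n, rfl⟩) z1)
  · exact mem_Cx'.2 e

end CfL
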