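import Cfsg.Agent.OD.Pre
import Cfsg.Agent.L.HAC
import Cfsg.Agent.L.HBC
/-! Facts about the two groups of shape `2^{1+4}.A5`, by computation. -/
set_option autoImplicit false
set_option maxRecDepth 100000
noncomputable section
namespace CfL

theorem gA : hA.Good hAil hArels := ⟨hAside, hAok1, hAok2, hAok3, hAfin⟩
theorem gB : hB.Good hBil hBrels := ⟨hBside, hBok1, hBok2, hBok3, hBfin⟩

namespace HB
def Z : TE gB := .mk gB 1
def U : TE gB := .mk gB 6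
def LU : List (TE gB) := [.mk gB 2, .mk gB 3, .mk gB 4, .mk gB 5, .mk gB 6]
theorem fU : ∀ h : TE gB, h * h = 1 → h = 1 ∨ h = Z ∨ ∃ k, k * U * k⁻¹ = h := by decide +kernel
theorem fInj : ∀ k : TE gB, k = 1 ∨ k = Z ∨ ∃ m ∈ LU, k * m * k⁻¹ * m = Z ∨
    ∃ n ∈ LU, (k * m * k⁻¹ * m) * n * (k * m * k⁻¹ * m)⁻¹ * n = Z := by decide +kernel
theorem sqU : ∀ m ∈ LU, m * m = 1 := by decide +kernel
end HB

namespace HA
def Z : TE gA := .mk gA 1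
def U : TE gA := .mk gA 6
def A : TE gA := .mk gA 7
def F : TE gA := .mk gA 217
def L5 : List (TE gA) := [.mk gA 2, .mk gA 3, .mk gA 4, .mk gA 5, .mk gA 6]
def LU : List (TE gA) := [.mk gA 2, .mk gA 3, .mk gA 4, .mk gA 5, .mk gA 6, .mk gA 11, .mk gA 12, .mk gA 13,
  .mk gA 14, .mk gA 15]
def LQ : List (TE gA) := [.mk gA 0, .mk gA 1, .mk gA 2, .mk gA 3, .mk gA 4, .mk gA 5, .mk gA 6, .mk gA 11,
  .mk gA 12, .mk gA 13, .mk gA 14, .mk gA 15, .mk gA 20, .mk gA 21, .mk gA 22, .mk gA 23, .mk gA 28, .mk gA 29,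
  .mk gA 30, .mk gA 31, .mk gA 36, .mk gA 37, .mk gA 38, .mk gA 39, .mk gA 44, .mk gA 45, .mk gA 46, .mk gA 47,
  .mk gA 52, .mk gA 53, .mk gA 54, .mk gA 55]
def IsT (h : TE gA) : Prop := h * h = 1 ∧ h ≠ 1 ∧ h ≠ Z ∧ h ∉ LU
instance : DecidablePred IsT := fun h => inferInstanceAs (Decidable (h * h = 1 ∧ h ≠ 1 ∧ h ≠ Z ∧ h ∉ LU))
def InV (h : TE gA) : Prop := h = 1 ∨ h = Z ∨ h = U ∨ h = Z * U
instance : DecidablePred InV := fun h => inferInstanceAs (Decidable (h = 1 ∨ h = Z ∨ h = U ∨ h = Z * U))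

theorem fInj : ∀ k : TE gA, k = 1 ∨ k = Z ∨ ∃ m ∈ L5, k * m * k⁻¹ * m = Z ∨
    ∃ n ∈ L5, (k * m * k⁻¹ * m) * n * (k * m * k⁻¹ * m)⁻¹ * n = Z := by decide +kernel
theorem sq5 : ∀ m ∈ L5, m * m = 1 := by decide +kernel
theorem fU : ∀ h ∈ LU, ∃ k, k * U * k⁻¹ = h := by decide +kernel
theorem fT : ∀ h, IsT h → ∃ k, k * A * k⁻¹ = h := by decide +kernel
theorem TA : IsT A := by decide +kernel
theorem AU : A * U = U * A := by decide +kernel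
theorem fCA : ∀ h, h * A = A * h → h * h = 1 ∧ (InV h ∨ IsT h) := by decide +kernel
theorem cCA : TE.cnt (fun h => h * A = A * h) = 16 := by decide +kernel
theorem fM : ∀ h, IsT h → h * U = U * h → ∃ k, (k * U * k⁻¹ = U ∨ k * U * k⁻¹ = Z * U) ∧ k * A * k⁻¹ = h := by
  decide +kernel
theorem c3 : TE.cnt (fun h => h * U = U * h ∧ h * h * h = 1 ∧ h ≠ 1) = 32 := by decide +kernel
theorem fY1 : ∀ y, y * U = U * y → y * y * y = 1 → y ≠ 1 → InV (A * y * (A * y) * (A * y)) ∧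
    (y * A * y⁻¹) * A = A * (y * A * y⁻¹) ∧ ∃ d ∈ LU, d * y = y * d ∧ d * U ≠ U * d := by decide +kernel
theorem fY2 : ∀ y, y * U = U * y → y * y * y = 1 → y ≠ 1 → ∀ a, a * A = A * a →
    InV a ∨ InV (a * A) ∨ InV (a * (y * A * y⁻¹)) ∨ InV (a * (y⁻¹ * A * y)) := by decide +kernel
theorem fY3 : ∀ y, y * U = U * y → y * y * y = 1 → y ≠ 1 → ∀ h, h * U = U * h → h * y = y * h →
    InV h ∨ InV (h * y) ∨ InV (h * y⁻¹) := by decide +kernel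
theorem fD : ∀ d ∈ LU, d * U ≠ U * d → d * d = 1 ∧ d * U * d = Z * U ∧
    A * d * (A * d) * (A * d) * (A * d) * Z = 1 ∧ A * (d * Z) * (A * (d * Z)) * (A * (d * Z)) * (A * (d * Z)) * Z = 1 := by
  decide +kernel
theorem cT : TE.cnt IsT = 120 := by decide +kernel
theorem fa : ∀ v, IsT v → Z * v ≠ Z ∧ (∀ u ∈ LU, u * v ≠ Z ∧ (u * v = v * u ∨ u * v * (u * v) * (u * v) * (u * v) = Z)) ∧
    (LU.filter fun u => u * v ≠ v * u).length = 8 := by decide +kernel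
theorem ndU : LU.Nodup ∧ Z ∉ LU := by decide +kernel
theorem ndQ : LQ.Nodup := by decide +kernel
theorem F5 : F * F * F * F * F = 1 := by decide +kernel
theorem fQ : ∀ q ∈ LQ, ∀ q' ∈ LQ, q = q' ∨ q⁻¹ * q' = Z ∨
    (q⁻¹ * q') * (F * (q⁻¹ * q') * F⁻¹) * (q⁻¹ * q')⁻¹ * (F * (q⁻¹ * q') * F⁻¹)⁻¹ = Z ∨
    (q⁻¹ * q') * (F * F * (q⁻¹ * q') * F⁻¹ * F⁻¹) * (q⁻¹ * q')⁻¹ * (F * F * (q⁻¹ * q') * F⁻¹ * F⁻¹)⁻¹ = Z := by
  decide +kernel
end HA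
end CfL
end
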