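import Cfsg.Agent.OD.Pre
import Cfsg.Agent.L.J2c
import Cfsg.Agent.L.K4
import Cfsg.Agent.L.Prod
import Cfsg.Agent.H9.Frobenius
/-! Groups with an involution centraliser `2^{1+4}:A5` and two classes of involutions: local analysis. -/
set_option autoImplicit false
open Subgroup CfH9
namespace CfL
open HA

variable {G : Type*} [Group G]

structure JS (z : G) (φ : TE gA →* G) : Prop where
  inj : Function.Injective φ
  rng : ∀ g, g * z = z * g → ∃ h, φ h = g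
  hz : φ Z = z
  cz : ∀ h, φ h * z = z * φ h
  zu : IsConj z (φ U)
  zt : ¬ IsConj z (φ A)
  into : ∀ w : G, w * w = 1 → ∃ g, g * w * g⁻¹ ∈ Cx(z)

theorem HA.basic : Z * Z = 1 ∧ Z ≠ 1 ∧ U * U = 1 ∧ U ≠ 1 ∧ U ≠ Z ∧ U ∈ LU ∧ Z * U ∈ LU ∧
    (∀ h ∈ LU, ¬ IsT h) ∧ TE.mk gA 5 ∈ LU ∧ TE.mk gA 5 * U ≠ U * TE.mk gA 5 := by decide +kernel

theorem cj1 {g x : G} (h : g * x = x * g) : g * x * g⁻¹ = x := by rw [h]; group
theorem cj2 {g x : G} (h : g * x * g⁻¹ = x) : g * x = x * g := mul_inv_eq_iff_eq_mul.1 h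
theorem comm_cj (k : G) {a b : G} (h : a * b = b * a) : k * a * k⁻¹ * (k * b * k⁻¹) = k * b * k⁻¹ * (k * a * k⁻¹) := by
  calc _ = k * (a * b) * k⁻¹ := by group
    _ = _ := by rw [h]; group
theorem isConj_mk (k : G) {a b : G} (h : k * a * k⁻¹ = b) : IsConj a b := isConj_iff.2 ⟨k, h⟩
theorem sinv {a : G} (h : a * a = 1) : a⁻¹ = a := inv_eq_of_mul_eq_one_right h

namespace JS
variable {z : G} {φ : TE gA →* G} (J : JS z φ)
include J

theorem z2 : z * z = 1 := by rw [← J.hz, ← map_mul, basic.1, map_one]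
theorem z1 : z ≠ 1 := fun e => basic.2.1 (J.inj (by rw [J.hz, e, map_one]))
theorem u2 : φ U * φ U = 1 := by rw [← map_mul, basic.2.2.1, map_one]
theorem u1 : φ U ≠ 1 := fun e => basic.2.2.2.1 (J.inj (by rw [e, map_one]))
theorem uz : φ U ≠ z := fun e => basic.2.2.2.2.1 (J.inj (by rw [e, J.hz]))
theorem t2 : φ A * φ A = 1 := by rw [← map_mul, TA.1, map_one]
theorem t1 : φ A ≠ 1 := fun e => TA.2.1 (J.inj (by rw [e, map_one]))
theorem tu : φ A * φ U = φ U * φ A := by rw [← map_mul, AU, map_mul]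
theorem comm_iff {a b : TE gA} : φ a * φ b = φ b * φ a ↔ a * b = b * a := by
  rw [← map_mul, ← map_mul, J.inj.eq_iff]

theorem ZU {h : TE gA} (hh : h ∈ LU) : IsConj z (φ h) := by
  obtain ⟨k, rfl⟩ := fU h hh
  exact J.zu.trans (isConj_mk (φ k) (by simp))

omit J in
theorem TT {h : TE gA} (hh : IsT h) : IsConj (φ A) (φ h) := by
  obtain ⟨k, rfl⟩ := fT h hh
  exact isConj_mk (φ k) (by simp)

theorem cases {h : TE gA} (h2 : φ h * φ h = 1) (h1 : φ h ≠ 1) : h = Z ∨ h ∈ LU ∨ IsT h := by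
  by_cases a : h = Z
  · exact Or.inl a
  by_cases b : h ∈ LU
  · exact Or.inr (Or.inl b)
  exact Or.inr (Or.inr ⟨J.inj (by rw [map_mul, h2, map_one]), fun e => h1 (by rw [e, map_one]), a, b⟩)

theorem Z_iff {h : TE gA} : IsConj z (φ h) ↔ h = Z ∨ h ∈ LU := by
  constructor
  · intro c
    rcases J.cases (sq_of_isConj c J.z2) (ne_one_of_isConj c J.z1) with e | e | e
    · exact Or.inl e
    · exact Or.inr e
    · exact absurd (c.trans (TT e).symm) J.zt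
  · rintro (rfl | e)
    · rw [J.hz]
    · exact J.ZU e

theorem T_iff {h : TE gA} : IsConj (φ A) (φ h) ↔ IsT h := by
  refine ⟨fun c => ?_, TT⟩
  rcases J.cases (sq_of_isConj c J.t2) (ne_one_of_isConj c J.t1) with e | e | e
  · exact absurd ((J.Z_iff.2 (Or.inl e)).trans c.symm) J.zt
  · exact absurd ((J.Z_iff.2 (Or.inr e)).trans c.symm) J.zt
  · exact e

theorem all_invol (w : G) (h2 : w * w = 1) (h1 : w ≠ 1) : IsConj z w ∨ IsConj (φ A) w := by
  obtain ⟨g, hg⟩ := J.into w h2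
  obtain ⟨h, hh⟩ := J.rng _ (mem_Cx.1 hg)
  have c : IsConj w (φ h) := isConj_mk g hh.symm
  rcases J.cases (sq_of_isConj c h2) (ne_one_of_isConj c h1) with e | e | e
  · exact Or.inl ((J.Z_iff.2 (Or.inl e)).trans c.symm)
  · exact Or.inl ((J.Z_iff.2 (Or.inr e)).trans c.symm)
  · exact Or.inr ((TT e).trans c.symm)

/-- commuting pairs of the two classes are conjugate to `(z, t)` -/
theorem pair_conj {w t' : G} (hw : IsConj z w) (ht : IsConj (φ A) t') (c : t' * w = w * t') :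
    ∃ k, k * z * k⁻¹ = w ∧ k * φ A * k⁻¹ = t' := by
  obtain ⟨k, rfl⟩ := isConj_iff.1 hw
  obtain ⟨h, hh⟩ := J.rng (k⁻¹ * t' * k) (by
    have := comm_cj k⁻¹ c
    simpa [mul_assoc] using this)
  obtain ⟨k', hk'⟩ := fT h (J.T_iff.1 (ht.trans (isConj_mk k⁻¹ (by rw [hh]; simp))))
  refine ⟨k * φ k', ?_, ?_⟩
  · calc _ = k * (φ k' * z * (φ k')⁻¹) * k⁻¹ := by group
      _ = _ := by rw [cj1 (J.cz k')]
  · calc _ = k * φ (k' * A * k'⁻¹) * k⁻¹ := by simp only [map_mul, map_inv]; group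
      _ = _ := by rw [hk', hh]; group

theorem sqA {g : G} (h1 : g * z = z * g) (h2 : g * φ A = φ A * g) : g * g = 1 := by
  obtain ⟨h, rfl⟩ := J.rng g h1
  rw [← map_mul, (fCA h (J.comm_iff.1 h2)).1, map_one]

theorem sq_pair {w t' g : G} (hw : IsConj z w) (ht : IsConj (φ A) t') (c : t' * w = w * t')
    (h1 : g * w = w * g) (h2 : g * t' = t' * g) : g * g = 1 := by
  obtain ⟨k, rfl, rfl⟩ := J.pair_conj hw ht c
  refine sq_of_isConj (isConj_mk k (a := k⁻¹ * g * k) (by group)) (J.sqA ?_ ?_)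
  · have := comm_cj k⁻¹ h1
    simpa [mul_assoc] using this
  · have := comm_cj k⁻¹ h2
    simpa [mul_assoc] using this

theorem comm_pair {w t' g g' : G} (hw : IsConj z w) (ht : IsConj (φ A) t') (c : t' * w = w * t')
    (h1 : g * w = w * g) (h2 : g * t' = t' * g) (h3 : g' * w = w * g') (h4 : g' * t' = t' * g') :
    g * g' = g' * g := by
  have a := J.sq_pair hw ht c (mem_Cx.1 (mul_mem (mem_Cx.2 h1) (mem_Cx.2 h3)))
    (mem_Cx.1 (mul_mem (mem_Cx.2 h2) (mem_Cx.2 h4)))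
  have := sinv a
  rw [mul_inv_rev, sinv (J.sq_pair hw ht c h1 h2), sinv (J.sq_pair hw ht c h3 h4)] at this
  exact this.symm

theorem commA {g g' : G} (h1 : g * z = z * g) (h2 : g * φ A = φ A * g) (h3 : g' * z = z * g')
    (h4 : g' * φ A = φ A * g') : g * g' = g' * g :=
  J.comm_pair (IsConj.refl _) (IsConj.refl _) (J.cz A) h1 h2 h3 h4

theorem exists_swap : ∃ m, m * z * m⁻¹ = φ U ∧ m * φ U * m⁻¹ = z := by
  obtain ⟨g, hg⟩ := isConj_iff.1 J.zu
  obtain ⟨h, hh⟩ := J.rng (g⁻¹ * z * g) (by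
    have := comm_cj g⁻¹ (J.cz U).symm
    rw [← hg] at this
    simpa [mul_assoc] using this)
  rcases J.Z_iff.1 (isConj_mk g⁻¹ (by rw [hh]; simp) : IsConj z (φ h)) with e | e
  · exfalso
    rw [e, J.hz] at hh
    apply J.uz
    rw [← hg]
    nth_rewrite 1 [hh]
    group
  · obtain ⟨k, rfl⟩ := fU h e
    refine ⟨g * φ k, ?_, ?_⟩
    · calc _ = g * (φ k * z * (φ k)⁻¹) * g⁻¹ := by group
        _ = _ := by rw [cj1 (J.cz k), hg]
    · calc _ = g * φ (k * U * k⁻¹) * g⁻¹ := by simp only [map_mul, map_inv]; group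
        _ = _ := by rw [hh]; group

theorem uzu : φ U * (z * φ U) = z := by rw [← J.cz, ← mul_assoc, J.u2, one_mul]

theorem exists_x : ∃ x, x * φ A = φ A * x ∧ x * z * x⁻¹ = φ U ∧ x * φ U * x⁻¹ = z * φ U ∧ x * x * x = 1 := by
  obtain ⟨m1, a1, a2⟩ := J.exists_swap
  obtain ⟨d2, d3, -⟩ := fD _ basic.2.2.2.2.2.2.2.2.1 basic.2.2.2.2.2.2.2.2.2
  generalize TE.mk gA 5 = d at d2 d3
  have d2' : (φ d)⁻¹ = φ d := sinv (by rw [← map_mul, d2, map_one])
  have b1 : m1 * φ d * z * (m1 * φ d)⁻¹ = φ U := by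
    calc _ = m1 * (φ d * z * (φ d)⁻¹) * m1⁻¹ := by group
      _ = _ := by rw [cj1 (J.cz d), a1]
  have b2 : m1 * φ d * φ U * (m1 * φ d)⁻¹ = z * φ U := by
    calc _ = m1 * φ (d * U * d) * m1⁻¹ := by simp only [map_mul, mul_inv_rev, d2']; group
      _ = (m1 * z * m1⁻¹) * (m1 * φ U * m1⁻¹) := by rw [d3, map_mul, J.hz]; group
      _ = _ := by rw [a1, a2, J.cz]
  generalize m1 * φ d = m at b1 b2
  have c1 := comm_cj m (J.cz A)
  have c2 := comm_cj m J.tu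
  rw [b1] at c1
  rw [b2] at c2
  have c3 : m * φ A * m⁻¹ * z = z * (m * φ A * m⁻¹) := by
    rw [← J.uzu]
    exact mem_Cx.1 (Subgroup.mem_centralizer_singleton_iff.2 (mem_Cx.1 (mul_mem (mem_Cx.2 c1.symm)
      (mem_Cx.2 c2.symm))).symm)
  obtain ⟨h, hh⟩ := J.rng _ c3
  obtain ⟨k, hk, rfl⟩ := fM h (J.T_iff.1 (isConj_mk m hh.symm)) (J.comm_iff.1 (by rw [hh]; exact c1))
  have x1 : (φ k)⁻¹ * m * φ A = φ A * ((φ k)⁻¹ * m) := by
    apply cj2
    calc _ = (φ k)⁻¹ * (m * φ A * m⁻¹) * φ k := by group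
      _ = _ := by rw [← hh]; simp only [map_mul, map_inv]; group
  have kz : (φ k)⁻¹ * z * φ k = z := by rw [mul_assoc, ← J.cz]; group
  rcases hk with e | e
  · have ku : (φ k)⁻¹ * φ U * φ k = φ U := by
      nth_rewrite 1 [← e]; simp only [map_mul, map_inv]; group
    have x2 : (φ k)⁻¹ * m * z * ((φ k)⁻¹ * m)⁻¹ = φ U := by
      calc _ = (φ k)⁻¹ * (m * z * m⁻¹) * φ k := by group
        _ = _ := by rw [b1, ku]
    have x3 : (φ k)⁻¹ * m * φ U * ((φ k)⁻¹ * m)⁻¹ = z * φ U := by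
      calc _ = (φ k)⁻¹ * (m * φ U * m⁻¹) * φ k := by group
        _ = ((φ k)⁻¹ * z * φ k) * ((φ k)⁻¹ * φ U * φ k) := by rw [b2]; group
        _ = _ := by rw [kz, ku]
    generalize (φ k)⁻¹ * m = x at x1 x2 x3
    have y1 : x * x * x * z = z * (x * x * x) := by
      apply cj2
      calc _ = x * (x * (x * z * x⁻¹) * x⁻¹) * x⁻¹ := by group
        _ = x * (z * φ U) * x⁻¹ := by rw [x2, x3]
        _ = (x * z * x⁻¹) * (x * φ U * x⁻¹) := by group
        _ = z := by rw [x2, x3, J.uzu]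
    have y2 : x * x * x * φ A = φ A * (x * x * x) :=
      mem_Cx.1 (mul_mem (mul_mem (mem_Cx.2 x1) (mem_Cx.2 x1)) (mem_Cx.2 x1))
    have y3 := J.sqA y1 y2
    have y4 := J.commA y1 y2 (J.cz U) J.tu.symm
    refine ⟨x * x * x * x, mem_Cx.1 (mul_mem (mem_Cx.2 y2) (mem_Cx.2 x1)), ?_, ?_, ?_⟩
    · calc _ = x * x * x * (x * z * x⁻¹) * (x * x * x)⁻¹ := by group
        _ = _ := by rw [x2, cj1 y4]
    · calc _ = x * x * x * (x * φ U * x⁻¹) * (x * x * x)⁻¹ := by group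
        _ = (x * x * x * z * (x * x * x)⁻¹) * (x * x * x * φ U * (x * x * x)⁻¹) := by rw [x3]; group
        _ = _ := by rw [cj1 y1, cj1 y4]
    · calc _ = (x * x * x * (x * x * x)) * (x * x * x * (x * x * x)) := by group
        _ = 1 := by rw [y3, mul_one]
  · exfalso
    have ku : (φ k)⁻¹ * (z * φ U) * φ k = φ U := by
      rw [← J.hz, ← map_mul, ← e]; simp only [map_mul, map_inv]; group
    have x3 : (φ k)⁻¹ * m * φ U * ((φ k)⁻¹ * m)⁻¹ = φ U := by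
      calc _ = (φ k)⁻¹ * (m * φ U * m⁻¹) * φ k := by group
        _ = _ := by rw [b2, ku]
    have := cj1 (J.comm_pair J.zu (IsConj.refl _) J.tu (cj2 x3) x1 (J.cz U).symm (J.cz A).symm)
    apply J.uz
    calc φ U = φ k * ((φ k)⁻¹ * m * z * ((φ k)⁻¹ * m)⁻¹) * (φ k)⁻¹ := by rw [← b1]; group
      _ = z := by rw [this, cj1 (J.cz k)]

theorem inV {h : TE gA} (hh : InV h) : φ h = 1 ∨ φ h = z ∨ φ h = φ U ∨ φ h = z * φ U := by
  rcases hh with rfl | rfl | rfl | rfl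
  · exact Or.inl (map_one _)
  · exact Or.inr (Or.inl J.hz)
  · exact Or.inr (Or.inr (Or.inl rfl))
  · exact Or.inr (Or.inr (Or.inr (by rw [map_mul, J.hz])))

theorem zu_ne : z * φ U ≠ z ∧ z * φ U ≠ φ U ∧ z * φ U ≠ 1 :=
  ⟨fun e => J.u1 (mul_eq_left.1 e), fun e => J.z1 (mul_eq_right.1 e),
    fun e => J.uz ((eq_inv_of_mul_eq_one_right e).trans (sinv J.z2))⟩

end JS

structure JX (z : G) (φ : TE gA →* G) (x : G) : Prop extends JS z φ where
  xt : x * φ A = φ A * x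
  xz : x * z * x⁻¹ = φ U
  xu : x * φ U * x⁻¹ = z * φ U
  x3 : x * x * x = 1

namespace JX
variable {z x : G} {φ : TE gA →* G} (J : JX z φ x)
include J

theorem xzu : x * (z * φ U) * x⁻¹ = z := by
  calc _ = (x * z * x⁻¹) * (x * φ U * x⁻¹) := by group
    _ = z := by rw [J.xz, J.xu, J.uzu]

theorem Vfix {v : G} (hv : v = 1 ∨ v = z ∨ v = φ U ∨ v = z * φ U) (c : x * v = v * x) : v = 1 := by
  have c := cj1 c
  rcases hv with rfl | rfl | rfl | rfl
  · rfl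
  · exact absurd (J.xz.symm.trans c) J.uz
  · exact absurd (J.xu.symm.trans c) J.zu_ne.2.1
  · exact absurd (J.xzu.symm.trans c).symm J.zu_ne.1

theorem exists_y [Finite G] : ∃ y : TE gA, y * U = U * y ∧ y * y * y = 1 ∧ y ≠ 1 ∧ x * φ y = φ y * x := by
  let S : Set G := φ '' {h | h * U = U * h ∧ h * h * h = 1 ∧ h ≠ 1}
  have hS : S.ncard = 32 := by rw [Set.ncard_image_of_injective _ J.inj, TE.cnt_eq, c3]
  by_contra hn
  have := CfH3.dvd_ncard_of_conj x Nat.prime_three (by rw [pow_three', J.x3]) S (by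
    rintro _ ⟨y, ⟨h1, h2, h3⟩, rfl⟩
    have c1 := comm_cj x (J.cz y)
    have c2 := comm_cj x (J.comm_iff.2 h1)
    rw [J.xz] at c1
    rw [J.xu] at c2
    obtain ⟨h, hh⟩ := J.rng (x * φ y * x⁻¹) (by
      rw [← J.uzu]
      exact (mem_Cx.1 (mul_mem (mem_Cx.2 c1.symm) (mem_Cx.2 c2.symm))).symm)
    refine ⟨h, ⟨J.comm_iff.1 (by rw [hh]; exact c1), J.inj ?_, fun e => h3 (J.inj ?_)⟩, hh⟩
    · simp only [map_mul, hh, map_one]
      calc _ = x * φ (y * y * y) * x⁻¹ := by simp only [map_mul]; group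
        _ = 1 := by rw [h2]; simp
    · rw [e, map_one] at hh
      rw [map_one]
      simpa using hh.symm) (by
    rintro _ ⟨y, ⟨h1, h2, h3⟩, rfl⟩ e
    exact hn ⟨y, h1, h2, h3, e⟩)
  rw [hS] at this
  norm_num at this

theorem exists_yd [Finite G] : ∃ (y : TE gA) (d : G), y * U = U * y ∧ y * y * y = 1 ∧ y ≠ 1 ∧ x * φ y = φ y * x ∧
    d * d = 1 ∧ d * z = z * d ∧ d * φ y = φ y * d ∧ d * x * d * x = φ y ∧
    φ A * d * (φ A * d) * (φ A * d) * (φ A * d) * z = 1 := by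
  obtain ⟨y, y1, y2, y3, y4⟩ := J.exists_y
  obtain ⟨d, hd, d1, d2⟩ := (fY1 y y1 y2 y3).2.2
  obtain ⟨d3, d4, d5, d6⟩ := fD d hd d2
  have e3 : φ d * φ d = 1 := by rw [← map_mul, d3, map_one]
  have e4 : φ d * φ U * φ d = z * φ U := by rw [← J.hz, ← map_mul, ← map_mul, d4, map_mul]
  have e1 := J.comm_iff.2 d1
  have e0 := J.cz d
  have e5 := congrArg φ d5
  have e6 := congrArg φ d6
  simp only [map_mul, J.hz, map_one] at e5 e6
  generalize φ d = D at e0 e1 e3 e4 e5 e6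
  have Di := sinv e3
  have Dz : D * z * D = z := by rw [e0, mul_assoc, e3, mul_one]
  have Dzu : D * (z * φ U) * D = φ U := by
    rw [← e4]; calc _ = D * D * φ U * (D * D) := by group
      _ = _ := by rw [e3]; group
  have g1 : D * x * D * x * z = z * (D * x * D * x) := by
    apply cj2
    calc _ = D * (x * (D * (x * z * x⁻¹) * D⁻¹) * x⁻¹) * D⁻¹ := by group
      _ = z := by rw [J.xz, Di, e4, J.xzu, Dz]
  have g2 : D * x * D * x * φ U = φ U * (D * x * D * x) := by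
    apply cj2
    calc _ = D * (x * (D * (x * φ U * x⁻¹) * D⁻¹) * x⁻¹) * D⁻¹ := by group
      _ = _ := by rw [J.xu, Di, Dzu, J.xu, Dzu]
  have g3 : D * x * D * x * φ y = φ y * (D * x * D * x) :=
    mem_Cx.1 (mul_mem (mul_mem (mul_mem (mem_Cx.2 e1) (mem_Cx.2 y4)) (mem_Cx.2 e1)) (mem_Cx.2 y4))
  obtain ⟨h, hh⟩ := J.rng _ g1
  obtain ⟨w, hw, hv⟩ : ∃ w : TE gA, (w = 1 ∨ w = y ∨ w = y⁻¹) ∧ InV (h * w⁻¹) := by
    rcases fY3 y y1 y2 y3 h (J.comm_iff.1 (by rw [hh]; exact g2)) (J.comm_iff.1 (by rw [hh]; exact g3)) with e | e | e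
    · exact ⟨1, Or.inl rfl, by simpa using e⟩
    · exact ⟨y⁻¹, Or.inr (Or.inr rfl), by simpa using e⟩
    · exact ⟨y, Or.inr (Or.inl rfl), e⟩
  have wy : φ w ∈ zpowers (φ y) := by
    rcases hw with rfl | rfl | rfl
    · simp
    · simp
    · simp
  have wD : D * φ w = φ w * D := (mem_Cx.1 ((zpowers_le.2 (mem_Cx.2 e1.symm) : _ ≤ Cx(D)) wy)).symm
  have wx : x * φ w = φ w * x := (mem_Cx.1 ((zpowers_le.2 (mem_Cx.2 y4.symm) : _ ≤ Cx(x)) wy)).symm
  have hv := J.inV hv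
  rw [map_mul, map_inv, hh] at hv
  have key : D * (D * x * D * x * (φ w)⁻¹) * D = x * (D * x * D * x * (φ w)⁻¹) * x⁻¹ := by
    have wD' : (φ w)⁻¹ * D = D * (φ w)⁻¹ := (mem_Cx.1 (inv_mem (mem_Cx.2 wD.symm)))
    calc _ = D * D * x * D * x * ((φ w)⁻¹ * D) := by group
      _ = x * D * x * D * (φ w)⁻¹ := by rw [e3, wD']; group
      _ = x * D * x * D * (x * φ w * x⁻¹)⁻¹ := by rw [cj1 wx]
      _ = _ := by group
  obtain ⟨D', f1, f2, f3, f4, f5⟩ : ∃ D' : G, D' * D' = 1 ∧ D' * z = z * D' ∧ D' * φ y = φ y * D' ∧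
      D' * x * D' * x = φ w ∧ φ A * D' * (φ A * D') * (φ A * D') * (φ A * D') * z = 1 := by
    rcases hv with e | e | e | e
    · exact ⟨D, e3, e0, e1, mul_inv_eq_one.1 e, e5⟩
    · rw [e, Dz, J.xz] at key; exact absurd key.symm J.uz
    · refine ⟨D * z, ?_, ?_, ?_, ?_, e6⟩
      · calc _ = D * z * D * z := by group
          _ = 1 := by rw [Dz, J.z2]
      · rw [mul_assoc, ← mul_assoc z, ← e0, mul_assoc]
      · rw [mul_assoc, ← J.cz, ← mul_assoc, e1, mul_assoc]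
      · calc _ = (D * z * D⁻¹) * (D * (x * (D * z * D⁻¹) * x⁻¹) * D⁻¹) * (D * x * D * x * (φ w)⁻¹) * φ w := by group
          _ = _ := by rw [Di, Dz, J.xz, e4, e, ← mul_assoc z, J.z2, one_mul, J.u2, one_mul]
    · rw [e, Dzu, J.xzu] at key; exact absurd key J.uz
  rcases hw with rfl | rfl | rfl
  · exfalso
    rw [map_one] at f4
    have a1 : D' * x * D' = x⁻¹ := eq_inv_of_mul_eq_one_left f4
    have a2 : D' * φ A * D' ∈ Cx(x) := by
      have := comm_cj D' J.xt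
      rw [sinv f1, a1] at this
      rw [← Cz_zpowers, ← zpowers_inv, Cz_zpowers]
      exact mem_Cx.2 this.symm
    have a3 : φ A * (D' * φ A * D') ∈ Cx(x) := mul_mem (mem_Cx.2 J.xt.symm) a2
    have a4 := inv_mem (mul_mem a3 a3)
    rw [show (φ A * (D' * φ A * D') * (φ A * (D' * φ A * D')))⁻¹ = z from
      inv_eq_of_mul_eq_one_right (by rw [← f5]; group)] at a4
    exact J.z1 (J.Vfix (Or.inr (Or.inl rfl)) (mem_Cx.1 a4).symm)
  · exact ⟨w, D', y1, y2, y3, y4, f1, f2, f3, f4, f5⟩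
  · refine ⟨y⁻¹, D', mem_Cx.1 (inv_mem (mem_Cx.2 y1)), ?_, by simpa using y3, wx, f1, f2, ?_, f4, f5⟩
    · rw [← mul_inv_rev, ← mul_inv_rev, ← mul_assoc, y2, inv_one]
    · rw [map_inv]; exact (mem_Cx.1 (inv_mem (mem_Cx.2 f3.symm))).symm

end JX
end CfL
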