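import Cfsg.Agent.OD.Pre
import Cfsg.Agent.L.J2d
/-! Groups of Hall-Janko type: the second involution centraliser, the order, and generators with relations. -/
set_option autoImplicit false
open Subgroup CfH9 CfH7 Cfsg
namespace CfL
open HA

variable {G : Type*} [Group G]

theorem HA.TAZ : IsT (A * Z) := by decide +kernel

structure JY (z : G) (φ : TE gA →* G) (x : G) (y : TE gA) : Prop extends JX z φ x where
  y1 : y * U = U * y
  y2 : y * y * y = 1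
  y3 : y ≠ 1
  y4 : x * φ y = φ y * x

namespace JS
variable {z : G} {φ : TE gA →* G} (J : JS z φ)

def V : Subgroup G where
  carrier := {g | g = 1 ∨ g = z ∨ g = φ U ∨ g = z * φ U}
  one_mem' := Or.inl rfl
  mul_mem' := by
    have a := J.z2
    have b := J.u2
    have c := J.cz U
    have d : ∀ g, z * (z * g) = g := fun g => by rw [← mul_assoc, a, one_mul]
    have e : φ U * (z * φ U) = z := J.uzu
    rintro _ _ (rfl | rfl | rfl | rfl) (rfl | rfl | rfl | rfl) <;> simp [a, b, c, d, e, mul_assoc]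
  inv_mem' := by
    rintro _ (rfl | rfl | rfl | rfl)
    · simp
    · simp [sinv J.z2]
    · simp [sinv J.u2]
    · simp [sinv J.z2, sinv J.u2, J.cz U]

theorem mem_V {g : G} : g ∈ J.V ↔ g = 1 ∨ g = z ∨ g = φ U ∨ g = z * φ U := Iff.rfl

include J

theorem card_V : Nat.card J.V = 4 := by
  classical
  have : ((J.V : Subgroup G) : Set G) = ({1, z, φ U, z * φ U} : Finset G) := by
    ext g
    simp [J.mem_V]
  change Nat.card ((J.V : Subgroup G) : Set G) = 4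
  rw [this, Nat.card_coe_set_eq, Set.ncard_coe_finset]
  rw [Finset.card_insert_of_notMem, Finset.card_insert_of_notMem, Finset.card_pair J.zu_ne.2.1.symm]
  · simp only [Finset.mem_insert, Finset.mem_singleton, not_or]
    exact ⟨J.uz.symm, J.zu_ne.1.symm⟩
  · simp only [Finset.mem_insert, Finset.mem_singleton, not_or]
    exact ⟨J.z1.symm, J.u1.symm, J.zu_ne.2.2.symm⟩

theorem V_le : J.V ≤ Cx(z) ⊓ Cx(φ A) := by
  have a : z ∈ Cx(z) ⊓ Cx(φ A) := ⟨mem_Cx.2 rfl, mem_Cx.2 (J.cz A).symm⟩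
  have b : φ U ∈ Cx(z) ⊓ Cx(φ A) := ⟨mem_Cx.2 (J.cz U), mem_Cx.2 J.tu.symm⟩
  rintro _ (rfl | rfl | rfl | rfl)
  exacts [one_mem _, a, b, mul_mem a b]

theorem t_not_V : φ A ∉ J.V := by
  rintro (e | e | e | e)
  · exact J.t1 e
  · exact J.zt (e ▸ IsConj.refl _)
  · exact J.zt (e ▸ J.zu)
  · rw [← J.hz, ← map_mul] at e
    exact J.zt (e ▸ J.ZU basic.2.2.2.2.2.2.1)

theorem ZA {g : G} (hg : g ∈ Cx(z) ⊓ Cx(φ A)) (c : IsConj z g) : g ∈ J.V := by
  obtain ⟨h, rfl⟩ := J.rng g (mem_Cx.1 hg.1)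
  rcases (fCA h (J.comm_iff.1 (mem_Cx.1 hg.2))).2 with e | e
  · exact J.inV e
  · exact absurd (c.trans (TT e).symm) J.zt

theorem card_H : Nat.card Cx(z) = 1920 := by
  have : φ.range = Cx(z) := by
    ext g
    exact ⟨fun ⟨h, e⟩ => e ▸ mem_Cx.2 (J.cz h), fun hg => J.rng g (mem_Cx.1 hg)⟩
  rw [← this, ← Nat.card_congr (MonoidHom.ofInjective J.inj).toEquiv, TE.card]
  rfl

theorem card_A : Nat.card (Cx(z) ⊓ Cx(φ A) : Subgroup G) = 16 := by
  change Nat.card (((Cx(z) ⊓ Cx(φ A) : Subgroup G)) : Set G) = 16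
  rw [Nat.card_coe_set_eq, ← cCA, ← TE.cnt_eq, ← Set.ncard_image_of_injective _ J.inj]
  congr 1
  ext g
  constructor
  · rintro ⟨h1, h2⟩
    obtain ⟨h, rfl⟩ := J.rng g (mem_Cx.1 h1)
    exact ⟨h, J.comm_iff.1 (mem_Cx.1 h2), rfl⟩
  · rintro ⟨h, h1, rfl⟩
    exact ⟨mem_Cx.2 (J.cz h), mem_Cx.2 (J.comm_iff.2 h1)⟩

theorem pA : IsPGroup 2 (Cx(z) ⊓ Cx(φ A) : Subgroup G) :=
  isPGroup_iff_mem.2 fun a ha => ⟨1, by rw [pow_one, pow_two]; exact J.sqA (mem_Cx.1 ha.1) (mem_Cx.1 ha.2)⟩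

theorem cA {a b : G} (ha : a ∈ Cx(z) ⊓ Cx(φ A)) (hb : b ∈ Cx(z) ⊓ Cx(φ A)) : a * b = b * a :=
  J.commA (mem_Cx.1 ha.1) (mem_Cx.1 ha.2) (mem_Cx.1 hb.1) (mem_Cx.1 hb.2)

theorem az [Finite G] : (thP z (φ A) z).ncard = 960 := by
  classical
  have e := ncard_pairs {v | IsT v} (fun v u => u ∈ LU ∧ u * v ≠ v * u) 8 (fun v hv => by
    rw [← (fa v hv).2.2, ← List.toFinset_card_of_nodup (ndU.1.filter _), ← Set.ncard_coe_finset]
    congr 1
    ext u
    simp)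
  rw [TE.cnt_eq, cT] at e
  rw [show 960 = 120 * 8 by rfl, ← e, ← Set.ncard_image_of_injective _ (f := fun p : TE gA × TE gA => (φ p.2, φ p.1))
    (fun p q h => by simp only [Prod.mk.injEq, J.inj.eq_iff] at h; exact Prod.ext h.2 h.1)]
  congr 1
  ext ⟨u, v⟩
  constructor
  · rintro ⟨h1, h2, h3⟩
    have u2 := sq_of_isConj h1 J.z2
    have v2 := sq_of_isConj h2 J.t2
    obtain ⟨c1, c2⟩ := comm_of_mem_zpowers u2 v2 h3 J.z2
    obtain ⟨a, rfl⟩ := J.rng u c1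
    obtain ⟨b, rfl⟩ := J.rng v c2
    have hb := J.T_iff.1 h2
    have key : φ a * φ b = φ b * φ a → a * b = Z := fun c => by
      have s : φ a * φ b * (φ a * φ b) = 1 := by
        calc _ = φ a * (φ b * φ a) * φ b := by group
          _ = (φ a * φ a) * (φ b * φ b) := by rw [← c]; group
          _ = 1 := by rw [u2, v2, mul_one]
      apply J.inj
      rw [map_mul, J.hz]
      refine (invol_unique h3 (mem_zpowers _) J.z2 J.z1 s fun e => ?_).symm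
      simp only [e, zpowers_one_eq_bot, mem_bot] at h3
      exact J.z1 h3
    rcases J.Z_iff.1 h1 with rfl | ha
    · exact absurd (key (by rw [J.hz, J.cz])) (fa b hb).1
    · exact ⟨(b, a), ⟨hb, ha, fun c => ((fa b hb).2.1 a ha).1 (key (J.comm_iff.2 c))⟩, rfl⟩
  · rintro ⟨⟨b, a⟩, ⟨hb, ha, c⟩, e⟩
    obtain ⟨rfl, rfl⟩ := Prod.mk.inj e
    refine ⟨J.ZU ha, TT hb, ?_⟩
    have := congrArg φ (((fa b hb).2.1 a ha).2.resolve_left c)
    simp only [map_mul, J.hz] at this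
    rw [← this]
    have m := mem_zpowers (φ a * φ b)
    exact mul_mem (mul_mem (mul_mem m m) m) m

theorem not_51840 [Finite G] : Nat.card G ≠ 51840 := by
  classical
  intro hG
  have c1 := ncard_class_mul z
  rw [J.card_H, hG] at c1
  have c2 : ({b | IsConj z b} ∩ (Cx(z) : Subgroup G)).ncard = 11 := by
    rw [show 11 = (Z :: LU).length by rfl, ← List.toFinset_card_of_nodup (List.nodup_cons.2 ⟨ndU.2, ndU.1⟩),
      ← Set.ncard_coe_finset, ← Set.ncard_image_of_injective _ J.inj]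
    congr 1
    ext g
    constructor
    · rintro ⟨h1, h2⟩
      obtain ⟨h, rfl⟩ := J.rng g (mem_Cx.1 h2)
      exact ⟨h, by simpa using J.Z_iff.1 h1, rfl⟩
    · rintro ⟨h, h1, rfl⟩
      exact ⟨J.Z_iff.2 (by simpa using h1), mem_Cx.2 (J.cz h)⟩
  have c3 := Set.ncard_inter_add_ncard_sdiff_eq_ncard {b | IsConj z b} ((Cx(z) : Subgroup G) : Set G)
  set Y := {b | IsConj z b} \ ((Cx(z) : Subgroup G) : Set G) with hY
  have c4 : Y.ncard = 16 := by omega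
  have hc : ∀ h, ∀ w ∈ Y, φ h * w * (φ h)⁻¹ ∈ Y := fun h w hw =>
    ⟨hw.1.trans (isConj_mk _ rfl), fun e => hw.2 (by
      have m : φ h ∈ Cx(z) := mem_Cx.2 (J.cz h)
      exact (mul_mem_cancel_left m).1 ((mul_mem_cancel_right (inv_mem m)).1 e))⟩
  obtain ⟨w, hw, wf⟩ : ∃ w ∈ Y, φ F * w = w * φ F := by
    by_contra hn
    have := CfH3.dvd_ncard_of_conj (φ F) (p := 5) (by norm_num) (by
      rw [← map_pow, show F ^ 5 = F * F * F * F * F by simp [pow_succ], F5, map_one]) Y (hc F)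
      (fun w hw e => hn ⟨w, hw, e⟩)
    rw [c4] at this
    norm_num at this
  obtain ⟨q, hq, q', hq', hne, e⟩ := Set.exists_ne_map_eq_of_ncard_lt_of_maps_to (s := (LQ.toFinset : Set (TE gA)))
    (t := Y) (f := fun q => φ q * w * (φ q)⁻¹) (by
      rw [c4, Set.ncard_coe_finset, List.toFinset_card_of_nodup ndQ]; decide) (fun q _ => hc q w hw)
  have r : φ (q⁻¹ * q') ∈ Cx(w) := mem_Cx'.2 (by
    simp only [map_mul, map_inv]
    calc _ = (φ q)⁻¹ * (φ q' * w * (φ q')⁻¹) * φ q := by group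
      _ = _ := by rw [← e]; group)
  have f : φ F ∈ Cx(w) := mem_Cx.2 wf
  have zz : φ Z ∈ Cx(w) := by
    rcases fQ q (by simpa using hq) q' (by simpa using hq') with e | e | e | e
    · exact absurd e hne
    · rwa [← e]
    all_goals
      rw [← e]
      generalize q⁻¹ * q' = r' at r
      simp only [map_mul, map_inv]
      repeat' first | assumption | apply mul_mem | apply inv_mem
  rw [J.hz] at zz
  exact hw.2 (mem_Cx.2 (mem_Cx.1 zz).symm)

end JS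

namespace JY
variable {z x : G} {φ : TE gA →* G} {y : TE gA} (J : JY z φ x y)
include J

theorem Y3 : φ y * φ y * φ y = 1 := by rw [← map_mul, ← map_mul, J.y2, map_one]
theorem Y1 : φ y ≠ 1 := fun e => J.y3 (J.inj (by rw [e, map_one]))

theorem ty3 : φ A * φ y * (φ A * φ y) * (φ A * φ y) = 1 := by
  have := J.inV (fY1 y J.y1 J.y2 J.y3).1
  simp only [map_mul] at this
  have m : φ A * φ y ∈ Cx(x) := mul_mem (mem_Cx.2 J.xt.symm) (mem_Cx.2 J.y4.symm)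
  exact J.Vfix this (mem_Cx.1 (mul_mem (mul_mem m m) m)).symm

theorem t2A : φ y * φ A * (φ y)⁻¹ ∈ Cx(z) ⊓ Cx(φ A) := by
  have := J.comm_iff.2 (fY1 y J.y1 J.y2 J.y3).2.1
  have b := J.cz (y * A * y⁻¹)
  simp only [map_mul, map_inv] at this b
  exact ⟨mem_Cx.2 b, mem_Cx.2 this⟩

theorem t3A : (φ y)⁻¹ * φ A * φ y ∈ Cx(z) ⊓ Cx(φ A) := by
  have := comm_cj (φ y)⁻¹ (mem_Cx.1 J.t2A.2)
  have b := J.cz (y⁻¹ * A * y)
  simp only [map_mul, map_inv] at b
  exact ⟨mem_Cx.2 b, mem_Cx.2 (by simpa [mul_assoc] using this.symm)⟩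

theorem Aform {a : G} (ha : a ∈ Cx(z) ⊓ Cx(φ A)) : ∃ v ∈ J.V, ∃ w,
    (w = 1 ∨ w = φ A ∨ w = φ y * φ A * (φ y)⁻¹ ∨ w = (φ y)⁻¹ * φ A * φ y) ∧ a = v * w := by
  obtain ⟨h, rfl⟩ := J.rng a (mem_Cx.1 ha.1)
  have s2 : φ y * φ A * (φ y)⁻¹ * (φ y * φ A * (φ y)⁻¹) = 1 := sq_of_isConj (isConj_mk _ rfl) J.t2
  have s3 : (φ y)⁻¹ * φ A * φ y * ((φ y)⁻¹ * φ A * φ y) = 1 := sq_of_isConj (isConj_mk (φ y)⁻¹ (by simp)) J.t2
  rcases fY2 y J.y1 J.y2 J.y3 h (J.comm_iff.1 (mem_Cx.1 ha.2)) with e | e | e | e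
  · exact ⟨_, J.inV e, 1, Or.inl rfl, by simp⟩
  · exact ⟨_, J.inV e, _, Or.inr (Or.inl rfl), by rw [map_mul, mul_assoc, J.t2, mul_one]⟩
  · exact ⟨_, J.inV e, _, Or.inr (Or.inr (Or.inl rfl)), by
      simp only [map_mul, map_inv]; rw [mul_assoc (φ h), s2, mul_one]⟩
  · exact ⟨_, J.inV e, _, Or.inr (Or.inr (Or.inr rfl)), by
      simp only [map_mul, map_inv]; rw [mul_assoc (φ h), s3, mul_one]⟩

theorem W_spec {w : G} (hw : w = 1 ∨ w = φ A ∨ w = φ y * φ A * (φ y)⁻¹ ∨ w = (φ y)⁻¹ * φ A * φ y) :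
    w ∈ Cx(z) ⊓ Cx(φ A) ∧ w ∈ Cx(x) := by
  have a : φ A ∈ Cx(x) := mem_Cx.2 J.xt.symm
  have b : φ y ∈ Cx(x) := mem_Cx.2 J.y4.symm
  rcases hw with rfl | rfl | rfl | rfl
  · exact ⟨one_mem _, one_mem _⟩
  · exact ⟨⟨mem_Cx.2 (J.cz A), mem_Cx.2 rfl⟩, a⟩
  · exact ⟨J.t2A, mul_mem (mul_mem b a) (inv_mem b)⟩
  · exact ⟨J.t3A, mul_mem (mul_mem (inv_mem b) a) b⟩

theorem xzu' : x⁻¹ * z * x = z * φ U := by
  nth_rewrite 1 [← J.xzu]; group

theorem x_V {v : G} (hv : v ∈ J.V) : x * v * x⁻¹ ∈ J.V := by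
  rcases hv with rfl | rfl | rfl | rfl
  · simp
  · rw [J.xz]; exact Or.inr (Or.inr (Or.inl rfl))
  · rw [J.xu]; exact Or.inr (Or.inr (Or.inr rfl))
  · rw [J.xzu]; exact Or.inr (Or.inl rfl)

variable [Finite G]

theorem NA {n : G} (h1 : n ∈ Cx(φ A)) (h2 : n ∈ Nm((Cx(z) ⊓ Cx(φ A) : Subgroup G))) :
    ∃ k, (k = 1 ∨ k = x ∨ k = x⁻¹) ∧ k⁻¹ * n ∈ Cx(z) ⊓ Cx(φ A) := by
  have xK : x ∈ Cx(φ A) := mem_Cx.2 J.xt
  have key : ∀ k ∈ Cx(φ A), n * z * n⁻¹ = k * z * k⁻¹ → k⁻¹ * n ∈ Cx(z) ⊓ Cx(φ A) := fun k hk e =>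
    ⟨mem_Cx'.2 (by
      calc _ = k⁻¹ * (n * z * n⁻¹) * k := by group
        _ = z := by rw [e]; group), Subgroup.mul_mem _ (Subgroup.inv_mem _ hk) h1⟩
  rcases J.ZA (conj_mem_of_mem_normalizer h2 (J.V_le (Or.inr (Or.inl rfl)))) (isConj_mk n rfl) with e | e | e | e
  · exact absurd e (ne_one_of_isConj (isConj_mk n rfl) J.z1)
  · exact ⟨1, Or.inl rfl, key 1 (one_mem _) (by simp [e])⟩
  · exact ⟨x, Or.inr (Or.inl rfl), key x xK (by rw [e, J.xz])⟩
  · exact ⟨x⁻¹, Or.inr (Or.inr rfl), key x⁻¹ (inv_mem xK) (by rw [e, inv_inv, J.xzu'])⟩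

theorem x_ord : orderOf x = 3 := orderOf_eq_prime (by rw [pow_three', J.x3]) (fun e => J.uz (by
  rw [← J.xz, e]; simp))

theorem sylA : SylIn 2 (Cx(z) ⊓ Cx(φ A)) Cx(φ A) := by
  obtain ⟨S, hS, hle⟩ := exists_sylIn_ge J.pA (inf_le_right (a := Cx(z)) (b := Cx(φ A)))
  by_contra hne
  have lt : Cx(z) ⊓ Cx(φ A) < S := lt_of_le_of_ne hle (fun e => hne (e ▸ hS))
  refine (lt_inf_Nm hS.pgrp lt).not_ge ?_
  rintro n ⟨n1, n2⟩
  obtain ⟨k, hk, h⟩ := J.NA (hS.le n1) n2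
  have kS : k⁻¹ ∈ S := (mul_mem_cancel_right (H := S) n1).1 (hle h)
  have xS : x ∉ S := fun e => by
    obtain ⟨j, hj⟩ := isPGroup_iff_mem.1 hS.pgrp x e
    have := orderOf_dvd_of_pow_eq_one hj
    rw [J.x_ord] at this
    exact absurd (Nat.Prime.dvd_of_dvd_pow Nat.prime_three this) (by norm_num)
  rcases hk with rfl | rfl | rfl
  · simpa using h
  · exact absurd (inv_mem_iff.1 kS) xS
  · exact absurd (by simpa using kS) xS

theorem x_K0 : x ∈ pResidualOf 2 Cx(φ A) := mem_pResidualOf (mem_Cx.2 J.xt) (by rw [J.x_ord]; norm_num)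

omit J in
theorem K0_conj {k g : G} (hk : k ∈ Cx(φ A)) (hg : g ∈ pResidualOf 2 Cx(φ A)) :
    k * g * k⁻¹ ∈ pResidualOf 2 Cx(φ A) :=
  conj_mem_of_mem_normalizer (le_normalizer_pResidualOf _ hk) hg

theorem z_K0 : z ∈ pResidualOf 2 Cx(φ A) := by
  have a := mul_mem (K0_conj (mem_Cx.2 (J.cz A).symm) J.x_K0) (inv_mem J.x_K0)
  have b := K0_conj (mem_Cx.2 J.xt) a
  rwa [sinv J.z2, show z * x * z * x⁻¹ = z * (x * z * x⁻¹) by group, J.xz, J.xzu] at b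

theorem A_inf_K0 : (Cx(z) ⊓ Cx(φ A)) ⊓ pResidualOf 2 Cx(φ A) = J.V := by
  apply le_antisymm
  · have h1 := J.sylA.inf_pResidualOf_le_commutator'
    have h2 := focal J.sylA
    refine (le_inf inf_le_left h1).trans (h2.le.trans (foc_le_iff.2 fun a ha k hk hka => ?_))
    obtain ⟨n, n1, n2, e⟩ := burnside_fusion_elem J.sylA hk (fun b hb => J.cA hb ha) (fun b hb => J.cA hb hka)
    obtain ⟨k', hk', h⟩ := J.NA n1 n2
    obtain ⟨v, hv, w, hw, rfl⟩ := J.Aform ha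
    obtain ⟨w1, w2⟩ := J.W_spec hw
    have hk2 : k' * v * k'⁻¹ ∈ J.V ∧ k' * w * k'⁻¹ = w := by
      have c := cj1 (mem_Cx.1 w2).symm
      rcases hk' with rfl | rfl | rfl
      · simpa using hv
      · exact ⟨J.x_V hv, c⟩
      · refine ⟨?_, by nth_rewrite 1 [← c]; group⟩
        have := J.x_V (J.x_V hv)
        rwa [show x * (x * v * x⁻¹) * x⁻¹ = x⁻¹ * (x * x * x) * v * (x * x * x)⁻¹ * x⁻¹⁻¹ by group, J.x3, inv_one,
          mul_one, mul_one] at this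
    have e2 : n * (v * w) * n⁻¹ = w * (k' * v * k'⁻¹) := by
      calc _ = k' * (k'⁻¹ * n * (v * w) * (k'⁻¹ * n)⁻¹) * k'⁻¹ := by group
        _ = (k' * v * k'⁻¹) * (k' * w * k'⁻¹) := by rw [cj1 (J.cA h ha)]; group
        _ = _ := by rw [hk2.2, J.cA w1 (J.V_le hk2.1)]
    rw [e, e2, J.cA (J.V_le hv) w1, show (w * v)⁻¹ * (w * (k' * v * k'⁻¹)) = v⁻¹ * (k' * v * k'⁻¹) by group]
    exact mul_mem (inv_mem hv) hk2.1
  · refine le_inf J.V_le ?_
    have a := J.z_K0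
    have b := K0_conj (mem_Cx.2 J.xt) a
    rw [J.xz] at b
    rintro _ (rfl | rfl | rfl | rfl)
    exacts [one_mem _, a, b, mul_mem a b]

theorem k4 : K4 (⟨z, J.z_K0⟩ : pResidualOf 2 Cx(φ A)) ⟨x, J.x_K0⟩ where
  z2 := Subtype.ext J.z2
  zne := fun e => J.z1 (congrArg Subtype.val e)
  x3 := Subtype.ext J.x3
  zx3 := Subtype.ext (by
    change z * x * (z * x) * (z * x) = 1
    calc _ = z * (x * z * x⁻¹) * (x * (x * z * x⁻¹) * x⁻¹) * (x * x * x) := by group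
      _ = 1 := by rw [J.xz, J.xu, J.x3, mul_assoc z, J.uzu, J.z2, mul_one])
  cent := fun g hg => by
    have : (g : G) ∈ J.V := J.A_inf_K0 ▸ ⟨⟨mem_Cx.2 (congrArg Subtype.val hg), pResidualOf_le _ g.2⟩, g.2⟩
    rcases this with e | e | e | e
    · exact Or.inl (Subtype.ext e)
    · exact Or.inr (Or.inl (Subtype.ext e))
    · exact Or.inr (Or.inr (Or.inl (Subtype.ext (e.trans J.xz.symm))))
    · exact Or.inr (Or.inr (Or.inr (Subtype.ext (e.trans J.xzu'.symm))))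

theorem card_K : Nat.card Cx(φ A) = 4 * Nat.card (pResidualOf 2 Cx(φ A)) := by
  have := card_mul_card_eq_of_le_normalizer (H := Cx(z) ⊓ Cx(φ A)) (K := pResidualOf 2 Cx(φ A))
    (inf_le_right.trans (le_normalizer_pResidualOf _))
  rw [J.A_inf_K0, J.card_V, J.card_A, sup_comm, J.sylA.sup_pResidualOf] at this
  omega

theorem Z_K0 {u : G} (h1 : IsConj z u) (h2 : u ∈ Cx(φ A)) : u ∈ pResidualOf 2 Cx(φ A) := by
  obtain ⟨k, hk, e⟩ := J.sylA.exists_conj_mem h2 (k := 1) (by rw [pow_one, pow_two]; exact sq_of_isConj h1 J.z2)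
  have := J.ZA e (h1.trans (isConj_mk k rfl))
  rw [← J.A_inf_K0] at this
  have := K0_conj (inv_mem hk) this.2
  simpa [mul_assoc] using this

theorem at_eq : (thP z (φ A) (φ A)).ncard =
    (Nat.card (pResidualOf 2 Cx(φ A)) / 4) * (Nat.card (pResidualOf 2 Cx(φ A)) / 4 - 2) := by
  rw [← J.k4.ncard_odd_pairs, ← Set.ncard_image_of_injective _
    (f := fun p : pResidualOf 2 Cx(φ A) × pResidualOf 2 Cx(φ A) => ((p.1 : G), φ A * p.2))
    (fun p q h => by simp only [Prod.mk.injEq, mul_right_inj, Subtype.val_inj] at h; exact Prod.ext h.1 h.2)]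
  congr 1
  ext ⟨u, v⟩
  constructor
  · rintro ⟨h1, h2, h3⟩
    have u2 := sq_of_isConj h1 J.z2
    have v2 := sq_of_isConj h2 J.t2
    obtain ⟨c1, c2⟩ := comm_of_mem_zpowers u2 v2 h3 J.t2
    simp only at h1 h2 h3 u2 v2 c1 c2
    have uK := J.Z_K0 h1 (mem_Cx.2 c1)
    obtain ⟨n, hn⟩ := mem_zpowers_iff.1 h3
    let N := (pResidualOf 2 Cx(φ A)).subgroupOf Cx(φ A)
    have : N.Normal := by simp only [N]; rw [subgroupOf_pResidualOf]; infer_instance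
    let π := QuotientGroup.mk' N
    let t' : Cx(φ A) := ⟨φ A, mem_Cx.2 rfl⟩
    let u' : Cx(φ A) := ⟨u, mem_Cx.2 c1⟩
    let v' : Cx(φ A) := ⟨v, mem_Cx.2 c2⟩
    have p1 : π u' = 1 := (QuotientGroup.eq_one_iff _).2 uK
    have p2 : π t' ≠ 1 := fun e => J.t_not_V (J.A_inf_K0 ▸
      ⟨⟨mem_Cx.2 (J.cz A), mem_Cx.2 rfl⟩, (QuotientGroup.eq_one_iff (N := N) t').1 e⟩)
    have p3 : π v' ^ n = π t' := by
      rw [← one_mul (π v'), ← p1, ← map_mul, ← map_zpow]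
      exact congrArg π (Subtype.ext hn)
    have p4 : π v' ^ (2 : ℤ) = 1 := by
      rw [zpow_two, ← map_mul, ← map_one π]
      exact congrArg π (Subtype.ext v2)
    obtain ⟨m, rfl | rfl⟩ := Int.even_or_odd' n
    · rw [zpow_mul, p4, one_zpow] at p3
      exact absurd p3.symm p2
    rw [zpow_add_one, zpow_mul, p4, one_zpow, one_mul] at p3
    have kK : φ A * v ∈ pResidualOf 2 Cx(φ A) := by
      have : π (t' * v') = 1 := by rw [map_mul, ← p3, ← zpow_two, p4]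
      exact (QuotientGroup.eq_one_iff (N := N) (t' * v')).1 this
    have k2 : φ A * v * (φ A * v) = 1 := by
      calc _ = φ A * (v * φ A) * v := by group
        _ = (φ A * φ A) * (v * v) := by rw [c2]; group
        _ = 1 := by rw [J.t2, v2, mul_one]
    have od : (u * (φ A * v)) ^ (2 * m + 1) = 1 := by
      have cm : Commute (φ A) (u * v) := (mem_Cx.1 (mul_mem (mem_Cx.2 c1) (mem_Cx.2 c2))).symm
      rw [show u * (φ A * v) = φ A * (u * v) by rw [← mul_assoc, c1, mul_assoc], cm.mul_zpow, hn, zpow_add_one,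
        zpow_mul, zpow_two, J.t2, one_zpow, one_mul, J.t2]
    refine ⟨(⟨u, uK⟩, ⟨φ A * v, kK⟩), ⟨⟨Subtype.ext u2, fun e => ne_one_of_isConj h1 J.z1 (congrArg Subtype.val e)⟩,
      ⟨Subtype.ext k2, fun e => ?_⟩, ?_⟩, by simp only; rw [← mul_assoc, J.t2, one_mul]⟩
    · have e' : φ A * v = 1 := congrArg Subtype.val e
      rw [e', mul_one, zpow_add_one, zpow_mul, zpow_two, u2, one_zpow, one_mul] at od
      exact ne_one_of_isConj h1 J.z1 od
    · rw [← Subgroup.orderOf_coe]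
      have := orderOf_dvd_iff_zpow_eq_one.2 od
      by_contra hev
      have h2 : (2 : ℤ) ∣ 2 * m + 1 := (Int.natCast_dvd_natCast.2 (Nat.not_odd_iff_even.1 hev).two_dvd).trans this
      omega
  · rintro ⟨⟨i, k⟩, ⟨⟨i2, i1⟩, ⟨k2, k1⟩, od⟩, e⟩
    obtain ⟨rfl, rfl⟩ := Prod.mk.inj e
    have cj' : ∀ j : pResidualOf 2 Cx(φ A), j * j = 1 → j ≠ 1 → IsConj z (j : G) := fun j a b => by
      obtain ⟨c, hc⟩ := isConj_iff.1 (J.k4.isConj_invol a b)
      exact isConj_mk (c : G) (congrArg Subtype.val hc)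
    have ci := mem_Cx.1 (pResidualOf_le _ i.2)
    have ck := mem_Cx.1 (pResidualOf_le _ k.2)
    refine ⟨cj' i i2 i1, ?_, ?_⟩
    · obtain ⟨g, g1, g2⟩ := J.pair_conj (cj' k k2 k1) (IsConj.refl _) ck.symm
      refine (JS.TT (φ := φ) TAZ).trans (isConj_mk g ?_)
      rw [map_mul, J.hz]
      calc _ = (g * φ A * g⁻¹) * (g * z * g⁻¹) := by group
        _ = _ := by rw [g1, g2]
    · obtain ⟨m, hm⟩ := od
      have cm : Commute (φ A) ((i : G) * k) := (mem_Cx.1 (mul_mem (mem_Cx.2 ci) (mem_Cx.2 ck))).symm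
      have o : ((i : G) * k) ^ (2 * m + 1) = 1 := by
        rw [← hm]; exact congrArg Subtype.val (pow_orderOf_eq_one (i * k))
      refine mem_zpowers_iff.2 ⟨((2 * m + 1 : ℕ) : ℤ), ?_⟩
      simp only
      rw [zpow_natCast, show (i : G) * (φ A * k) = φ A * (i * k) by rw [← mul_assoc, ci, mul_assoc], cm.mul_pow, o,
        mul_one, pow_succ, pow_mul, pow_two, J.t2, one_pow, one_mul]

theorem card_G : Nat.card (pResidualOf 2 Cx(φ A)) = 60 ∧ Nat.card G = 604800 := by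
  have := thompson_order J.z2 J.t2 J.z1 J.t1 J.zt J.all_invol
  rw [J.az, J.at_eq, J.card_H, J.card_K] at this
  rcases J.k4.card_cases.2 with e | e <;> rw [e] at this
  · exact absurd this J.not_51840
  · exact ⟨e, this⟩

end JY
end CfL
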