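import Cfsg.Agent.OD.Pre
import Cfsg.Agent.L.J2e
/-! Groups of Hall-Janko type: generators and relations. -/
set_option autoImplicit false
open Subgroup CfH9 CfH7 Cfsg
namespace CfL
open HA

variable {G : Type*} [Group G]

theorem cube_inv {a : G} (h : a * a * a = 1) : a⁻¹ = a * a := inv_eq_of_mul_eq_one_right (by rw [← mul_assoc]; exact h)

namespace JY
variable {z x : G} {φ : TE gA →* G} {y : TE gA} (J : JY z φ x y) [Finite G]
include J

theorem exists_s : ∃ s : G, s * φ A = φ A * s ∧ s * s = 1 ∧ s * x * s * x = 1 ∧ s * z * (s * z) * (s * z) = 1 ∧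
    s * φ y = φ y * s := by
  obtain ⟨s, ⟨s1, s2, s3⟩, hu⟩ := J.k4.exists_unique_s J.card_G.1
  have st : (s : G) * φ A = φ A * s := mem_Cx.1 (pResidualOf_le _ s.2)
  have s1 : (s : G) * s = 1 := congrArg Subtype.val s1
  have s2 : (s : G) * x * s * x = 1 := congrArg Subtype.val s2
  have s3 : (s : G) * z * (s * z) * (s * z) = 1 := congrArg Subtype.val s3
  have key : ∀ g : G, g * x = x * g → g * z = z * g → g * s * g⁻¹ ∈ Cx(φ A) → g * s * g⁻¹ = s := by
    intro g g1 g2 g3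
    have c : IsConj z (g * s * g⁻¹) := by
      refine IsConj.trans (isConj_mk (s * z)⁻¹ ?_) (isConj_mk g rfl)
      rw [inv_inv, mul_inv_rev, sinv J.z2, sinv s1]
      apply mul_left_cancel (a := (s : G))
      calc _ = (s : G) * z * (s * z) * (s * z) := by group
        _ = _ := by rw [s3, s1]
    refine congrArg Subtype.val (hu ⟨_, J.Z_K0 c g3⟩ ⟨Subtype.ext ?_, Subtype.ext ?_, Subtype.ext ?_⟩)
    · exact sq_of_isConj c J.z2
    · change g * s * g⁻¹ * x * (g * s * g⁻¹) * x = 1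
      calc _ = g * s * g⁻¹ * (g * x * g⁻¹) * (g * s * g⁻¹) * (g * x * g⁻¹) := by rw [cj1 g1]
        _ = g * (s * x * s * x) * g⁻¹ := by group
        _ = 1 := by rw [s2]; group
    · change g * s * g⁻¹ * z * (g * s * g⁻¹ * z) * (g * s * g⁻¹ * z) = 1
      calc _ = g * s * g⁻¹ * (g * z * g⁻¹) * (g * s * g⁻¹ * (g * z * g⁻¹)) * (g * s * g⁻¹ * (g * z * g⁻¹)) := by
            rw [cj1 g2]
        _ = g * (s * z * (s * z) * (s * z)) * g⁻¹ := by group
        _ = 1 := by rw [s3]; group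
  obtain ⟨⟨a1, a2⟩, a3⟩ := J.W_spec (Or.inr (Or.inr (Or.inr rfl)))
  have h1 := key _ (mem_Cx.1 a3) (mem_Cx.1 a1) (mul_mem (mul_mem a2 (mem_Cx.2 st)) (inv_mem a2))
  have h2 := key (φ y) J.y4.symm (J.cz y) (mem_Cx.2 (by
    have := comm_cj (φ y) (cj2 h1)
    simpa [mul_assoc] using this.symm))
  exact ⟨s, st, s1, s2, s3, (cj2 h2).symm⟩

theorem Cxy {g : G} (g1 : g * x = x * g) (g2 : g * φ y = φ y * g) :
    ∃ a b : G, (a = 1 ∨ a = x ∨ a = x⁻¹) ∧ (b = 1 ∨ b = φ y ∨ b = (φ y)⁻¹) ∧ g = b * a := by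
  have zp : ∀ a ∈ zpowers x, a = 1 ∨ a = x ∨ a = x⁻¹ := fun a ha => by
    classical
    rw [mem_zpowers_iff_mem_range_orderOf, J.x_ord] at ha
    obtain ⟨k, hk, rfl⟩ := Finset.mem_image.1 ha
    rw [Finset.mem_range] at hk
    interval_cases k
    · simp
    · simp
    · rw [cube_inv J.x3, pow_two]; simp
  let N : Subgroup Cx(x) := (zpowers x).subgroupOf Cx(x)
  have hN : N.Normal := ⟨fun n hn k => by
    have : (k : G) * n = n * k := (mem_Cx.1 ((zpowers_le.2 (mem_Cx.2 (mem_Cx.1 k.2).symm) : _ ≤ Cx((k : G))) hn)).symm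
    change (k : G) * n * (k : G)⁻¹ ∈ zpowers x
    rw [cj1 this]; exact hn⟩
  let π := QuotientGroup.mk' N
  let t : Cx(x) := ⟨φ A, mem_Cx.2 J.xt.symm⟩
  let Y : Cx(x) := ⟨φ y, mem_Cx.2 J.y4.symm⟩
  have hπ : ∀ a b : Cx(x), π a = π b ↔ (a : G)⁻¹ * b ∈ zpowers x := fun a b => QuotientGroup.eq
  have x1 : x ≠ 1 := fun e => by have := J.x_ord; rw [e, orderOf_one] at this; omega
  have odd : ∀ a ∈ zpowers x, a * a = 1 → a = 1 := fun a ha h => by
    have x3 := J.x3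
    rcases zp a ha with rfl | rfl | rfl
    · rfl
    · rwa [h, one_mul] at x3
    · rw [← mul_inv_rev, inv_eq_one] at h
      rw [h, one_mul] at x3
      rw [x3, inv_one]
  have k : K4 (π t) (π Y) := {
    z2 := by rw [← map_mul, show t * t = 1 from Subtype.ext J.t2, map_one]
    zne := fun e => by
      have := (hπ 1 t).1 (by rw [e, map_one])
      exact J.t1 (odd _ (by simpa using this) J.t2)
    x3 := by rw [← map_mul, ← map_mul, show Y * Y * Y = 1 from Subtype.ext J.Y3, map_one]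
    zx3 := by simp only [← map_mul]; rw [show t * Y * (t * Y) * (t * Y) = 1 from Subtype.ext J.ty3, map_one]
    cent := fun g hg => by
      obtain ⟨g, rfl⟩ := QuotientGroup.mk'_surjective N g
      have h1 := (hπ t (g * t * g⁻¹)).1 (by rw [map_mul, map_mul, map_inv]; exact (cj1 hg).symm)
      have h1 : (φ A)⁻¹ * (g * φ A * (g : G)⁻¹) ∈ zpowers x := h1
      have h2 : (g : G) * φ A * (g : G)⁻¹ * (g * φ A * (g : G)⁻¹) = 1 := sq_of_isConj (isConj_mk _ rfl) J.t2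
      have h3 := mem_Cx.1 ((zpowers_le.2 (mem_Cx.2 J.xt) : _ ≤ Cx(φ A)) h1)
      have h4 := odd _ h1 (by
        generalize (g : G) * φ A * (g : G)⁻¹ = w at h2 h3
        rw [sinv J.t2] at h3 ⊢
        calc _ = φ A * w * φ A * w := by group
          _ = φ A * φ A * (w * w) := by rw [h3]; group
          _ = 1 := by rw [J.t2, h2, mul_one])
      have h5 : (g : G) ∈ Cx(φ A) := mem_Cx'.2 (inv_mul_eq_one.1 h4).symm
      rw [← J.sylA.sup_pResidualOf, mem_sup_of_le_Nm' (inf_le_right.trans (le_normalizer_pResidualOf _))] at h5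
      obtain ⟨k, hk, a, ha, e⟩ := h5
      obtain ⟨v, hv, w, hw, rfl⟩ := J.Aform ha
      have hv' : v ∈ pResidualOf 2 Cx(φ A) := (J.A_inf_K0.ge hv).2
      have wx := (J.W_spec hw).2
      have kx : k * v ∈ Cx(x) := (mul_mem_cancel_right wx).1 (by rw [mul_assoc, e]; exact g.2)
      have kz : k * v ∈ zpowers x := by
        rcases J.k4.mem_Cx_x (g := ⟨k * v, mul_mem hk hv'⟩) (Subtype.ext (mem_Cx.1 kx)) with h | h | h <;>
          rw [show k * v = _ from congrArg Subtype.val h] <;> simp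
      have h6 : π g = π ⟨w, wx⟩ := by
        rw [show g = ⟨k * v, kx⟩ * ⟨w, wx⟩ from Subtype.ext (by rw [← e, ← mul_assoc]; rfl), map_mul,
          show π ⟨k * v, kx⟩ = 1 from (QuotientGroup.eq_one_iff (N := N) ⟨k * v, kx⟩).2 kz, one_mul]
      change π g = _ ∨ π g = _ ∨ π g = _ ∨ π g = _
      rw [h6]
      simp only [← map_inv, ← map_mul]
      rcases hw with rfl | rfl | rfl | rfl
      · exact Or.inl (map_one π)
      · exact Or.inr (Or.inl rfl)
      · exact Or.inr (Or.inr (Or.inl rfl))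
      · exact Or.inr (Or.inr (Or.inr rfl)) }
  let g' : Cx(x) := ⟨g, mem_Cx.2 g1⟩
  have fin : ∀ b : Cx(x), π g' = π b → ∃ a, (a = 1 ∨ a = x ∨ a = x⁻¹) ∧ g = b * a := fun b hb =>
    ⟨_, zp _ ((hπ b g').1 hb.symm), by simp [g']⟩
  rcases k.mem_Cx_x (g := π g') (by rw [← map_mul, ← map_mul, show g' * Y = Y * g' from Subtype.ext g2]) with e | e | e
  · obtain ⟨a, h1, h2⟩ := fin 1 (by rw [e, map_one])
    exact ⟨a, 1, h1, Or.inl rfl, h2⟩
  · obtain ⟨a, h1, h2⟩ := fin Y e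
    exact ⟨a, _, h1, Or.inr (Or.inl rfl), h2⟩
  · obtain ⟨a, h1, h2⟩ := fin Y⁻¹ (by rw [e, map_inv])
    exact ⟨a, _, h1, Or.inr (Or.inr rfl), h2⟩

theorem ds3 {s d : G} (s1 : s * s = 1) (s2 : s * x * s * x = 1) (s3 : s * φ y = φ y * s)
    (d1 : d * d = 1) (d2 : d * φ y = φ y * d) (d3 : d * x * d * x = φ y) : d * s * (d * s) * (d * s) = 1 := by
  have hY := J.Y3
  have hx := J.x3
  have xy := J.y4
  have Y1 := J.Y1
  have x1 : x ≠ 1 := fun e => by have := J.x_ord; rw [e, orderOf_one] at this; omega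
  have key := @J.Cxy _
  generalize φ y = Y at *
  have sx : s * x * s⁻¹ = x⁻¹ := by rw [sinv s1]; exact eq_inv_of_mul_eq_one_left s2
  have dx : d * x * d⁻¹ = Y * x⁻¹ := by rw [sinv d1, ← d3]; group
  have cY : d * s * Y * (d * s)⁻¹ = Y := by
    calc _ = d * (s * Y * s⁻¹) * d⁻¹ := by group
      _ = Y := by rw [cj1 s3, cj1 d2]
  have cx : d * s * x * (d * s)⁻¹ = x * Y⁻¹ := by
    calc _ = d * (s * x * s⁻¹) * d⁻¹ := by group
      _ = (d * x * d⁻¹)⁻¹ := by rw [sx]; group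
      _ = _ := by rw [dx]; group
  have Y2 : Y * Y ≠ 1 := fun e => Y1 (by rwa [e, one_mul] at hY)
  generalize hc : d * s = c at cY cx ⊢
  obtain ⟨a, b, ha, hb, e⟩ := key (g := c * c * c) (cj2 (by
    have h : ∀ w : G, c * (w * Y⁻¹) * c⁻¹ = c * w * c⁻¹ * Y⁻¹ := fun w => by
      nth_rewrite 2 [← cY]; group
    calc _ = c * (c * (c * x * c⁻¹) * c⁻¹) * c⁻¹ := by group
      _ = x * Y⁻¹ * Y⁻¹ * Y⁻¹ := by rw [cx, h, cx, h, h, cx]
      _ = x * (Y * Y * Y)⁻¹ := by group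
      _ = x := by rw [hY]; group)) (cj2 (by
    calc _ = c * (c * (c * Y * c⁻¹) * c⁻¹) * c⁻¹ := by group
      _ = Y := by rw [cY, cY, cY]))
  have i1 : s * (c * c * c) * s⁻¹ = (c * c * c)⁻¹ := by
    rw [← hc]; simp only [mul_inv_rev, sinv s1, sinv d1]
    calc _ = s * d * (s * d * (s * d)) * (s * s) := by group
      _ = _ := by rw [s1, mul_one]
  have i2 : d * (c * c * c) * d⁻¹ = (c * c * c)⁻¹ := by
    rw [← hc]; simp only [mul_inv_rev, sinv s1, sinv d1]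
    calc _ = (d * d) * (s * d * (s * d * (s * d))) := by group
      _ = _ := by rw [d1, one_mul]
  have sa : s * a * s⁻¹ = a⁻¹ := by
    rcases ha with rfl | rfl | rfl
    · simp
    · exact sx
    · rw [show s * x⁻¹ * s⁻¹ = (s * x * s⁻¹)⁻¹ by group, sx]
  have sb : s * b * s⁻¹ = b := by
    rcases hb with rfl | rfl | rfl
    · simp
    · exact cj1 s3
    · nth_rewrite 2 [← cj1 s3]; group
  have ab : a * b = b * a := by
    have : a ∈ Cx(Y) := by rcases ha with rfl | rfl | rfl <;> simp [mem_Cx.2 xy]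
    have : b ∈ Cx(a) := by rcases hb with rfl | rfl | rfl <;> simp [mem_Cx.2 (mem_Cx.1 this).symm]
    exact (mem_Cx.1 this).symm
  rw [e] at i1 i2 ⊢
  have b1 : b = 1 := by
    have : b * b = 1 := by
      have h : b * a⁻¹ = a⁻¹ * b⁻¹ := by
        calc _ = (s * b * s⁻¹) * (s * a * s⁻¹) := by rw [sa, sb]
          _ = s * (b * a) * s⁻¹ := by group
          _ = _ := by rw [i1]; group
      calc _ = a * (a⁻¹ * b * a) * a⁻¹ * b := by group
        _ = a * (b * a⁻¹) * b := by rw [mul_assoc a⁻¹, ← ab]; group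
        _ = 1 := by rw [h]; group
    rcases hb with rfl | rfl | rfl
    · rfl
    · exact absurd this Y2
    · exact absurd (by rwa [← mul_inv_rev, inv_eq_one] at this) Y2
  rw [b1, one_mul] at i2 ⊢
  rcases ha with rfl | rfl | rfl
  · rfl
  · rw [dx] at i2
    exact absurd (by simpa using i2) Y1
  · rw [show d * x⁻¹ * d⁻¹ = (d * x * d⁻¹)⁻¹ by group, dx] at i2
    exact absurd (by simpa using i2) Y1

end JY

def j2il : List ℕ := [0, 2, 1, 3, 4, 6, 5, 7]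
def j2rels : List (List ℕ) := [[1, 1, 1], [0, 1, 0, 1, 0, 1], [3, 1, 3, 1], [3, 0, 3, 0, 3, 0], [5, 5, 5],
  [4, 5, 4, 5, 4, 5], [4, 0, 4, 0], [4, 2, 4, 1], [4, 3, 4, 3], [6, 0, 5, 0], [6, 2, 5, 1], [6, 3, 5, 3], [7, 6, 7, 5],
  [7, 0, 7, 0], [7, 1, 7, 1, 6], [4, 7, 4, 7, 4, 7, 4, 7, 0], [7, 3, 7, 3, 7, 3]]

theorem rl1 {a b : G} (ha : a * a = 1) (hb : b * b = 1) (h : a * b = b * a) : a * (b * (a * b)) = 1 := by
  rw [h, ← mul_assoc b, hb, one_mul, ha]
theorem rl2 {a b : G} (ha : a * a = 1) (h : a * b = b * a) : a * (b⁻¹ * (a * b)) = 1 := by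
  rw [h, inv_mul_cancel_left, ha]
theorem rl3 {a b : G} (ha : a * a = 1) (h : a * b = b * a) : b⁻¹ * (a * (b * a)) = 1 := by
  rw [← h, ← mul_assoc a, ha, one_mul, inv_mul_cancel]
theorem rl4 {a b : G} (h : a * b = b * a) : a⁻¹ * (b⁻¹ * (a * b)) = 1 := by
  rw [h, inv_mul_cancel_left, inv_mul_cancel]

theorem JS.gens {z : G} {φ : TE gA →* G} (J : JS z φ) [Finite G] : Nat.card G = 604800 ∧ ∃ ev : ℕ → G,
    (∀ i < 8, ev (j2il.getD i 0) = (ev i)⁻¹) ∧ (∀ r ∈ j2rels, CfH6.evw ev r = 1) ∧ ev 0 = z := by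
  obtain ⟨x, x1, x2, x3, x4⟩ := J.exists_x
  have X : JX z φ x := ⟨J, x1, x2, x3, x4⟩
  obtain ⟨y, d, y1, y2, y3, y4, d1, d2, d3, d4, d5⟩ := X.exists_yd
  have Y : JY z φ x y := ⟨X, y1, y2, y3, y4⟩
  obtain ⟨s, s1, s2, s3, s4, s5⟩ := Y.exists_s
  refine ⟨Y.card_G.2, fun i => [z, x, x⁻¹, s, φ A, φ y, (φ y)⁻¹, d].getD i 1, fun i hi => ?_, ?_, rfl⟩
  · interval_cases i <;> simp [j2il, sinv J.z2, sinv s2, sinv J.t2, sinv d1]
  · have k1 : z * x * (z * x) * (z * x) = 1 := congrArg Subtype.val Y.k4.zx3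
    have k2 := Y.ds3 s2 s3 s5 d1 d3 d4
    have k3 := Y.ty3
    have k4 := Y.Y3
    have k5 : d * x * d * x * (φ y)⁻¹ = 1 := by rw [d4, mul_inv_cancel]
    simp only [mul_assoc] at x4 k1 s3 s4 k4 k3 k5 d5 k2
    simp only [j2rels, List.forall_mem_cons, CfH6.evw_cons, CfH6.evw_nil, List.getD_cons_succ, List.getD_cons_zero,
      mul_one, List.not_mem_nil, false_implies, implies_true, and_true]
    exact ⟨x4, k1, s3, s4, k4, k3, rl1 J.t2 J.z2 (J.cz A), rl2 J.t2 x1.symm, rl1 J.t2 s2 s1.symm,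
      rl3 J.z2 (J.cz y).symm, rl4 y4.symm, rl3 s2 s5, rl2 d1 d3, rl1 d1 J.z2 d2, k5, d5, k2⟩

end CfL
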