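import Cfsg.Agent.OD.Pre
import Cfsg.Agent.L.J2b
import Cfsg.Agent.L.J2f
import Cfsg.Agent.H4.ZStar
import Cfsg.Agent.H7.FStar
import Cfsg.Agent.S0824
import Cfsg.Agent.OD.Leadxddb2a21226
import Cfsg.Agent.OD.Leadxe8d6bb0308
/-! Groups of Hall-Janko type: from the hypotheses to the model of the involution centraliser. -/
set_option autoImplicit false
set_option maxRecDepth 100000
open Subgroup CfH9 CfH7 Cfsg
namespace CfL

namespace HG
variable {H : Type*} [Group H] {z a b c : H} {u : Fin 5 → H} (h : HG z u a b c)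
include h
theorem r1 {g : H} (e : g * g = 1) : z * (g * (z * g)) = 1 := by
  rw [h.zc g, ← mul_assoc g, e, one_mul, h.z2]
theorem r2 (g : H) : z * (g⁻¹ * (z * g)) = 1 := by rw [h.zc g, inv_mul_cancel_left, h.z2]
theorem r3 (i j : Fin 5) (e : i ≠ j := by decide) : u i * (u j * (u i * (u j * z))) = 1 := by
  calc _ = u i * (u j * u i) * u j * z := by group
    _ = z * (u i * u i) * (u j * u j) * z := by rw [h.anti j i e.symm, ← mul_assoc (u i), ← h.zc (u i)]; group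
    _ = 1 := by rw [h.u2, h.u2, mul_one, mul_one, h.z2]
theorem r4 {g : H} {σ : Equiv.Perm (Fin 5)} (e : ∀ i, g * u i * g⁻¹ = u (σ i)) (i j : Fin 5) (f : σ i = j := by decide) :
    g * (u i * (g⁻¹ * u j)) = 1 := by rw [← mul_assoc, ← mul_assoc, e, f, h.u2]
theorem r5 {g : H} {σ : Equiv.Perm (Fin 5)} (e : ∀ i, g * u i * g⁻¹ = u (σ i)) (g2 : g * g = 1) (i j : Fin 5)
    (f : σ i = j := by decide) : g * (u i * (g * u j)) = 1 := by
  have := h.r4 e i j f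
  rwa [sinv g2] at this

theorem homA (a2 : a * a = 1) : ∃ φ : TE gA →* H, φ HA.Z = z ∧ ∀ i : Fin 5, φ (.mk gA (i + 2) (by
    fin_cases i <;> rfl)) = u i := by
  have c2 : c * c = 1 := h.c2.trans a2
  have k1 := h.prod
  have k2 := h.b3
  have k3 := h.ab3
  have k4 := h.ca3
  have k5 := h.cb2.trans a2
  simp only [mul_assoc] at k1 k2 k3 k4 k5
  obtain ⟨φ, -, h2⟩ := TE.exists_hom gA (fun i => [z, u 0, u 1, u 2, u 3, u 4, a, c, b, b⁻¹].getD i 1) (fun i hi => by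
    change i < 10 at hi
    interval_cases i <;> simp [hAil, sinv h.z2, sinv (h.u2 _), sinv a2, sinv c2]) (by
    simp only [hArels, List.forall_mem_cons, CfH6.evw_cons, CfH6.evw_nil, List.getD_cons_succ, List.getD_cons_zero,
      mul_one, List.not_mem_nil, false_implies, implies_true, and_true]
    exact ⟨h.r1 (h.u2 _), h.r1 (h.u2 _), h.r1 (h.u2 _), h.r1 (h.u2 _), h.r1 (h.u2 _), h.r1 a2, h.r1 c2, h.r2 b,
      h.r3 0 1, h.r3 0 2, h.r3 0 3, h.r3 0 4, h.r3 1 2, h.r3 1 3, h.r3 1 4, h.r3 2 3, h.r3 2 4, h.r3 3 4, k1,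
      h.r5 h.au a2 0 1, h.r5 h.au a2 2 3, h.r5 h.au a2 4 4, h.r5 h.cu c2 0 1, h.r5 h.cu c2 2 2, h.r5 h.cu c2 3 4,
      h.r4 h.bu 0 1, h.r4 h.bu 1 2, h.r4 h.bu 3 3, h.r4 h.bu 4 4, k2, k3, k4, k5⟩)
  refine ⟨φ, h2 0 _ (by decide) (by decide +kernel), fun i => ?_⟩
  fin_cases i
  · exact h2 1 _ (by decide) (by decide +kernel)
  · exact h2 2 _ (by decide) (by decide +kernel)
  · exact h2 3 _ (by decide) (by decide +kernel)
  · exact h2 4 _ (by decide) (by decide +kernel)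
  · exact h2 5 _ (by decide) (by decide +kernel)

theorem homB (a2 : a * a = z) : ∃ φ : TE gB →* H, φ HB.Z = z := by
  have c2 : c * (c * z) = 1 := by rw [← mul_assoc, h.c2, a2, h.z2]
  have k0 : a * (a * z) = 1 := by rw [← mul_assoc, a2, h.z2]
  have k1 := h.prod
  have k2 := h.b3
  have k3 := h.ab3
  have k4 := h.ca3
  have k5 : c * b * (c * b) * z = 1 := by rw [h.cb2, a2, h.z2]
  simp only [mul_assoc] at k1 k2 k3 k4 k5
  obtain ⟨φ, -, h2⟩ := TE.exists_hom gB (fun i => [z, u 0, u 1, u 2, u 3, u 4, a, a⁻¹, c, c⁻¹, b, b⁻¹].getD i 1)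
    (fun i hi => by
    change i < 12 at hi
    interval_cases i <;> simp [hBil, sinv h.z2, sinv (h.u2 _)]) (by
    simp only [hBrels, List.forall_mem_cons, CfH6.evw_cons, CfH6.evw_nil, List.getD_cons_succ, List.getD_cons_zero,
      mul_one, List.not_mem_nil, false_implies, implies_true, and_true]
    exact ⟨h.r1 (h.u2 _), h.r1 (h.u2 _), h.r1 (h.u2 _), h.r1 (h.u2 _), h.r1 (h.u2 _), h.r2 a, h.r2 c, h.r2 b,
      h.r3 0 1, h.r3 0 2, h.r3 0 3, h.r3 0 4, h.r3 1 2, h.r3 1 3, h.r3 1 4, h.r3 2 3, h.r3 2 4, h.r3 3 4, k1,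
      h.r4 h.au 0 1, h.r4 h.au 2 3, h.r4 h.au 4 4, h.r4 h.cu 0 1, h.r4 h.cu 2 2, h.r4 h.cu 3 4,
      h.r4 h.bu 0 1, h.r4 h.bu 1 2, h.r4 h.bu 3 3, h.r4 h.bu 4 4, k2, k3, k4, k5, k0, c2,
      h.r4 h.au 1 0, h.r4 h.au 3 2, h.r4 h.cu 1 0, h.r4 h.cu 4 3⟩)
  exact ⟨φ, h2 0 _ (by decide) (by decide +kernel)⟩
end HG

theorem inj_of_fInj {P H : Type*} [Group P] [Group H] (φ : P →* H) {Z : P} {L : List P} (hZ : φ Z ≠ 1)
    (sq : ∀ m ∈ L, m * m = 1) (f : ∀ k : P, k = 1 ∨ k = Z ∨ ∃ m ∈ L, k * m * k⁻¹ * m = Z ∨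
      ∃ n ∈ L, (k * m * k⁻¹ * m) * n * (k * m * k⁻¹ * m)⁻¹ * n = Z) : Function.Injective φ := by
  rw [injective_iff_map_eq_one]
  intro k hk
  rcases f k with e | e | ⟨m, hm, e⟩
  · exact e
  · exact absurd (e ▸ hk) hZ
  · have h1 : φ (k * m * k⁻¹ * m) = 1 := by
      rw [map_mul, map_mul, map_mul, map_inv, hk, one_mul, inv_one, mul_one, ← map_mul, sq m hm, map_one]
    rcases e with e | ⟨n, hn, e⟩
    · exact absurd (e ▸ h1) hZ
    · refine absurd ?_ hZ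
      rw [← e, map_mul, map_mul, map_mul φ _ n, map_inv, h1, one_mul, inv_one, mul_one, ← map_mul, sq n hn, map_one]

variable {G : Type*} [Group G]

structure JS0 (z : G) (φ : TE gA →* G) : Prop where
  inj : Function.Injective φ
  rng : ∀ g, g * z = z * g → ∃ h, φ h = g
  hz : φ HA.Z = z
  cz : ∀ h, φ h * z = z * φ h
  into : ∀ w : G, w * w = 1 → ∃ g, g * w * g⁻¹ ∈ Cx(z)

theorem HA.fZU : ∀ i : Fin 5, TE.mk gA (i + 2) (by fin_cases i <;> rfl) ∈ HA.LU ∧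
    HA.Z * TE.mk gA (i + 2) (by fin_cases i <;> rfl) ∈ HA.LU := by decide +kernel

theorem model [Finite G] {z : G} (hz : orderOf z = 2) (Q : Subgroup Cx(z)) [Q.Normal] (hQ : IsExtraspecial 2 Q)
    (hc : Nat.card Q = 32) (hC : centralizer (Q : Set Cx(z)) ≤ Q) (h60 : Nat.card (Cx(z) ⧸ Q) = 60) :
    Nat.card Cx(z) = 1920 ∧ ((∃ φ, JS0 z φ ∧ ∀ q ∈ Q, q * q = 1 → q = 1 ∨ (q : G) = z ∨ ∃ h ∈ HA.LU, φ h = q) ∨
      ∃ u : G, ∀ w : G, w * w = 1 → w ≠ 1 → (IsConj z w ∨ IsConj u w) ∧ (w * z = z * w → w = z ∨ IsConj u w)) := by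
  have z2 : z * z = 1 := by rw [← pow_two, ← hz, pow_orderOf_eq_one]
  have z1 : z ≠ 1 := fun e => by rw [e, orderOf_one] at hz; omega
  obtain ⟨u, a, b, c, h, hH, hq, cq⟩ := exists_HG Q hQ hc hC h60 (z := ⟨z, mem_Cx.2 rfl⟩)
    (fun e => z1 (congrArg Subtype.val e)) (fun g => Subtype.ext (mem_Cx.1 g.2).symm)
  obtain ⟨T, T1, T2⟩ := invol_conj_into z2 z1 Q (IsPGroup.of_card (n := 5) hc) (fun g hg =>
    (cq g hg).imp id (congrArg Subtype.val))
  have into : ∀ w : G, w * w = 1 → ∃ g, g * w * g⁻¹ ∈ Cx(z) := fun w hw => by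
    obtain ⟨g, -, e⟩ := T1.exists_conj_mem (mem_top w) (k := 1) (by rw [pow_one, pow_two, hw])
    exact ⟨g, T2.le e⟩
  refine ⟨hH, ?_⟩
  rcases h.a2 with a2 | a2
  · obtain ⟨φ, h1, h2⟩ := h.homA a2
    have hi := inj_of_fInj φ (by rw [h1]; exact fun e => z1 (congrArg Subtype.val e)) HA.sq5 HA.fInj
    have hs := (hi.bijective_of_nat_card_le (by rw [hH, TE.card]; rfl)).2
    refine Or.inl ⟨(Cx(z)).subtype.comp φ, ⟨Subtype.val_injective.comp hi, fun g hg => ?_, congrArg Subtype.val h1,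
      fun k => mem_Cx.1 (φ k).2, into⟩, fun q q1 q2 => ?_⟩
    · obtain ⟨k, hk⟩ := hs ⟨g, mem_Cx.2 hg⟩
      exact ⟨k, congrArg Subtype.val hk⟩
    · rcases hq q q1 q2 with e | e | ⟨j, e | e⟩
      · exact Or.inl e
      · exact Or.inr (Or.inl (congrArg Subtype.val e))
      · exact Or.inr (Or.inr ⟨_, (HA.fZU j).1, congrArg Subtype.val ((h2 j).trans e.symm)⟩)
      · exact Or.inr (Or.inr ⟨_, (HA.fZU j).2, congrArg Subtype.val (by rw [e, map_mul, h1, h2])⟩)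
  · obtain ⟨φ, h1⟩ := h.homB a2
    have hi := inj_of_fInj φ (by rw [h1]; exact fun e => z1 (congrArg Subtype.val e)) HB.sqU HB.fInj
    have hs := (hi.bijective_of_nat_card_le (by rw [hH, TE.card]; rfl)).2
    have key : ∀ w : G, w * w = 1 → w ≠ 1 → w * z = z * w → w = z ∨ IsConj (φ HB.U : G) w := fun w w2 w1 wz => by
      obtain ⟨k, hk⟩ := hs ⟨w, mem_Cx.2 wz⟩
      have hk' : (φ k : G) = w := congrArg Subtype.val hk
      rcases HB.fU k (hi (by rw [map_mul, hk, map_one]; exact Subtype.ext w2)) with e | e | ⟨m, e⟩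
      · exact absurd (by rw [← hk', e, map_one]; rfl) w1
      · exact Or.inl (by rw [← hk', e, h1])
      · exact Or.inr (isConj_mk (φ m : G) (by rw [← hk', ← e]; simp))
    refine Or.inr ⟨φ HB.U, fun w w2 w1 => ⟨?_, key w w2 w1⟩⟩
    obtain ⟨g, hg⟩ := into w w2
    have c : IsConj w (g * w * g⁻¹) := isConj_mk g rfl
    rcases key _ (sq_of_isConj c w2) (ne_one_of_isConj c w1) (mem_Cx.1 hg) with e | e
    · exact Or.inl (e ▸ c).symm
    · exact Or.inr (e.trans c.symm)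

theorem HA.fAU : HA.IsT (HA.A * HA.U) ∧ HA.IsT (HA.A * (HA.Z * HA.U)) ∧ HA.U ≠ 1 ∧ HA.Z * HA.Z = 1 := by decide +kernel

open HA in
theorem JS0.js {z : G} {φ : TE gA →* G} (J : JS0 z φ) (hcl : ∃ x y : G, orderOf x = 2 ∧ orderOf y = 2 ∧ ¬ IsConj x y)
    {w : G} (hw : IsConj z w) (wz : w * z = z * w) (hne : w ≠ z) : JS z φ := by
  have z2 : z * z = 1 := by rw [← J.hz, ← map_mul, fAU.2.2.2, map_one]
  have z1 : z ≠ 1 := fun e => basic.2.1 (J.inj (by rw [J.hz, e, map_one]))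
  have cs : ∀ w : G, w * w = 1 → w ≠ 1 → w * z = z * w →
      ∃ h, φ h = w ∧ (h = Z ∨ (h ∈ LU ∧ IsConj (φ U) w) ∨ IsT h) := fun w w2 w1 wz => by
    obtain ⟨h, rfl⟩ := J.rng w wz
    refine ⟨h, rfl, ?_⟩
    by_cases a : h = Z
    · exact Or.inl a
    by_cases b : h ∈ LU
    · obtain ⟨k, e⟩ := fU h b
      exact Or.inr (Or.inl ⟨b, isConj_mk (φ k) (by rw [← e]; simp)⟩)
    exact Or.inr (Or.inr ⟨J.inj (by rw [map_mul, w2, map_one]), fun e => w1 (by rw [e, map_one]), a, b⟩)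
  have two : IsConj z (φ U) → ¬ IsConj z (φ A) := fun h1 h2 => by
    have all : ∀ x : G, orderOf x = 2 → IsConj z x := fun x hx => by
      have x2 : x * x = 1 := by rw [← pow_two, ← hx, pow_orderOf_eq_one]
      have x1 : x ≠ 1 := fun e => by rw [e, orderOf_one] at hx; omega
      obtain ⟨g, hg⟩ := J.into x x2
      have c : IsConj x (g * x * g⁻¹) := isConj_mk g rfl
      obtain ⟨h, e, e' | e' | e'⟩ := cs _ (sq_of_isConj c x2) (ne_one_of_isConj c x1) (mem_Cx.1 hg)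
      · rw [← e, e', J.hz] at c; exact c.symm
      · exact (h1.trans e'.2).trans c.symm
      · exact (h2.trans (e ▸ JS.TT e')).trans c.symm
    obtain ⟨x, y, hx, hy, hn⟩ := hcl
    exact hn ((all x hx).symm.trans (all y hy))
  suffices h : IsConj z (φ U) from ⟨J.inj, J.rng, J.hz, J.cz, h, two h, J.into⟩
  by_contra zu
  have TT : ∀ w : G, IsConj z w → w * z = z * w → w ≠ z → ∃ h, φ h = w ∧ IsT h := fun w hw wz hne => by
    obtain ⟨h, e, e' | e' | e'⟩ := cs _ (sq_of_isConj hw z2) (ne_one_of_isConj hw z1) wz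
    · exact absurd (by rw [← e, e', J.hz]) hne
    · exact absurd (hw.trans e'.2.symm) zu
    · exact ⟨h, e, e'⟩
  obtain ⟨h, e, hT⟩ := TT w hw wz hne
  have zt : IsConj z (φ A) := hw.trans (e ▸ JS.TT hT).symm
  obtain ⟨g, hg⟩ := isConj_iff.1 zt
  obtain ⟨h', e', hT'⟩ := TT (g⁻¹ * z * g) (isConj_mk g⁻¹ (by simp)) (by
    have := comm_cj g⁻¹ (J.cz A).symm
    rw [← hg] at this
    simpa [mul_assoc] using this) (fun e => TA.2.2.1 (J.inj (by
      rw [J.hz, ← hg]; nth_rewrite 1 [← e]; group)))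
  obtain ⟨k, hk⟩ := fT h' hT'
  have m1 : g * φ k * z * (g * φ k)⁻¹ = φ A := by
    calc _ = g * (φ k * z * (φ k)⁻¹) * g⁻¹ := by group
      _ = _ := by rw [cj1 (J.cz k), hg]
  have m2 : g * φ k * φ A * (g * φ k)⁻¹ = z := by
    calc _ = g * φ (k * A * k⁻¹) * g⁻¹ := by simp only [map_mul, map_inv]; group
      _ = _ := by rw [hk, e']; group
  generalize g * φ k = m at m1 m2
  have c1 := comm_cj m (J.cz U)
  have c2 := comm_cj m (show φ U * φ A = φ A * φ U by rw [← map_mul, ← AU, map_mul])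
  rw [m1] at c1
  rw [m2] at c2
  obtain ⟨j, hj⟩ := J.rng _ c2
  have cu : IsConj (φ U) (φ j) := isConj_mk m hj.symm
  have czu : IsConj (φ U) (φ (A * j)) := by
    obtain ⟨k, e⟩ := fU _ basic.2.2.2.2.2.2.1
    refine (isConj_mk (φ k) (b := φ (Z * U)) (by rw [← e]; simp)).trans (isConj_mk m ?_)
    rw [map_mul, map_mul, J.hz, hj, ← m1]; group
  rcases (fCA j (J.inj (by rw [map_mul, map_mul, hj, c1]))).2 with (e | e | e | e) | e
  · rw [e, map_one] at cu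
    exact fAU.2.2.1 (J.inj (by rw [map_one]; exact isConj_one_left.1 cu))
  · rw [e, J.hz] at cu; exact zu cu.symm
  · rw [e] at czu; exact zu ((zt.trans (JS.TT fAU.1)).trans czu.symm)
  · rw [e] at czu; exact zu ((zt.trans (JS.TT fAU.2.1)).trans czu.symm)
  · exact zu ((zt.trans (JS.TT e)).trans cu.symm)

theorem js_of [Finite G] {z : G} (hz : orderOf z = 2) (Q : Subgroup Cx(z)) [Q.Normal] (hQ : IsExtraspecial 2 Q)
    (hc : Nat.card Q = 32) (hC : centralizer (Q : Set Cx(z)) ≤ Q) (h60 : Nat.card (Cx(z) ⧸ Q) = 60)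
    (hcl : ∃ x y : G, orderOf x = 2 ∧ orderOf y = 2 ∧ ¬ IsConj x y)
    {w : G} (hw : IsConj z w) (wz : w * z = z * w) (hne : w ≠ z) : ∃ φ, JS z φ := by
  have z2 : z * z = 1 := by rw [← pow_two, ← hz, pow_orderOf_eq_one]
  have z1 : z ≠ 1 := fun e => by rw [e, orderOf_one] at hz; omega
  rcases (model hz Q hQ hc hC h60).2 with ⟨φ, J, -⟩ | ⟨u, hu⟩
  · exact ⟨φ, J.js hcl hw wz hne⟩
  · have zu : IsConj z u := hw.trans (((hu w (sq_of_isConj hw z2) (ne_one_of_isConj hw z1)).2 wz).resolve_left hne).symm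
    have all : ∀ x : G, orderOf x = 2 → IsConj z x := fun x hx =>
      (hu x (by rw [← pow_two, ← hx, pow_orderOf_eq_one]) (fun e => by rw [e, orderOf_one] at hx; omega)).1.elim id
        zu.trans
    obtain ⟨x, y, hx, hy, hn⟩ := hcl
    exact absurd ((all x hx).symm.trans (all y hy)) hn

theorem card_Omega4m : Nat.card (Omega (ZMod 2) (quadFormMinus 1 (ZMod 2) 1 1)) = 60 := by
  obtain ⟨e⟩ := Cfsg.Agent.S0824.result (F := ZMod 2) (by simp)
  have h := map_commutator_eq _ e.toMonoidHom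
  rw [MonoidHom.range_eq_top.2 e.surjective] at h
  have h2 : Nat.card (_root_.commutator (Equiv.Perm (Fin 5))) = 60 := by
    rw [alternatingGroup.commutator_perm_eq (by simp), nat_card_alternatingGroup]; simp [Nat.factorial]
  rw [← h2]
  change _ = Nat.card (⁅(⊤ : Subgroup (Equiv.Perm (Fin 5))), ⊤⁆ : Subgroup _)
  rw [← h]
  exact (card_map_of_injective e.injective).symm

/-- the large extraspecial hypothesis -/
theorem js_large [Finite G] (z : G) (hz : orderOf z = 2) (Q : Subgroup Cx(z)) [Q.Normal]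
    (hF : generalizedFittingSubgroup Cx(z) = Q) (hQ : IsExtraspecial 2 Q) (hcard : Nat.card Q = 2 ^ 5)
    (e : Cx(z) ⧸ Q ≃* Omega (ZMod 2) (quadFormMinus 1 (ZMod 2) 1 1))
    (hnwc : ∃ g : G, (∃ hq : g * z * g⁻¹ ∈ Cx(z), (⟨g * z * g⁻¹, hq⟩ : Cx(z)) ∈ Q) ∧ g * z * g⁻¹ ≠ z)
    (hcl : ∃ x y : G, orderOf x = 2 ∧ orderOf y = 2 ∧ ¬ IsConj x y) : ∃ φ, JS z φ := by
  obtain ⟨g, ⟨hq, -⟩, hne⟩ := hnwc
  exact js_of hz Q hQ hcard (hF ▸ centralizer_fstar_le) ((Nat.card_congr e.toEquiv).trans card_Omega4m) hcl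
    (isConj_mk g rfl) (mem_Cx.1 hq) hne

theorem not_isolated [Finite G] [IsSimpleGroup G] {z : G} (hz : orderOf z = 2) (h : Nat.card Cx(z) ≠ 2) :
    ∃ w, IsConj z w ∧ w * z = z * w ∧ w ≠ z := by
  by_contra hn
  have hi : IsIsolated z := fun g hg => by
    by_contra hne
    exact hn ⟨_, isConj_mk g rfl, hg.symm, hne⟩
  have hZ := CfH4.zstar G z hz hi
  have z1 : z ≠ 1 := fun e => by rw [e, orderOf_one] at hz; omega
  rcases (inferInstance : (pPrimeCore 2 G).Normal).eq_bot_or_eq_top with e | e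
  · have c : ∀ g : G, g * z * g⁻¹ = z := fun g => mul_inv_eq_one.1 (by have := hZ g; rwa [e] at this)
    have hn : (zpowers z).Normal := ⟨fun n hn g => by
      rw [cj1 (mem_Cx.1 ((zpowers_le.2 (mem_Cx.2 (cj2 (c g)).symm) : _ ≤ Cx(g)) hn)).symm]; exact hn⟩
    rcases hn.eq_bot_or_eq_top with e' | e'
    · exact z1 (zpowers_eq_bot.1 e')
    · apply h
      rw [← hz, ← Nat.card_zpowers, e', show Cx(z) = ⊤ from eq_top_iff.2 fun g _ => mem_Cx.2 (cj2 (c g))]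
  · have := coprime_card_pPrimeCore 2 G
    rw [e, card_top] at this
    exact absurd (Nat.Coprime.coprime_dvd_left (hz ▸ orderOf_dvd_natCard z) this) (by norm_num)

/-- the hypothesis for simple groups -/
theorem js_simple [Finite G] [IsSimpleGroup G] (z : G) (hz : orderOf z = 2) (Q : Subgroup Cx(z)) [Q.Normal]
    (hQ : IsExtraspecial 2 Q) (hcard : Nat.card Q = 32) (hC : centralizer (Q : Set Cx(z)) ≤ Q)
    (e : Cx(z) ⧸ Q ≃* alternatingGroup (Fin 5))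
    (hcl : ∃ x y : G, orderOf x = 2 ∧ orderOf y = 2 ∧ ¬ IsConj x y) : ∃ φ, JS z φ := by
  have h60 : Nat.card (Cx(z) ⧸ Q) = 60 := by
    rw [Nat.card_congr e.toEquiv, nat_card_alternatingGroup]; simp [Nat.factorial]
  obtain ⟨w, h1, h2, h3⟩ := not_isolated hz (by rw [(model hz Q hQ hcard hC h60).1]; norm_num)
  exact js_of hz Q hQ hcard hC h60 hcl h1 h2 h3

end CfL
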