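import Cfsg.Agent.L.Ico5
import Cfsg.Agent.OD.Leadx7e8a1ebe3b
/-! The reflections of the icosian Leech lattice finite checks. -/
set_option autoImplicit false
set_option maxRecDepth 100000
namespace CfL.Ico
open Ic Quaternion Cfsg.Spor CfH6

theorem hg : ∀ i, (gg i).ok = true := by
  have h : ∀ i < 5, (gg i).ok = true := by decide +kernel
  intro i
  by_cases hi : i < 5
  · exact h i hi
  · have : gg i = gg 0 := by
      unfold gg; rw [List.getD_eq_default _ _ (by simp [gl]; omega)]; rfl
    rw [this]; exact h 0 (by omega)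

theorem cA : LA.all (cert gg) = true := by decide +kernel
theorem cB : LB.all (cert gg) = true := by decide +kernel
theorem cC : LC.all (cert gg) = true := by decide +kernel
theorem cD : LD.all (cert gg) = true := by decide +kernel
def sg : Ic := mk8 1 (-1) 0 0 0 0 0 0
def mt : Ic := mk8 0 (-1) 0 0 0 0 0 0
theorem eU : en 1 ⟨1, 0⟩ (fun q => U.any fun u => u.beq q) = true := by decide +kernel
theorem eB : en 1 ⟨1, 0⟩ (fun u => (⟨hh, u.mul hh, zero⟩ : V).f fun v => !v.inL || LB.any fun c => c.1.beq v) = true := by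
  decide +kernel
theorem eC : en 2 ⟨2, 0⟩ (fun x => !((x.sub one).mul hb).ev2 || U.all fun z =>
    !(⟨x, one, z⟩ : V).inL || LC.any fun c => c.1.beq ⟨x, one, z⟩) = true := by decide +kernel
theorem eD : en 1 ⟨1, 1⟩ (fun y => !((one.sub y).mul hb).ev2 || U.all fun u => (sg.mul u).f fun z =>
    !(⟨one, y, z⟩ : V).inL || LD.any fun c => c.1.beq ⟨one, y, z⟩) = true := by decide +kernel

end CfL.Ico
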