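import Cfsg.Agent.L.Ico6
import Cfsg.Agent.H6.J2P
import Cfsg.Agent.OD.Leadxec3d3bda88
/-! The icosian reflection group modulo its centre is the presented simple group of order 604800. -/
set_option autoImplicit false
set_option maxRecDepth 100000
namespace CfL.Ico
open Ic Quaternion Cfsg.Spor CfH6

theorem mem_U {q : Ic} (h : q.nm = ⟨1, 0⟩) : q ∈ U := by
  obtain ⟨u, hu, e⟩ := List.any_eq_true.mp (en_spec eU (by omega) rfl q h)
  exact Ic.beq_eq e ▸ hu

theorem uq {u : Ic} (h : u.nm = ⟨1, 0⟩) : u.q * star u.q = 1 ∧ star u.q * u.q = 1 := by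
  rw [star_mul_self, self_mul_star, ← Ic.nm_r, h]; simp [Zt.r]

section
variable {K : Subgroup twoJ2} (hK : ∀ i, rho hg i ∈ K)

def St (K : Subgroup twoJ2) (x y z : Ic) : Prop := (⟨x, y, z⟩ : V).e ∈ icoLeech → Good K (⟨x, y, z⟩ : V).e

theorem sw0 (x y z : Ic) : qrefl (gg 0).e (⟨x, y, z⟩ : V).e = (⟨y, x, z⟩ : V).e := by
  have e : (gg 0).e = ![icoH, -icoH, 0] := by
    rw [← q_hh, ← q_neg, ← q_zero]; rfl
  have h : ∀ a : ℍ[ℝ], ((1 / 2 : ℝ) • (a * star icoH)) * icoH = a := fun a => by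
    rw [smul_mul_assoc, mul_assoc, hb_h, mul_two, ← two_smul ℝ a, smul_smul]; norm_num
  have h2 : qip (⟨x, y, z⟩ : V).e (gg 0).e = (x.q - y.q) * star icoH := by
    rw [e]; simp [qip, Fin.sum_univ_three, V.e, sub_mul, sub_eq_add_neg, add_mul]
  funext t
  simp only [qrefl, h2]
  rw [e]
  fin_cases t <;> simp [V.e, -Algebra.smul_mul_assoc, -one_div, h]
theorem sw1 (x y z : Ic) : qrefl (gg 1).e (⟨x, y, z⟩ : V).e = (⟨x, z, y⟩ : V).e := by
  have e : (gg 1).e = ![0, icoH, -icoH] := by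
    rw [← q_hh, ← q_neg, ← q_zero]; rfl
  have h : ∀ a : ℍ[ℝ], ((1 / 2 : ℝ) • (a * star icoH)) * icoH = a := fun a => by
    rw [smul_mul_assoc, mul_assoc, hb_h, mul_two, ← two_smul ℝ a, smul_smul]; norm_num
  have h2 : qip (⟨x, y, z⟩ : V).e (gg 1).e = (y.q - z.q) * star icoH := by
    rw [e]; simp [qip, Fin.sum_univ_three, V.e, sub_mul, sub_eq_add_neg, add_mul]
  funext t
  simp only [qrefl, h2]
  rw [e]
  fin_cases t <;> simp [V.e, -Algebra.smul_mul_assoc, -one_div, h]

include hK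
theorem St.s0 {x y z : Ic} (h : St K y x z) : St K x y z := fun hm => by
  rw [← sw0]; apply good_refl hg hK; apply h; rw [← sw0]; exact V.ok_mem (hg 0) hm
theorem St.s1 {x y z : Ic} (h : St K x z y) : St K x y z := fun hm => by
  rw [← sw1]; apply good_refl hg hK; apply h; rw [← sw1]; exact V.ok_mem (hg 1) hm
omit hK in
theorem St.unit {u : Ic} (hu : u.nm = ⟨1, 0⟩) {x y z x' y' z' : Ic} (hx : x.q = u.q * x'.q) (hy : y.q = u.q * y'.q)
    (hz : z.q = u.q * z'.q) (h : St K x' y' z') : St K x y z := fun hm => by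
  have e : (⟨x, y, z⟩ : V).e = u.q • (⟨x', y', z'⟩ : V).e := by
    funext t; fin_cases t <;> simp [V.e, hx, hy, hz]
  rw [e]; apply good_unit hu; apply h
  have := L_smul (q_mem u.cj) hm
  rwa [e, smul_smul, q_cj, (uq hu).2, one_smul] at this

theorem stC {x y z : Ic} (hx : x.nm = ⟨2, 0⟩) (hy : y.nm = ⟨1, 0⟩) (hz : z.nm = ⟨1, 0⟩) : St K x y z := by
  refine St.unit hy (x' := y.cj.mul x) (y' := one) (z' := y.cj.mul z) (by simp [← mul_assoc, (uq hy).1]) (by simp)
    (by simp [← mul_assoc, (uq hy).1]) fun hm => ?_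
  have h1 := en_spec eC (by omega) rfl (y.cj.mul x) (by rw [nm_mul, nm_cj, hx, hy]; rfl)
  have h2 := (inL_iff _).mp hm
  have h3 := h2
  simp only [V.inL, Bool.and_eq_true] at h3
  simp only [h3.1, Bool.not_true, Bool.false_or] at h1
  have h4 := List.all_eq_true.mp h1 _ (mem_U (q := y.cj.mul z) (by rw [nm_mul, nm_cj, hz, hy]; rfl))
  simp only [h2, Bool.not_true, Bool.false_or] at h4
  exact good_cert hg hK cC h4

theorem stD {x y z : Ic} (hx : x.nm = ⟨1, 0⟩) (hy : y.nm = ⟨1, 1⟩) (hz : z.nm = ⟨2, -1⟩) : St K x y z := by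
  refine St.unit hx (x' := one) (y' := x.cj.mul y) (z' := x.cj.mul z) (by simp) (by simp [← mul_assoc, (uq hx).1])
    (by simp [← mul_assoc, (uq hx).1]) fun hm => ?_
  have h1 := en_spec eD (by omega) rfl (x.cj.mul y) (by rw [nm_mul, nm_cj, hx, hy]; rfl)
  have h2 := (inL_iff _).mp hm
  have h3 := h2
  simp only [V.inL, Bool.and_eq_true] at h3
  simp only [h3.1, Bool.not_true, Bool.false_or] at h1
  have h4 := List.all_eq_true.mp h1 _ (mem_U (q := mt.mul (x.cj.mul z)) (by rw [nm_mul, nm_mul, nm_cj, hz, hx]; rfl))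
  have h5 : sg.mul (mt.mul (x.cj.mul z)) = x.cj.mul z := q_inj (by
    rw [q_mul, q_mul, ← mul_assoc, ← q_mul, show sg.mul mt = one from rfl, q_one, one_mul])
  simp only [Ic.f_eq, h5, h2, Bool.not_true, Bool.false_or] at h4
  exact good_cert hg hK cD h4

theorem stB {a b x y : Ic} (ha : a.nm = ⟨1, 0⟩) (hb : b.nm = ⟨1, 0⟩) (hx : x.q = a.q * icoH) (hy : y.q = b.q * icoH) :
    St K x y zero := by
  refine St.unit ha (x' := hh) (y' := (a.cj.mul b).mul hh) (z' := zero) (by simp [hx])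
    (by simp [← mul_assoc, (uq ha).1, hy]) (by simp) fun hm => ?_
  have h1 := en_spec eB (by omega) rfl (a.cj.mul b) (by rw [nm_mul, nm_cj, ha, hb]; rfl)
  simp only [V.f_eq, (inL_iff _).mp hm, Bool.not_true, Bool.false_or] at h1
  exact good_cert hg hK cB h1

theorem stA {x : Ic} (hx : x.nm = ⟨4, 0⟩) : St K x zero zero := fun hm => by
  obtain ⟨a, ha, e1⟩ := hm.2.1
  obtain ⟨b, hb, e2⟩ := hm.2.2.2
  simp only [V.e, Matrix.cons_val, q_zero, sub_zero, add_zero] at e1 e2
  obtain ⟨c, hc, e⟩ := two_of (q_mem x) ha hb e1 e2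
  obtain ⟨c, rfl⟩ := ex_q hc
  have h1 : x = c.mul two := q_inj (by simp [e])
  have h2 : c.nm = ⟨1, 0⟩ := by
    rw [h1, nm_mul, show two.nm = ⟨4, 0⟩ from rfl] at hx
    simp only [Zt.mul, Zt.mk.injEq, Int.add_def, Int.mul_def] at hx
    generalize c.nm = n at hx
    obtain ⟨p, q⟩ := n
    simp only [Zt.mk.injEq] at hx ⊢
    omega
  exact St.unit h2 (x' := two) (y' := zero) (z' := zero) (by simp [e]) (by simp) (by simp)
    (fun _ => good_cert hg hK cA (by decide +kernel)) hm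

theorem st0 {x y : Ic} (h1 : x.nm.a + y.nm.a = 4) (h2 : x.nm.b + y.nm.b = 0) : St K x y zero := by
  have z0 : zero.nm = ⟨0, 0⟩ := rfl
  have ext : ∀ {n : Zt} {a b : Int}, n.a = a → n.b = b → n = ⟨a, b⟩ := by rintro ⟨_, _⟩ _ _ rfl rfl; rfl
  by_cases hy : y = zero
  · subst hy; rw [z0] at h1 h2; exact stA hK (ext (by simpa using h1) (by simpa using h2))
  by_cases hx : x = zero
  · subst hx; rw [z0] at h1 h2; exact St.s0 hK (stA hK (ext (by simpa using h1) (by simpa using h2)))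
  intro hm
  obtain ⟨a, ha, e1⟩ := hm.2.1
  obtain ⟨b, hb, e2⟩ := hm.2.2.1
  simp only [V.e, Matrix.cons_val, q_zero, sub_zero] at e1 e2
  obtain ⟨a, rfl⟩ := ex_q ha
  obtain ⟨b, rfl⟩ := ex_q hb
  have e3 : x.q = (a.add b).q * icoH := by rw [q_add, add_mul, ← e1, ← e2]; abel
  have f1 : x = (a.add b).mul hh := q_inj (by simp only [q_mul, q_hh, e3])
  have f2 : y = b.mul hh := q_inj (by simp only [q_mul, q_hh, e2])
  have g1 : a.add b ≠ zero := fun h => hx (q_inj (by rw [e3, h]; simp))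
  have g2 : b ≠ zero := fun h => hy (q_inj (by rw [e2, h]; simp))
  have p1 := nm_pos _ g1
  have p2 := nm_pos _ g2
  rw [f1, f2, nm_mul, nm_mul, show hh.nm = ⟨2, 0⟩ from rfl] at h1 h2
  simp only [Zt.mul, Int.add_def, Int.mul_def] at h1 h2
  exact stB hK (a := a.add b) (b := b) (ext (by omega) (by omega)) (ext (by omega) (by omega)) e3 e2 hm

theorem stAll {x y z : Ic} (h1 : x.nm.a + y.nm.a + z.nm.a = 4) (h2 : x.nm.b + y.nm.b + z.nm.b = 0) : St K x y z := by
  have z0 : zero.nm = ⟨0, 0⟩ := rfl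
  have ext : ∀ {n : Zt} {a b : Int}, n.a = a → n.b = b → n = ⟨a, b⟩ := by rintro ⟨_, _⟩ _ _ rfl rfl; rfl
  by_cases hz : z = zero
  · subst hz; rw [z0] at h1 h2; exact st0 hK (by simpa using h1) (by simpa using h2)
  by_cases hy : y = zero
  · subst hy; rw [z0] at h1 h2; exact St.s1 hK (st0 hK (by simpa using h1) (by simpa using h2))
  by_cases hx : x = zero
  · subst hx; rw [z0] at h1 h2; exact St.s0 hK (St.s1 hK (st0 hK (by simpa using h1) (by simpa using h2)))
  have p1 := nm_pos _ hx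
  have p2 := nm_pos _ hy
  have p3 := nm_pos _ hz
  have c1 : x.nm.a = 2 ∨ y.nm.a = 2 ∨ z.nm.a = 2 := by omega
  have c2 : x.nm.a + x.nm.b = 2 ∨ y.nm.a + y.nm.b = 2 ∨ z.nm.a + z.nm.b = 2 := by omega
  have C := fun a b c => stC hK (x := a) (y := b) (z := c)
  have D := fun a b c => stD hK (x := a) (y := b) (z := c)
  rcases c1 with c1 | c1 | c1 <;> rcases c2 with c2 | c2 | c2
  · exact C _ _ _ (ext (by omega) (by omega)) (ext (by omega) (by omega)) (ext (by omega) (by omega))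
  · exact St.s0 hK (St.s1 hK (St.s0 hK
      (D _ _ _ (ext (by omega) (by omega)) (ext (by omega) (by omega)) (ext (by omega) (by omega)))))
  · exact St.s0 hK (St.s1 hK (D _ _ _ (ext (by omega) (by omega)) (ext (by omega) (by omega)) (ext (by omega) (by omega))))
  · exact St.s1 hK (St.s0 hK (D _ _ _ (ext (by omega) (by omega)) (ext (by omega) (by omega)) (ext (by omega) (by omega))))
  · exact St.s0 hK (C _ _ _ (ext (by omega) (by omega)) (ext (by omega) (by omega)) (ext (by omega) (by omega)))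
  · exact St.s1 hK (D _ _ _ (ext (by omega) (by omega)) (ext (by omega) (by omega)) (ext (by omega) (by omega)))
  · exact St.s0 hK (D _ _ _ (ext (by omega) (by omega)) (ext (by omega) (by omega)) (ext (by omega) (by omega)))
  · exact D _ _ _ (ext (by omega) (by omega)) (ext (by omega) (by omega)) (ext (by omega) (by omega))
  · exact St.s1 hK (St.s0 hK (C _ _ _ (ext (by omega) (by omega)) (ext (by omega) (by omega)) (ext (by omega) (by omega))))

theorem gen_top : K = ⊤ := by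
  rw [eq_top_iff]
  rintro ⟨f, hf⟩ -
  have : twoJ2 ≤ K.map twoJ2.subtype := by
    apply (Subgroup.closure_le _).mpr
    rintro f ⟨r, h4, hr⟩
    obtain ⟨⟨x, y, z⟩, e⟩ := ex_e r.2
    have hn : (x.nm.add y.nm).add z.nm = ⟨4, 0⟩ := Zt.r_inj (by
      have := congrArg QuaternionAlgebra.re h4
      rw [← e] at this
      simp only [qip, Fin.sum_univ_three, V.e, Matrix.cons_val, self_mul_star, re_add, re_coe] at this
      simp only [Zt.r_add, nm_r, this]
      rw [← q_four, q_re]; simp [Zt.r, four, mk8])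
    simp only [Zt.add, Zt.mk.injEq, Int.add_def] at hn
    obtain ⟨k, hk, e2⟩ := stAll hK hn.1 hn.2 (e ▸ r.2)
    refine ⟨k, hk, ?_⟩
    ext1 v
    exact Subtype.ext ((e2 v).trans (by rw [e, hr]))
  obtain ⟨k, hk, e⟩ := this hf
  exact (Subtype.ext e : k = ⟨f, hf⟩) ▸ hk
end

def Wd : List (List ℕ) := [[0], [1, 3], [3, 1], [1], [1, 2, 4, 3, 1, 4, 2, 3, 1, 2, 4, 3], [2, 1, 3, 2, 1, 3],
  [3, 1, 2, 3, 1, 2], [2]]
def fl (w : List ℕ) : List ℕ := w.flatMap fun x => Wd.getD x []
theorem r1 : J2B.rels.all (fun r => isPM gg (fl r)) = true := by decide +kernel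
theorem r2 : ∀ x < 8, isPM gg (fl [J2B.il.getD x 0, x]) = true := by decide +kernel
def Bk : List (List ℕ) := [[0], [3], [7], [3, 1], [4, 7, 4]]
theorem r3 : ∀ x < 5, isPM gg (x :: fl (Bk.getD x [])) = true := by decide +kernel
theorem r4 : run gg [0, 1] E2 (fun a => run gg [1, 0] E2 fun b => !a.beq b) = true := by decide +kernel

noncomputable def evJ (i : ℕ) : J2 := QuotientGroup.mk (evw (rho hg) (Wd.getD i []))
theorem evw_evJ : ∀ w, evw evJ w = QuotientGroup.mk (evw (rho hg) (fl w))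
  | [] => rfl
  | a :: w => by
    rw [evw_cons, evw_evJ w, evJ, ← QuotientGroup.mk_mul, ← evw_append]; rfl
theorem one_of {w : List ℕ} (h : isPM gg w = true) : (QuotientGroup.mk (evw (rho hg) w) : J2) = 1 :=
  (QuotientGroup.eq_one_iff _).mpr (isPM_spec hg h)

theorem isoJ2 : Nonempty (J2P.P ≃* J2) := by
  obtain ⟨ρ, hρ⟩ := J2B.hhom evJ (fun x hx => by
      have := one_of (r2 x hx)
      rw [← evw_evJ] at this
      simp only [evw_cons, evw_nil, mul_one] at this
      exact eq_inv_of_mul_eq_one_left this)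
    (fun r hr => by rw [evw_evJ]; exact one_of (List.all_eq_true.mp r1 r hr))
  have hK : ∀ i, rho hg i ∈ ρ.range.comap (QuotientGroup.mk' (Subgroup.center twoJ2)) := by
    have h : ∀ i < 5, rho hg i ∈ ρ.range.comap (QuotientGroup.mk' (Subgroup.center twoJ2)) := by
      intro i hi
      have := one_of (r3 i hi)
      rw [evw_cons, QuotientGroup.mk_mul, ← evw_evJ] at this
      rw [Subgroup.mem_comap, QuotientGroup.mk'_apply, eq_inv_of_mul_eq_one_left this]
      refine inv_mem ⟨evw J2B.el (Bk.getD i []), hom_evw hρ _ ?_⟩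
      clear this; revert i; decide
    intro i
    by_cases hi : i < 5
    · exact h i hi
    · have : gg i = gg 0 := by
        unfold gg; rw [List.getD_eq_default _ _ (by simp [gl]; omega)]; rfl
      have e : rho hg i = rho hg 0 := by unfold rho; congr 1
      rw [e]; exact h 0 (by omega)
  have top := gen_top hK
  have surj : Function.Surjective ρ := by
    intro y
    obtain ⟨f, rfl⟩ := QuotientGroup.mk_surjective y
    have : f ∈ ρ.range.comap (QuotientGroup.mk' (Subgroup.center twoJ2)) := top ▸ Subgroup.mem_top f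
    exact this
  have nt : (QuotientGroup.mk (rho hg 0) : J2) ≠ 1 := by
    intro h
    have h2 := Subgroup.mem_center_iff.mp ((QuotientGroup.eq_one_iff _).mp h) (rho hg 1)
    obtain ⟨a, h3, ea⟩ := run_spec r4
    obtain ⟨b, h4, eb⟩ := run_spec h3
    have hm : E2.e ∈ icoLeech := (inL_iff _).mpr (by decide +kernel)
    have e1 := ap_evw hg ⟨_, hm⟩ [0, 1]
    have e2 := ap_evw hg ⟨_, hm⟩ [1, 0]
    simp only [evw_cons, evw_nil, mul_one] at e1 e2
    have : a.e = b.e := by rw [ea, eb, ← e1, ← e2, h2]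
    have hab : a = b := by
      have p0 := q_inj (congrFun this 0); have p1 := q_inj (congrFun this 1); have p2 := q_inj (congrFun this 2)
      cases a; cases b; simp_all
    subst hab
    simp [V.beq, Ic.beq_self] at h4
  obtain ⟨g, hg'⟩ := surj (QuotientGroup.mk (rho hg 0))
  haveI := J2P.simple
  exact ⟨MulEquiv.ofBijective ρ ⟨inj_of_simple ρ (g := g) (hg' ▸ nt), surj⟩⟩

end CfL.Ico
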