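import Cfsg.Agent.OD.Pre
import Cfsg.Agent.L.J1T
/-! Finite facts for the recognition of the first Janko group. -/
set_option autoImplicit false
set_option maxRecDepth 100000
noncomputable section
namespace CfL
open CfH6

namespace JH
abbrev M := TE jH_g
def T : M := .mk jH_g 1
def U : M := .mk jH_g 2
def S : M := .mk jH_g 3
def Y : M := .mk jH_g 4
def V : M := Y * U * Y⁻¹
def io (n : ℕ) : M := (if n.testBit 0 then T else 1) * (if n.testBit 1 then U else 1) * (if n.testBit 2 then V else 1)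
def lin (a b c n : ℕ) : ℕ := (if n.testBit 0 then a else 0) ^^^ (if n.testBit 1 then b else 0) ^^^ (if n.testBit 2 then c else 0)
theorem io_xor : ∀ n < 8, ∀ m < 8, io (n ^^^ m) = io n * io m := by decide +kernel
theorem io_inj : ∀ n < 8, ∀ m < 8, io n = io m → n = m := by decide +kernel
theorem io_val : io 0 = 1 ∧ io 1 = T ∧ io 2 = U ∧ io 3 = T * U ∧ io 4 = V ∧ io 5 = T * V ∧ io 6 = U * V := by decide +kernel
theorem cT : ∀ h, h * T = T * h := by decide +kernel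
theorem zT : ∀ h : M, h = 1 ∨ h = T ∨ h * S ≠ S * h ∨ h * Y ≠ Y * h ∨ h * U ≠ U * h := by decide +kernel
theorem fU : ∀ h, h * U = U * h → ∃ n < 8, io n = h := by decide +kernel
theorem acY : ∀ n < 8, Y * io n * Y⁻¹ = io (lin 1 4 6 n) := by decide +kernel
theorem fI : ∀ h : M, h * h = 1 → ∃ k, ∃ n < 8, k * io n * k⁻¹ = h := by decide +kernel
theorem rels : T * T = 1 ∧ U * U = 1 ∧ S * S = 1 ∧ Y * Y * Y = 1 ∧ U * Y * U * Y * U * Y = 1 ∧ S * Y * S * Y = 1 ∧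
    S * U * S * U * S * U = 1 ∧ T ≠ 1 ∧ U ≠ T ∧ Y ≠ 1 := by decide +kernel
def gen (i : ℕ) : M := [T, U, S, Y, Y⁻¹].getD i 1
theorem gen_wl : ∀ a : M, evw gen (jH.wl a.1) = a := by decide +kernel
def gen' (i : ℕ) : M := [T, U, S, Y⁻¹, Y].getD i 1
def al (a : M) : M := evw gen' (jH.wl a.1)
theorem al_al : ∀ a, al (al a) = a := by decide +kernel
theorem al_val : al T = T ∧ al U = U ∧ al V = U * V := by decide +kernel
theorem exists_al : ∃ α : M ≃* M, α T = T ∧ α U = U ∧ α V = U * V := by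
  obtain ⟨φ, h, -⟩ := TE.exists_hom jH_g gen' (by decide +kernel) (by decide +kernel)
  have e : ∀ a, φ (φ a) = a := fun a => by rw [h, h]; exact al_al a
  exact ⟨⟨⟨φ, φ, e, e⟩, φ.map_mul⟩, (h _).trans al_val.1, (h _).trans al_val.2.1, (h _).trans al_val.2.2⟩

def p15 {K : Type*} [Mul K] (x : K) : K := x * x * x * (x * x * x) * (x * x * x) * (x * x * x) * (x * x * x)
theorem e30 : ∀ x : M, p15 x * p15 x = 1 := by decide +kernel
def c1 : List M := [S * U * Y⁻¹, U * S * U * Y, U * Y⁻¹ * U * S, S * Y * U * Y⁻¹]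
def c3 : List M := [S * U * Y, U * S * U * Y⁻¹, U * Y * U * S, S * Y⁻¹ * U * Y]
theorem f1 : ∀ a : M, a = 1 ∨ a ∈ c1 ∨ a * a ∈ c1 ∨ a * a * a ∈ c1 ∨ a * a * a * a ∈ c1 ∨ p15 a ≠ 1 ∨
    p15 (a * a * (T * V * a * (T * V))) ≠ 1 ∨
    p15 (a * a * (T * V * a * (T * V)) * a * (T * V * a * (T * V))) ≠ 1 := by decide +kernel
theorem f3 : ∀ a : M, a = 1 ∨ a ∈ c3 ∨ a * a ∈ c3 ∨ a * a * a ∈ c3 ∨ a * a * a * a ∈ c3 ∨ p15 a ≠ 1 ∨
    p15 (a * a * (U * V * a * (U * V))) ≠ 1 ∨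
    p15 (a * a * (U * V * a * (U * V)) * a * (U * V * a * (U * V))) ≠ 1 := by decide +kernel
def X3 : M := S * U
def X5 : M := U * S * Y
theorem fX : ∀ x ∈ [X3, X5], U * x * U = x⁻¹ ∧ ∀ h, h * x = x * h → h * h * (h * h) = 1 → h = 1 ∨ h = T := by decide +kernel
theorem fodd : ∀ a : M, a * a = 1 ∨ ∃ b ∈ [a, a * a], ∃ k, k * X3 * k⁻¹ = b ∨ k * X5 * k⁻¹ = b ∨ k * (X5 * X5) * k⁻¹ = b := by
  decide +kernel
theorem f35 : ∀ h, h * X3 = X3 * h → h * h * h * (h * h * h) = 1 := by decide +kernel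
theorem x5 : X5 * X5 * X5 * (X5 * X5 * X5) = X5 ∧ X5 ≠ 1 := by decide +kernel
theorem cY : ∀ h, h * Y = Y * h → h ∈ [1, Y, Y⁻¹, T, T * Y, T * Y⁻¹] := by decide +kernel
theorem Y3 : ∃ k, k * X3 * k⁻¹ = Y := by decide +kernel
theorem c3' : ∀ a ∈ [U * S * U * Y, U * Y⁻¹ * U * S, U * S * U * Y⁻¹, U * Y * U * S], ∃ k, k * X3 * k⁻¹ = a := by
  decide +kernel
theorem n31 : TE.cnt (fun h : M => h * h = 1 ∧ h ≠ 1) = 31 := by decide +kernel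
theorem n30 : TE.cnt (fun h : M => h * h = 1 ∧ h ≠ 1 ∧ h ≠ T) = 30 := by decide +kernel
theorem n7 : ∀ a : M, a * a = 1 → a ≠ 1 → a ≠ T → TE.cnt (fun h : M => (h * h = 1 ∧ h ≠ 1) ∧ h * a = a * h) = 7 := by
  decide +kernel
theorem fC : ∀ a : M, a * a = 1 → a ≠ 1 → a ≠ T → ∀ h, h * a = a * h → ∀ k, k * a = a * k → h * k = k * h := by
  decide +kernel

open Equiv in
def y0 : Multiplicative (ZMod 2) × alternatingGroup (Fin 5) :=
  (1, ⟨swap 1 2 * swap 2 3, Perm.mem_alternatingGroup.2 (by decide)⟩)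
open Equiv in
def ev : ℕ → Multiplicative (ZMod 2) × alternatingGroup (Fin 5) := fun i => [(Multiplicative.ofAdd 1, 1),
  (1, ⟨swap 0 1 * swap 2 3, Perm.mem_alternatingGroup.2 (by decide)⟩),
  (1, ⟨swap 0 4 * swap 2 3, Perm.mem_alternatingGroup.2 (by decide)⟩), y0, y0⁻¹].getD i 1
theorem fk : ∀ k : M, k = 1 ∨ k = T ∨ ∃ g, ∃ h, g * (k * h * k⁻¹ * h⁻¹) * g⁻¹ = U ∨ g * (k * h * k⁻¹ * h⁻¹) * g⁻¹ = Y := by
  decide +kernel

theorem iso : Nonempty (Multiplicative (ZMod 2) × alternatingGroup (Fin 5) ≃* M) := by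
  obtain ⟨φ, -, h2⟩ := TE.exists_hom jH_g ev (by decide +kernel) (by decide +kernel)
  have ht : φ T ≠ 1 := by rw [h2 0 T (by decide) (by decide +kernel)]; decide
  have hu : φ U ≠ 1 := by rw [h2 1 U (by decide) (by decide +kernel)]; decide
  have hy : φ Y ≠ 1 := by rw [h2 3 Y (by decide) (by decide +kernel)]; decide
  have hi : Function.Injective φ := by
    rw [injective_iff_map_eq_one]
    intro k hk
    rcases fk k with e | rfl | ⟨g, h, e | e⟩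
    · exact e
    · exact absurd hk ht
    · exact absurd (by rw [← e]; simp [hk]) hu
    · exact absurd (by rw [← e]; simp [hk]) hy
  exact ⟨(MulEquiv.ofBijective φ (hi.bijective_of_nat_card_le (by
    rw [TE.card, Nat.card_prod, nat_card_alternatingGroup, Nat.card_eq_fintype_card, Nat.card_eq_fintype_card]
    decide))).symm⟩

/-- the action of a word in `f` and the element of order 3 -/
def wd (f : ℕ → ℕ) : List ℕ → ℕ → ℕ
  | [], n => n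
  | x :: w, n => (if x = 0 then f else lin 1 4 6) (wd f w n)
def W : List (List ℕ) := [[0, 0, 1, 0, 1, 1], [0, 0], [1, 0, 1, 0], [0, 1, 1, 0, 1, 1], [0, 1, 1, 0, 1, 0],
  [1, 0, 0, 1, 0, 1], [1, 1, 0, 0, 1, 0], [0, 0, 1, 1, 0, 1], [1, 0, 0, 1, 1, 0], [1, 0, 1, 0, 0, 1], [0, 1, 1, 0]]
def Gd (f : ℕ → ℕ) : Prop :=
  ((∀ n < 8, f (f n) = n) ∧ ∃ n < 8, f n ≠ n) ∨ (∀ n < 8, f n = lin 2 4 3 n) ∨ (∀ n < 8, f n = lin 2 6 5 n)
instance (f : ℕ → ℕ) : Decidable (Gd f) := by unfold Gd; infer_instance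
def Gd' (f : ℕ → ℕ) : Prop := f 1 = 1 ∨ (∃ n < 8, f n = 0 ∧ n ≠ 0) ∨ ∃ w ∈ W, Gd (wd f w)
instance (f : ℕ → ℕ) : Decidable (Gd' f) := by unfold Gd'; infer_instance
theorem gl3 : ∀ a < 8, ∀ b < 8, ∀ c < 8, Gd' (lin a b c) := by decide +kernel
theorem lin_add : ∀ a < 8, ∀ b < 8, ∀ c < 8, ∀ n < 8, lin a b c n < 8 ∧ ∀ m < 8, lin a b c (n ^^^ m) = lin a b c n ^^^ lin a b c m := by
  decide +kernel
end JH

namespace JN
abbrev N := TE jN_g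
def T : N := .mk jN_g 1
def Y : N := .mk jN_g 3
def Gg : N := .mk jN_g 5
theorem fk : ∀ m : N, m = 1 ∨ ∃ k, k * T * k⁻¹ = m ∨ k * T * k⁻¹ = m * T * m⁻¹ * T ∨ k * T * k⁻¹ = m * (Gg * T * Gg⁻¹) * m⁻¹ * (Gg * T * Gg⁻¹) ∨
    k * T * k⁻¹ = m * (Gg⁻¹ * T * Gg) * m⁻¹ * (Gg⁻¹ * T * Gg) := by decide +kernel
theorem fc : ∀ m : N, m = 1 ∨ ∃ k, k * T * k⁻¹ = m * m * m ∨ k * Y * k⁻¹ = m ∨ k * Y⁻¹ * k⁻¹ = m ∨ k * Gg * k⁻¹ = m ∨
    k * Gg⁻¹ * k⁻¹ = m := by decide +kernel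
theorem ft : ∀ k : N, ∃ i < 7, k * T * k⁻¹ = Gg ^ i * T * (Gg ^ i)⁻¹ ∧ Gg ^ i * T * (Gg ^ i)⁻¹ ≠ Gg ^ (i + 1) * T * (Gg ^ (i + 1))⁻¹ ∧
    Gg ^ i * T * (Gg ^ i)⁻¹ * (Gg ^ (i + 1) * T * (Gg ^ (i + 1))⁻¹) = Gg ^ (i + 1) * T * (Gg ^ (i + 1))⁻¹ * (Gg ^ i * T * (Gg ^ i)⁻¹) := by
  decide +kernel
theorem fg : ∀ h ∈ [1, Y, Y⁻¹, T, T * Y, T * Y⁻¹], h * Gg * h⁻¹ ≠ Gg⁻¹ ∧ (h * Gg = Gg * h → h = 1) := by decide +kernel
end JN

end CfL
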