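import Cfsg.Agent.OD.Pre
import Cfsg.Agent.L.J2g
import Cfsg.Agent.L.J1a
import Cfsg.Agent.OD.Leadx050423aebf
/-! Groups with involution centraliser `2 × A5`: the normaliser of a Sylow 2-subgroup. -/
set_option autoImplicit false
set_option maxRecDepth 100000
open Subgroup CfH9 CfH7 Cfsg
namespace CfL
open JH

theorem JH.c8 : TE.cnt (fun h : M => h * U = U * h) = 8 := by decide +kernel
theorem JH.io_U : ∀ n < 8, io n * U = U * io n := by decide +kernel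

variable {G : Type*} [Group G]

structure J1 (t : G) (φ : M →* G) : Prop where
  inj : Function.Injective φ
  rng : ∀ g, g * t = t * g → ∃ h, φ h = g
  ht : φ T = t
  syl : SylIn 2 (Cx(U).map φ) ⊤

theorem j1_of [Finite G] (S : Sylow 2 G) (h8 : Nat.card S = 8) {t : G} (ht : orderOf t = 2)
    (e : Cx(t) ≃* Multiplicative (ZMod 2) × alternatingGroup (Fin 5)) : ∃ φ, J1 t φ := by
  obtain ⟨e'⟩ := JH.iso
  let f := (e.trans e').symm
  have hi : Function.Injective (Cx(t).subtype.comp f.toMonoidHom) := Subtype.val_injective.comp f.injective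
  refine ⟨Cx(t).subtype.comp f.toMonoidHom, hi, fun g hg => ⟨f.symm ⟨g, mem_Cx.2 hg⟩, by simp⟩, ?_, ?_⟩
  · have c : ∀ h, f.symm ⟨t, mem_Cx.2 rfl⟩ * h = h * f.symm ⟨t, mem_Cx.2 rfl⟩ := fun h => f.injective (Subtype.ext (by
      simpa using (mem_Cx.1 (f h).2).symm))
    rcases zT (f.symm ⟨t, mem_Cx.2 rfl⟩) with h | h | h | h | h
    · have : t = 1 := by simpa using congrArg (fun x => (f x : G)) h
      rw [this, orderOf_one] at ht; omega
    · rw [← h]; simp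
    all_goals exact absurd (c _) h
  · have c : Nat.card (Cx(U).map (Cx(t).subtype.comp f.toMonoidHom)) = 8 := by
      rw [card_map_of_injective hi, ← c8, ← TE.cnt_eq]
      exact congrArg Set.ncard (Set.ext fun _ => mem_Cx)
    exact (sylIn_top S).of_card_le (IsPGroup.of_card (n := 3) c) le_top (by rw [c, h8])

def Ac1 (φ : M →* G) (g : G) (f : ℕ → ℕ) : Prop := ∀ n < 8, f n < 8 ∧ g * φ (io n) * g⁻¹ = φ (io (f n))

section
variable {φ : M →* G} {g h : G} {f f' : ℕ → ℕ}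
theorem Ac1.mul (a : Ac1 φ g f) (b : Ac1 φ h f') : Ac1 φ (g * h) (fun n => f (f' n)) := fun n hn =>
  ⟨(a _ (b n hn).1).1, by rw [← (a _ (b n hn).1).2, ← (b n hn).2]; group⟩
theorem Ac1.congr (a : Ac1 φ g f) (e : ∀ n < 8, f n = f' n := by decide) : Ac1 φ g f' := fun n hn => e n hn ▸ a n hn
theorem Ac1.inv (a : Ac1 φ g f) (f' : ℕ → ℕ) (h : ∀ n < 8, f' n < 8 ∧ f (f' n) = n := by decide) : Ac1 φ g⁻¹ f' :=
  fun n hn => ⟨(h n hn).1, by nth_rewrite 1 [← (h n hn).2]; rw [← (a _ (h n hn).1).2]; group⟩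
theorem Ac1.of3 {a b c : ℕ} (ha : a < 8) (hb : b < 8) (hc : c < 8)
    (h1 : g * φ (io 1) * g⁻¹ = φ (io a)) (h2 : g * φ (io 2) * g⁻¹ = φ (io b))
    (h4 : g * φ (io 4) * g⁻¹ = φ (io c)) : Ac1 φ g (lin a b c) := by
  have hf := lin_add a ha b hb c hc
  have X : ∀ (i j k : ℕ), g * φ (io i) * g⁻¹ = φ (io (lin a b c i)) → g * φ (io j) * g⁻¹ = φ (io (lin a b c j)) →
      (i < 8 ∧ j < 8 ∧ i ^^^ j = k) → g * φ (io k) * g⁻¹ = φ (io (lin a b c k)) := by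
    rintro i j _ e1 e2 ⟨hi, hj, rfl⟩
    rw [(hf i hi).2 j hj, io_xor i hi j hj, io_xor _ (hf i hi).1 _ (hf j hj).1, map_mul, map_mul, ← e1, ← e2]; group
  replace h1 : g * φ (io 1) * g⁻¹ = φ (io (lin a b c 1)) := by rw [h1]; simp [lin, Nat.testBit]
  replace h2 : g * φ (io 2) * g⁻¹ = φ (io (lin a b c 2)) := by rw [h2]; simp [lin, Nat.testBit]
  replace h4 : g * φ (io 4) * g⁻¹ = φ (io (lin a b c 4)) := by rw [h4]; simp [lin, Nat.testBit]
  have h3 := X 1 2 3 h1 h2 (by decide)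
  intro n hn
  refine ⟨(hf n hn).1, ?_⟩
  interval_cases n
  exacts [X 1 1 0 h1 h1 (by decide), h1, h2, h3, h4, X 1 4 5 h1 h4 (by decide), X 2 4 6 h2 h4 (by decide),
    X 3 4 7 h3 h4 (by decide)]
theorem Ac1.y : Ac1 φ (φ Y) (lin 1 4 6) := fun n hn => ⟨by revert n; decide, by rw [← acY n hn]; simp⟩
theorem Ac1.io (m : ℕ) (hm : m < 8) : Ac1 φ (φ (io m)) (fun n => n) := fun n hn => ⟨hn, cj1 (by
  rw [← map_mul, ← io_xor m hm n hn, Nat.xor_comm, io_xor n hn m hm, map_mul])⟩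
theorem Ac1.wd (a : Ac1 φ g f) (w : List ℕ) : ∃ k, Ac1 φ k (wd f w) := by
  induction w with
  | nil => exact ⟨1, fun n hn => ⟨hn, by simp [JH.wd]⟩⟩
  | cons x w ih =>
    obtain ⟨k, hk⟩ := ih
    by_cases e : x = 0
    · exact ⟨_, (a.mul hk).congr fun n _ => by simp [JH.wd, e]⟩
    · exact ⟨_, (Ac1.y.mul hk).congr fun n _ => by simp [JH.wd, e]⟩
theorem mem_E {g : G} : g ∈ Cx(U).map φ ↔ ∃ n < 8, φ (io n) = g :=
  ⟨fun ⟨h, h1, h2⟩ => by obtain ⟨n, hn, rfl⟩ := fU h (mem_Cx.1 h1); exact ⟨n, hn, h2⟩,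
    fun ⟨n, hn, e⟩ => ⟨_, mem_Cx.2 (io_U n hn), e⟩⟩
end

/-- the data of an element of order 7 normalising the Sylow 2-subgroup -/
structure J1G (t : G) (φ : M →* G) (g : G) : Prop extends J1 t φ where
  ac : Ac1 φ g (lin 2 4 3)
  g7 : g ^ 7 = 1
  yg : φ Y * g * (φ Y)⁻¹ = g * g

namespace J1
variable {t : G} {φ : M →* G} (J : J1 t φ)
include J

theorem comm_iff {a b : M} : φ a * φ b = φ b * φ a ↔ a * b = b * a := by
  rw [← map_mul, ← map_mul, J.inj.eq_iff]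
theorem cz (h : M) : φ h * t = t * φ h := by rw [← J.ht, ← map_mul, cT, map_mul]
theorem t2 : t * t = 1 := by rw [← J.ht, ← map_mul, rels.1, map_one]
theorem t1 : t ≠ 1 := fun e => rels.2.2.2.2.2.2.2.1 (J.inj (by rw [J.ht, e, map_one]))
theorem i1 : φ (io 1) = t := by rw [io_val.2.1, J.ht]
theorem io_eq {n m : ℕ} (hn : n < 8) (hm : m < 8) (e : φ (io n) = φ (io m)) : n = m := io_inj n hn m hm (J.inj e)
theorem card_H : Nat.card Cx(t) = 120 := by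
  have : φ.range = Cx(t) := by
    ext g
    exact ⟨fun ⟨h, e⟩ => e ▸ mem_Cx.2 (J.cz h), fun hg => J.rng g (mem_Cx.1 hg)⟩
  rw [← this, ← Nat.card_congr (MonoidHom.ofInjective J.inj).toEquiv, TE.card]
  rfl

theorem inE {g : G} {f : ℕ → ℕ} (a : Ac1 φ g f) (h : f 1 = 1 ∧ f 2 = 2 := by decide) : ∃ n < 8, φ (io n) = g := by
  have a1 := (a 1 (by omega)).2
  have a2 := (a 2 (by omega)).2
  rw [h.1, J.i1] at a1
  rw [h.2, io_val.2.2.1] at a2
  obtain ⟨k, rfl⟩ := J.rng g (cj2 a1)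
  exact mem_E.1 ⟨k, mem_Cx.2 (J.comm_iff.1 (cj2 a2)), rfl⟩

omit J in
theorem io2 {n : ℕ} (hn : n < 8) : φ (io n) * φ (io n) = 1 := by
  rw [← map_mul, ← io_xor n hn n hn, Nat.xor_self, io_val.1, map_one]

theorem no_inv [Finite G] {g : G} {f : ℕ → ℕ} (a : Ac1 φ g f) (h : ∀ n < 8, f (f n) = n) : ∀ n < 8, f n = n := by
  obtain ⟨m, hm, e⟩ := J.inE (a.mul a) ⟨h 1 (by omega), h 2 (by omega)⟩
  have : zpowers g ≤ Cx(U).map φ := J.syl.le_of_le_Nm' (isPGroup_zpowers (k := 2) (by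
    rw [show g ^ 2 ^ 2 = g * g * (g * g) by simp [pow_succ, mul_assoc], ← e, io2 hm])) le_top
    (zpowers_le.2 (mem_normalizer_of_conj_mem fun x hx => by
      obtain ⟨n, hn, rfl⟩ := mem_E.1 hx
      exact mem_E.2 ⟨_, (a n hn).1, (a n hn).2.symm⟩))
  obtain ⟨k, hk, rfl⟩ := mem_E.1 (this (mem_zpowers g))
  exact fun n hn => J.io_eq (a n hn).1 hn ((a n hn).2.symm.trans (Ac1.io k hk n hn).2)

theorem exists_g0 [Finite G] [IsSimpleGroup G] : (∃ g, Ac1 φ g (lin 2 4 3)) ∨ ∃ g, Ac1 φ g (lin 2 6 5) := by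
  obtain ⟨w, c, h1, h2⟩ := not_isolated (orderOf_eq_prime (by rw [pow_two, J.t2]) J.t1) (by rw [J.card_H]; omega)
  obtain ⟨h, rfl⟩ := J.rng w h1
  obtain ⟨k, n, hn, rfl⟩ := fI h (J.inj (by rw [map_mul, sq_of_isConj c J.t2, map_one]))
  obtain ⟨g, hg⟩ := isConj_iff.1 (c.trans (isConj_mk (b := φ (io n)) (φ k)⁻¹ (by simp [mul_assoc])))
  have cE : ∀ n < 8, φ (io n) ∈ Cz(Cx(U).map φ) := fun n hn => mem_centralizer_iff.2 fun x hx => by
    obtain ⟨m, hm, rfl⟩ := mem_E.1 hx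
    exact cj2 (Ac1.io m hm n hn).2
  obtain ⟨m, -, hm, e⟩ := burnside_fusion_elem J.syl (mem_top g) (J.i1 ▸ cE 1 (by omega)) (hg ▸ cE n hn)
  have X : ∀ i < 8, ∃ j < 8, φ (io j) = m * φ (io i) * m⁻¹ := fun i hi =>
    mem_E.1 ((mem_normalizer_iff.1 hm _).1 (mem_E.2 ⟨i, hi, rfl⟩))
  obtain ⟨b, hb, eb⟩ := X 2 (by omega)
  obtain ⟨c, hc, ec⟩ := X 4 (by omega)
  have a := Ac1.of3 hn hb hc (by rw [J.i1, ← e, hg]) eb.symm ec.symm
  rcases gl3 n hn b hb c hc with h | ⟨i, hi, h, h'⟩ | ⟨w, -, h⟩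
  · have : n = 1 := by simpa [lin, Nat.testBit] using h
    exact absurd (by rw [this, io_val.2.1, cj1 (cT k), J.ht]) h2
  · have := (a i hi).2
    rw [h, io_val.1, map_one, mul_inv_eq_one, mul_eq_left] at this
    exact absurd (J.io_eq hi (by omega) (by rw [this, io_val.1, map_one])) h'
  · obtain ⟨k, hk⟩ := a.wd w
    rcases h with ⟨h, i, hi, h'⟩ | h | h
    · exact absurd (J.no_inv hk h i hi) h'
    · exact Or.inl ⟨k, hk.congr h⟩
    · exact Or.inr ⟨k, hk.congr h⟩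

theorem p7 {g : G} (a : Ac1 φ g (lin 2 4 3)) : g ^ 7 = 1 := by
  obtain ⟨n, hn, e⟩ := J.inE (a.mul (a.mul (a.mul (a.mul (a.mul (a.mul a))))))
  have := (a n hn).2
  rw [e, show g * (g * (g * (g * (g * (g * (g * g)))))) * g⁻¹ = g * (g * (g * (g * (g * (g * g))))) by group, ← e] at this
  have h0 : ∀ n < 8, n = lin 2 4 3 n → n = 0 := by decide
  rw [h0 n hn (J.io_eq hn (a n hn).1 this), io_val.1, map_one] at e
  rw [e]; simp [pow_succ, mul_assoc]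

theorem fix_g {g : G} (a : Ac1 φ g (lin 2 4 3)) : ∃ g, J1G t φ g := by
  have y3 : φ Y * φ Y * φ Y = 1 := by rw [← map_mul, ← map_mul, rels.2.2.2.1, map_one]
  have A : ∀ n : Fin 8, Ac1 φ (φ (io n) * g) (lin 2 4 3) := fun n => (Ac1.io n n.2).mul a
  have X : ∀ n : Fin 8, ∃ m : Fin 8, (φ Y)⁻¹ * (φ (io n) * g) ^ 2 * φ Y = φ (io m) * g := fun n => by
    obtain ⟨m, hm, e⟩ := J.inE ((((Ac1.y.inv (lin 1 6 2)).mul ((A n).mul (A n))).mul Ac1.y).mul (a.inv (lin 5 1 2)))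
    exact ⟨⟨m, hm⟩, by rw [e, pow_two]; group⟩
  choose F hF using X
  have h3 : ∀ n, F (F (F n)) = n := fun n => Fin.ext (J.io_eq (Fin.is_lt _) n.2 (mul_right_cancel (b := g) (by
    rw [← hF, ← hF, ← hF]
    have : ∀ x : G, (φ Y)⁻¹ * ((φ Y)⁻¹ * ((φ Y)⁻¹ * x ^ 2 * φ Y) ^ 2 * φ Y) ^ 2 * φ Y =
        (φ Y * φ Y * φ Y)⁻¹ * (x ^ 7 * x) * (φ Y * φ Y * φ Y) := fun x => by simp only [pow_succ]; group
    rw [this, y3, J.p7 (A n)]; simp)))
  haveI : Fact (Nat.Prime 3) := ⟨by norm_num⟩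
  obtain ⟨n, hn⟩ := Equiv.Perm.exists_fixed_point_of_prime (p := 3) (n := 1) (α := Fin 8) (by decide)
    (σ := ⟨F, fun n => F (F n), h3, h3⟩) (Equiv.ext fun n => by simpa [pow_succ] using h3 n)
  refine ⟨_, J, A n, J.p7 (A n), ?_⟩
  have := hF n
  rw [show F n = n from hn] at this
  nth_rewrite 1 [← this]
  rw [pow_two]; group
end J1

theorem J1.exists_g [Finite G] [IsSimpleGroup G] {t : G} {φ : M →* G} (J : J1 t φ) : ∃ φ g, J1G t φ g := by
  rcases J.exists_g0 with ⟨g, a⟩ | ⟨g, a⟩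
  · exact ⟨φ, J.fix_g a⟩
  · obtain ⟨α, h1, h2, h3⟩ := exists_al
    have J' : J1 t (φ.comp α.toMonoidHom) := ⟨J.inj.comp α.injective, fun g hg => by
      obtain ⟨h, rfl⟩ := J.rng g hg
      exact ⟨α.symm h, by simp⟩, by simp [h1, J.ht], by
        rw [← map_map, show Cx(U).map α.toMonoidHom = Cx(U) from ?_]
        · exact J.syl
        ext x
        rw [mem_map_equiv, mem_Cx, mem_Cx, ← α.injective.eq_iff]
        simp [h2]⟩
    have b1 := (a 1 (by omega)).2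
    have b2 := (a 2 (by omega)).2
    have b6 := (a 6 (by omega)).2
    obtain ⟨-, v1, v2, v3, v4, -, v6⟩ := io_val
    refine ⟨_, J'.fix_g (g := g) (Ac1.of3 (by omega) (by omega) (by omega) ?_ ?_ ?_)⟩
    · simpa [v1, v2, h1, h2, show lin 2 6 5 1 = 2 from rfl] using b1
    · simpa [v4, v2, v6, h3, h2, show lin 2 6 5 2 = 6 from rfl] using b2
    · simpa [v4, v3, v6, h3, h2, h1, show lin 2 6 5 6 = 3 from rfl] using b6

end CfL
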