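import Cfsg.Agent.OD.Pre
import Cfsg.Agent.L.J2c
import Cfsg.Agent.L.A6T
import Cfsg.Agent.H4.D8
/-! Finite facts for the recognition of the third Janko group. -/
set_option autoImplicit false
set_option maxRecDepth 100000
noncomputable section
namespace CfL
open CfH6

namespace A6
def Z : TE a6_g := .mk a6_g 1
theorem f1 : ∀ k : TE a6_g, k = 1 ∨ ∃ g, k * g * k⁻¹ * g⁻¹ ≠ 1 ∧ k * g * k⁻¹ * g⁻¹ * (k * g * k⁻¹ * g⁻¹) = 1 := by
  decide +kernel
theorem f2 : ∀ c : TE a6_g, c * c = 1 → c = 1 ∨ ∃ g, g * c * g⁻¹ = Z := by decide +kernel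
theorem f3 : ∀ u : TE a6_g, u * u = 1 → u ≠ 1 → u ≠ Z → Z * u = u * Z → ∀ s, s * s = 1 → s * u * s * u = Z →
    ∀ k, k * Z * k⁻¹ = u → k * u * k⁻¹ = Z * u → s * k * s * k = 1 → ∀ l, l * Z * l⁻¹ = s → l * s * l⁻¹ = Z * s →
    u * l * u * l = 1 → ∀ w, w * w = 1 → w * k * w * k = 1 → w * Z * (w * Z) * (w * Z) = 1 →
    w = l⁻¹ * k⁻¹ * s * k * l ∨ s * w * s = l⁻¹ * k⁻¹ * s * k * l := by decide +kernel

open Equiv in
def k0 : alternatingGroup (Fin 6) := ⟨swap 3 4 * swap 4 5, Perm.mem_alternatingGroup.2 (by decide)⟩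
open Equiv in
def l0 : alternatingGroup (Fin 6) := ⟨swap 0 2 * swap 2 4 * swap 1 3 * swap 3 5, Perm.mem_alternatingGroup.2 (by decide)⟩
open Equiv in
def ev : ℕ → alternatingGroup (Fin 6) := fun i => [⟨swap 2 3 * swap 4 5, Perm.mem_alternatingGroup.2 (by decide)⟩,
  ⟨swap 2 4 * swap 3 5, Perm.mem_alternatingGroup.2 (by decide)⟩,
  ⟨swap 0 1 * swap 4 5, Perm.mem_alternatingGroup.2 (by decide)⟩, k0, k0⁻¹, l0, l0⁻¹].getD i 1

theorem iso : Nonempty (alternatingGroup (Fin 6) ≃* TE a6_g) := by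
  obtain ⟨φ, -, h2⟩ := TE.exists_hom a6_g ev (by decide +kernel) (by decide +kernel)
  have hz : φ Z ≠ 1 := by rw [h2 0 Z (by decide) (by decide +kernel)]; decide
  have hi : Function.Injective φ := by
    rw [injective_iff_map_eq_one]
    intro k hk
    rcases f1 k with e | ⟨g, e1, e2⟩
    · exact e
    · obtain ⟨h, e⟩ := (f2 _ e2).resolve_left e1
      exact absurd (by rw [← e]; simp [hk]) hz
  exact ⟨(MulEquiv.ofBijective φ (hi.bijective_of_nat_card_le (by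
    rw [TE.card, nat_card_alternatingGroup, Nat.card_eq_fintype_card]; decide))).symm⟩

theorem rel {K : Type*} [Group K] (e : K ≃* alternatingGroup (Fin 6)) {z u s k l w : K} (z2 : z * z = 1) (z1 : z ≠ 1)
    (u2 : u * u = 1) (u1 : u ≠ 1) (uz : u ≠ z) (zu : z * u = u * z) (s2 : s * s = 1) (su : s * u * s * u = z)
    (kz : k * z * k⁻¹ = u) (ku : k * u * k⁻¹ = z * u) (sk : s * k * s * k = 1) (lz : l * z * l⁻¹ = s)
    (ls : l * s * l⁻¹ = z * s) (ul : u * l * u * l = 1) (w2 : w * w = 1) (wk : w * k * w * k = 1)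
    (wz : w * z * (w * z) * (w * z) = 1) : w = l⁻¹ * k⁻¹ * s * k * l ∨ s * w * s = l⁻¹ * k⁻¹ * s * k * l := by
  obtain ⟨e1⟩ := iso
  obtain ⟨g, hg⟩ := (f2 (e1 (e z)) (by rw [← map_mul, ← map_mul, z2, map_one, map_one])).resolve_left (by simpa using z1)
  obtain ⟨f, hf⟩ : ∃ f : K ≃* TE a6_g, f z = Z := ⟨(e.trans e1).trans (MulAut.conj g), hg⟩
  have := f3 (f u) (by rw [← map_mul, u2, map_one]) (by simpa using u1) (by rw [← hf]; simpa using uz)
    (by rw [← hf, ← map_mul, zu, map_mul]) (f s) (by rw [← map_mul, s2, map_one])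
    (by rw [← hf, ← su]; simp) (f k) (by rw [← hf, ← kz]; simp) (by rw [← hf, ← map_mul f z, ← ku]; simp)
    (by rw [← map_one f, ← sk]; simp) (f l) (by rw [← hf, ← lz]; simp) (by rw [← hf, ← map_mul f z, ← ls]; simp)
    (by rw [← map_one f, ← ul]; simp) (f w) (by rw [← map_mul, w2, map_one]) (by rw [← map_one f, ← wk]; simp)
    (by rw [← hf, ← map_one f, ← wz]; simp)
  simpa only [← map_inv, ← map_mul, f.injective.eq_iff] using this
end A6

namespace HB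
theorem c36 : TE.cnt (fun h => h * U = U * h ∧ h * h = Z) = 36 := by decide +kernel
theorem c12 : TE.cnt (fun h => h * U = U * h ∧ h * h = U) = 12 := by decide +kernel
theorem bas : Z * Z = 1 ∧ U * U = 1 ∧ U ≠ 1 ∧ U ≠ Z := by decide +kernel
end HB

namespace HA
def S : TE gA := .mk gA 5
def C : TE gA := .mk gA 8
def B : TE gA := .mk gA 9
def T1 : TE gA := S * A * S
def gen (i : ℕ) : TE gA := [Z, .mk gA 2, .mk gA 3, .mk gA 4, S, U, A, C, B, B⁻¹].getD i 1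
theorem gen_rel : ∀ r ∈ hArels, evw gen r = 1 := by decide +kernel
theorem gen_inv : ∀ x < 10, gen (hAil.getD x 0) = (gen x)⁻¹ := by decide +kernel
theorem b1 : B * B * B = 1 ∧ B * B ≠ 1 ∧ B * U = U * B ∧ S * S = 1 ∧ S * U * S = Z * U ∧ S * B = B * S ∧
    C * C = 1 ∧ C * B * C = B⁻¹ ∧ C * S * C = U ∧ C * U * C = S ∧ Z * U = U * Z ∧ S * U * S * U = Z := by decide +kernel
theorem fB : ∀ y, y * U = U * y → y * y * y = 1 → y ≠ 1 → ∃ k, k * U = U * k ∧ (k * B * k⁻¹ = y ∨ k * B⁻¹ * k⁻¹ = y) := by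
  decide +kernel
theorem fB' : ∀ h, h * U = U * h → h * B * h⁻¹ ≠ B⁻¹ := by decide +kernel
def LB : List (TE gA) := [1, B, B⁻¹]
theorem fW : ∀ h, h * U = U * h → h * h = 1 → h * B * (h * B) * (h * B) = 1 → h = 1 ∨
    ∃ k ∈ LB, k * A * k⁻¹ = h ∨ k * T1 * k⁻¹ = h := by decide +kernel
theorem fW1 : (∀ h ∈ [A, T1], h * U = U * h ∧ h * h = 1 ∧ h * B * (h * B) * (h * B) = 1 ∧ h ≠ 1) ∧ A * T1 ≠ T1 * A ∧
    (∀ k ∈ LB, k * B = B * k ∧ k * U = U * k ∧ ∀ k' ∈ LB, k * T1 * k⁻¹ * (k' * T1 * k'⁻¹) = k' * T1 * k'⁻¹ * (k * T1 * k⁻¹) ∧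
      k * A * k⁻¹ * A = A * (k * A * k⁻¹) ∧ (k * T1 * k⁻¹ * A * (k * T1 * k⁻¹) = A * U → k = B⁻¹)) ∧
    T1 * A * T1 = A * Z := by decide +kernel
theorem fW2 : ∀ v, v * U = U * v → v * B = B * v → ∀ k ∈ LB, ∀ k' ∈ LB,
    v * A * v⁻¹ ≠ k * k' * k * T1 * (k * k' * k)⁻¹ := by decide +kernel
theorem fV : ∀ v, v * U = U * v → v * B = B * v → v * A = A * v → InV v := by decide +kernel
def bit (n i : ℕ) : Bool := n.testBit i
def io (n : ℕ) : TE gA := (if bit n 0 then Z else 1) * (if bit n 1 then U else 1) * (if bit n 2 then A else 1) *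
  (if bit n 3 then B * A * B⁻¹ else 1)
def lin (i j k l n : ℕ) : ℕ :=
  (if bit n 0 then i else 0) ^^^ (if bit n 1 then j else 0) ^^^ (if bit n 2 then k else 0) ^^^ (if bit n 3 then l else 0)
theorem io_xor : ∀ n < 16, ∀ m < 16, io (n ^^^ m) = io n * io m := by decide +kernel
theorem io_inj : ∀ n < 16, ∀ m < 16, io n = io m → n = m := by decide +kernel
theorem io_val : io 0 = 1 ∧ io 1 = Z ∧ io 2 = U ∧ io 3 = Z * U ∧ io 4 = A ∧ io 8 = B * A * B⁻¹ ∧
    ∀ n < 16, io n * A = A * io n := by decide +kernel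
theorem fE : ∀ h, h * A = A * h → ∃ n < 16, io n = h := by decide +kernel
theorem fN : ∀ h, h * A * h⁻¹ * A = A * (h * A * h⁻¹) → h * U = U * h := by decide +kernel
theorem acB : ∀ n < 16, B * io n * B⁻¹ = io (lin 1 2 8 12 n) := by decide +kernel
theorem acT : ∀ n < 16, T1 * io n * T1⁻¹ = io (lin 1 2 5 10 n) := by decide +kernel
theorem acT' : ∀ n < 16, B * T1 * B⁻¹ * io n * (B * T1 * B⁻¹)⁻¹ = io (lin 1 2 7 9 n) := by decide +kernel
open DihedralGroup in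
def dl : CfH4.D4 →* TE gA := MonoidHom.mk' (fun | r i => (U * S) ^ i.val | sr i => U * (U * S) ^ i.val)
  (by decide +kernel)
open DihedralGroup in
theorem dl_val : dl (r 2) = Z ∧ dl (sr 0) = U ∧ dl (sr 1) = S ∧ (∀ m, dl m * B = B * dl m) ∧
    ∀ m, ∀ k ∈ LB, dl m = k → m = 1 := by decide +kernel
theorem fCB : ∀ h, h * B = B * h → ∃ m, ∃ k ∈ LB, h = dl m * k := by decide +kernel
end HA
end CfL
end
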