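import Cfsg.Agent.OD.Pre
import Cfsg.Agent.L.J2g
import Cfsg.Agent.L.J3a
import Cfsg.Agent.OD.Leadx7e9ff5e5c5
/-! Groups with involution centraliser `2^{1+4}:A5` and one class of involutions: the 2-local generators. -/
set_option autoImplicit false
set_option maxRecDepth 100000
open Subgroup CfH9 CfH7 Cfsg
namespace CfL
open HA

variable {G : Type*} [Group G]

theorem swap_of {M : Type*} [Group M] {φ : M →* G} {z g : G} {t t' h k : M} (cz : ∀ h, φ h * z = z * φ h)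
    (hg : g * z * g⁻¹ = φ t) (hh : φ h = g⁻¹ * z * g) (hk : k * t' * k⁻¹ = h) :
    ∃ m, m * z * m⁻¹ = φ t ∧ m * φ t' * m⁻¹ = z := by
  refine ⟨g * φ k, ?_, ?_⟩
  · calc _ = g * (φ k * z * (φ k)⁻¹) * g⁻¹ := by group
      _ = _ := by rw [cj1 (cz k), hg]
  · calc _ = g * φ (k * t' * k⁻¹) * g⁻¹ := by simp only [map_mul, map_inv]; group
      _ = _ := by rw [hk, hh]; group

theorem comm_back {g a b : G} (h : g * a * g⁻¹ * b = b * (g * a * g⁻¹)) : g⁻¹ * b * g * a = a * (g⁻¹ * b * g) := by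
  have := comm_cj g⁻¹ h
  simpa [mul_assoc] using this.symm

structure J3 (z : G) (φ : TE gA →* G) : Prop extends JS0 z φ where
  one : ∀ w : G, w * w = 1 → w ≠ 1 → IsConj z w

theorem j3_of [Finite G] {z : G} (hz : orderOf z = 2) (Q : Subgroup Cx(z)) [Q.Normal] (hQ : IsExtraspecial 2 Q)
    (hc : Nat.card Q = 32) (hC : centralizer (Q : Set Cx(z)) ≤ Q) (h60 : Nat.card (Cx(z) ⧸ Q) = 60)
    (hone : ∀ x y : G, orderOf x = 2 → orderOf y = 2 → IsConj x y) : ∃ φ, J3 z φ := by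
  have z2 : z * z = 1 := by rw [← pow_two, ← hz, pow_orderOf_eq_one]
  have z1 : z ≠ 1 := fun e => by rw [e, orderOf_one] at hz; omega
  have one : ∀ w : G, w * w = 1 → w ≠ 1 → IsConj z w := fun w w2 w1 =>
    hone z w hz (orderOf_eq_prime (by rw [pow_two, w2]) w1)
  obtain ⟨u, a, b, c, h, hH, hq, cq⟩ := exists_HG Q hQ hc hC h60 (z := ⟨z, mem_Cx.2 rfl⟩)
    (fun e => z1 (congrArg Subtype.val e)) (fun g => Subtype.ext (mem_Cx.1 g.2).symm)
  rcases h.a2 with a2 | a2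
  · obtain ⟨φ, h1, h2⟩ := h.homA a2
    have hi := inj_of_fInj φ (by rw [h1]; exact fun e => z1 (congrArg Subtype.val e)) HA.sq5 HA.fInj
    have hs := (hi.bijective_of_nat_card_le (by rw [hH, TE.card]; rfl)).2
    refine ⟨(Cx(z)).subtype.comp φ, ⟨Subtype.val_injective.comp hi, fun g hg => ?_, congrArg Subtype.val h1,
      fun k => mem_Cx.1 (φ k).2, fun w w2 => ?_⟩, one⟩
    · obtain ⟨k, hk⟩ := hs ⟨g, mem_Cx.2 hg⟩
      exact ⟨k, congrArg Subtype.val hk⟩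
    · by_cases w1 : w = 1
      · exact ⟨1, by simp [w1]⟩
      · obtain ⟨g, hg⟩ := isConj_iff.1 (one w w2 w1).symm
        exact ⟨g, hg ▸ mem_Cx.2 rfl⟩
  · exfalso
    obtain ⟨φ0, h1⟩ := h.homB a2
    have hi0 := inj_of_fInj φ0 (by rw [h1]; exact fun e => z1 (congrArg Subtype.val e)) HB.sqU HB.fInj
    have hs := (hi0.bijective_of_nat_card_le (by rw [hH, TE.card]; rfl)).2
    obtain ⟨φ, hi, rng, hZ, cz⟩ : ∃ φ : TE gB →* G, Function.Injective φ ∧ (∀ g, g * z = z * g → ∃ h, φ h = g) ∧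
        φ HB.Z = z ∧ ∀ h, φ h * z = z * φ h := by
      refine ⟨(Cx(z)).subtype.comp φ0, Subtype.val_injective.comp hi0, fun g hg => ?_, congrArg Subtype.val h1,
        fun k => mem_Cx.1 (φ0 k).2⟩
      obtain ⟨k, hk⟩ := hs ⟨g, mem_Cx.2 hg⟩
      exact ⟨k, congrArg Subtype.val hk⟩
    obtain ⟨g, hg⟩ := isConj_iff.1 (one (φ HB.U) (by rw [← map_mul, HB.bas.2.1, map_one])
      fun e => HB.bas.2.2.1 (hi (by rw [e, map_one])))
    obtain ⟨h, hh⟩ := rng (g⁻¹ * z * g) (comm_back (by rw [hg, cz]))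
    obtain ⟨m, m1, m2⟩ : ∃ m, m * z * m⁻¹ = φ HB.U ∧ m * φ HB.U * m⁻¹ = z := by
      rcases HB.fU h (hi (by rw [map_mul, hh, map_one]; simp [mul_assoc, ← mul_assoc z, z2])) with e | e | ⟨k, e⟩
      · rw [e, map_one] at hh
        exact absurd (by simpa [mul_assoc] using congrArg (fun x => g * x * g⁻¹) hh.symm) z1
      · rw [e, hZ] at hh
        refine absurd (hi ?_) HB.bas.2.2.2
        rw [hZ, ← hg]; nth_rewrite 1 [hh]; group
      · exact swap_of cz hg hh e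
    have c1 := HB.c36
    have c2 := HB.c12
    rw [← TE.cnt_eq, ← Set.ncard_image_of_injective _ hi] at c1 c2
    have := Set.ncard_le_ncard_of_injOn (s := φ '' {h | h * HB.U = HB.U * h ∧ h * h = HB.Z})
      (t := φ '' {h | h * HB.U = HB.U * h ∧ h * h = HB.U}) (fun g => m * g * m⁻¹) (by
        rintro _ ⟨h, ⟨e1, e2⟩, rfl⟩
        have a1 := comm_cj m (cz h)
        have a2 := comm_cj m (show φ h * φ HB.U = φ HB.U * φ h by rw [← map_mul, e1, map_mul])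
        rw [m1] at a1; rw [m2] at a2
        obtain ⟨j, hj⟩ := rng _ a2
        refine ⟨j, ⟨hi (by rw [map_mul, map_mul, hj, a1]), hi ?_⟩, hj⟩
        rw [map_mul, hj, ← m1, ← hZ, ← e2, map_mul]; group) (fun a _ b _ e => by simpa using e)
    omega

namespace J3
variable {z : G} {φ : TE gA →* G} (J : J3 z φ)
include J

theorem eq_iff {a b : TE gA} : φ a = φ b ↔ a = b := J.inj.eq_iff
theorem z2 : z * z = 1 := by rw [← J.hz, ← map_mul, basic.1, map_one]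
theorem z1 : z ≠ 1 := fun e => basic.2.1 (J.inj (by rw [J.hz, e, map_one]))
theorem u2 : φ U * φ U = 1 := by rw [← map_mul, basic.2.2.1, map_one]
theorem u1 : φ U ≠ 1 := fun e => basic.2.2.2.1 (J.inj (by rw [e, map_one]))
theorem uz : φ U ≠ z := fun e => basic.2.2.2.2.1 (J.inj (by rw [e, J.hz]))
theorem t2 : φ A * φ A = 1 := by rw [← map_mul, TA.1, map_one]
theorem t1 : φ A ≠ 1 := fun e => TA.2.1 (J.inj (by rw [e, map_one]))
theorem tz : φ A ≠ z := fun e => TA.2.2.1 (J.inj (by rw [e, J.hz]))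
theorem comm_iff {a b : TE gA} : φ a * φ b = φ b * φ a ↔ a * b = b * a := by
  rw [← map_mul, ← map_mul, J.inj.eq_iff]
theorem uzu : φ U * (z * φ U) = z := by rw [← J.cz, ← mul_assoc, J.u2, one_mul]
theorem b3 : φ B * φ B * φ B = 1 := by rw [← map_mul, ← map_mul, b1.1, map_one]
theorem bb : φ B * φ B ≠ 1 := fun e => b1.2.1 (J.inj (by rw [map_mul, e, map_one]))
theorem s2 : φ S * φ S = 1 := by rw [← map_mul, b1.2.2.2.1, map_one]
theorem sus : φ S * φ U * φ S = z * φ U := by rw [← map_mul, ← map_mul, b1.2.2.2.2.1, map_mul, J.hz]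

theorem back {g : G} {t : TE gA} (hg : g * z * g⁻¹ = φ t) (ht : φ t ≠ z) :
    ∃ h, φ h = g⁻¹ * z * g ∧ (h ∈ LU ∨ IsT h) := by
  obtain ⟨h, hh⟩ := J.rng (g⁻¹ * z * g) (comm_back (by rw [hg, J.cz]))
  refine ⟨h, hh, ?_⟩
  by_cases b : h ∈ LU
  · exact Or.inl b
  refine Or.inr ⟨J.inj (by rw [map_mul, hh, map_one]; simp [mul_assoc, ← mul_assoc z, J.z2]), fun e => ?_, fun e => ?_, b⟩
  · rw [e, map_one] at hh
    exact absurd (by simpa [mul_assoc] using congrArg (fun x => g * x * g⁻¹) hh.symm) J.z1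
  · rw [e, J.hz] at hh
    apply ht
    rw [← hg]; nth_rewrite 1 [hh]; group

theorem sqA {g : G} (h1 : g * z = z * g) (h2 : g * φ A = φ A * g) : g * g = 1 := by
  obtain ⟨h, rfl⟩ := J.rng g h1
  rw [← map_mul, (fCA h (J.comm_iff.1 h2)).1, map_one]

theorem swapU : ∃ m, m * z * m⁻¹ = φ U ∧ m * φ U * m⁻¹ = z := by
  obtain ⟨g, hg⟩ := isConj_iff.1 (J.one _ J.u2 J.u1)
  obtain ⟨h, hh, e | e⟩ := J.back hg J.uz
  · obtain ⟨k, hk⟩ := fU h e
    exact swap_of J.cz hg hh hk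
  · exfalso
    obtain ⟨k, hk⟩ := fT h e
    obtain ⟨m, m1, m2⟩ := swap_of J.cz hg hh hk
    have := J.sqA (g := m⁻¹ * φ B * m) (comm_back (by rw [m1]; exact J.comm_iff.2 b1.2.2.1.symm))
      (comm_back (by rw [m2, J.cz]))
    exact J.bb (by simpa [mul_assoc] using congrArg (fun x => m * x * m⁻¹) this)

theorem swapA : ∃ m, m * z * m⁻¹ = φ A ∧ m * φ A * m⁻¹ = z := by
  obtain ⟨g, hg⟩ := isConj_iff.1 (J.one _ J.t2 J.t1)
  obtain ⟨h, hh, e | e⟩ := J.back hg J.tz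
  · exfalso
    obtain ⟨k, hk⟩ := fU h e
    obtain ⟨m, m1, m2⟩ := swap_of J.cz hg hh hk
    have := J.sqA (g := m * φ B * m⁻¹) (m2 ▸ comm_cj m (J.comm_iff.2 b1.2.2.1)) (m1 ▸ comm_cj m (J.cz B))
    exact J.bb (by simpa [mul_assoc] using congrArg (fun x => m⁻¹ * x * m) this)
  · obtain ⟨k, hk⟩ := fT h e
    exact swap_of J.cz hg hh hk

theorem rngV {g : G} (h1 : g * φ U = φ U * g) (h2 : g * (z * φ U) = z * φ U * g) : ∃ h, φ h = g ∧ h * U = U * h := by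
  obtain ⟨h, rfl⟩ := J.rng g (by
    rw [← J.uzu]; exact (mem_Cx.1 (mul_mem (mem_Cx.2 h1.symm) (mem_Cx.2 h2.symm))).symm)
  exact ⟨h, rfl, J.comm_iff.1 h1⟩

theorem rot3 {m : G} (a1 : m * z * m⁻¹ = φ U) (a2 : m * φ U * m⁻¹ = z * φ U) : m * (z * φ U) * m⁻¹ = z := by
  calc _ = (m * z * m⁻¹) * (m * φ U * m⁻¹) := by group
    _ = z := by rw [a1, a2, J.uzu]

theorem cube {m : G} (a1 : m * z * m⁻¹ = φ U) (a2 : m * φ U * m⁻¹ = z * φ U) :
    ∃ h, φ h = m * m * m ∧ h * U = U * h := by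
  have a3 := J.rot3 a1 a2
  obtain ⟨h, hh⟩ := J.rng (m * m * m) (cj2 (by
    calc _ = m * (m * (m * z * m⁻¹) * m⁻¹) * m⁻¹ := by group
      _ = z := by rw [a1, a2, a3]))
  refine ⟨h, hh, J.comm_iff.1 (hh ▸ cj2 ?_)⟩
  calc _ = m * (m * (m * φ U * m⁻¹) * m⁻¹) * m⁻¹ := by group
    _ = φ U := by rw [a2, a3, a1]

theorem cjV {m : G} (a1 : m * z * m⁻¹ = φ U) (a2 : m * φ U * m⁻¹ = z * φ U) {h : TE gA} (e : h * U = U * h) :
    ∃ j, φ j = m * φ h * m⁻¹ ∧ j * U = U * j :=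
  J.rngV (a1 ▸ comm_cj m (J.cz h)) (a2 ▸ comm_cj m (J.comm_iff.2 e))

theorem adj {m : G} (a1 : m * z * m⁻¹ = φ U) (a2 : m * φ U * m⁻¹ = z * φ U) {k : TE gA} (e : k * U = U * k) :
    (φ k)⁻¹ * m * z * ((φ k)⁻¹ * m)⁻¹ = φ U ∧ (φ k)⁻¹ * m * φ U * ((φ k)⁻¹ * m)⁻¹ = z * φ U := by
  have c := J.comm_iff.2 e
  constructor
  · calc _ = (φ k)⁻¹ * (m * z * m⁻¹) * φ k := by group
      _ = _ := by rw [a1, mul_assoc, ← c]; group
  · calc _ = (φ k)⁻¹ * (m * φ U * m⁻¹) * φ k := by group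
      _ = _ := by rw [a2, mul_assoc, mul_assoc, ← c, ← mul_assoc z, ← J.cz]; group

theorem exists_m : ∃ m, m * z * m⁻¹ = φ U ∧ m * φ U * m⁻¹ = z * φ U ∧ m * φ B = φ B * m := by
  obtain ⟨m1, a1, a2⟩ := J.swapU
  have d2 := sinv J.s2
  have b1' : m1 * φ S * z * (m1 * φ S)⁻¹ = φ U := by
    calc _ = m1 * (φ S * z * (φ S)⁻¹) * m1⁻¹ := by group
      _ = _ := by rw [cj1 (J.cz S), a1]
  have b2 : m1 * φ S * φ U * (m1 * φ S)⁻¹ = z * φ U := by
    calc _ = m1 * (φ S * φ U * φ S) * m1⁻¹ := by simp only [mul_inv_rev, d2]; group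
      _ = (m1 * z * m1⁻¹) * (m1 * φ U * m1⁻¹) := by rw [J.sus]; group
      _ = _ := by rw [a1, a2, J.cz]
  generalize m1 * φ S = m at b1' b2
  obtain ⟨y, hy, y1⟩ := J.cjV b1' b2 b1.2.2.1
  obtain ⟨k, k1, k2⟩ := fB y y1 (J.inj (by
    rw [map_mul, map_mul, hy, map_one]
    calc _ = m * (φ B * φ B * φ B) * m⁻¹ := by group
      _ = 1 := by rw [J.b3]; group)) (fun e => J.bb (by
        rw [e, map_one] at hy
        have : φ B = 1 := by simpa [mul_assoc] using congrArg (fun x => m⁻¹ * x * m) hy.symm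
        rw [this, mul_one]))
  obtain ⟨c1, c2⟩ := J.adj b1' b2 k1
  rcases k2 with e | e
  · refine ⟨_, c1, c2, cj2 ?_⟩
    calc _ = (φ k)⁻¹ * (m * φ B * m⁻¹) * φ k := by group
      _ = _ := by rw [← hy, ← e]; simp only [map_mul, map_inv]; group
  · exfalso
    have c3 : (φ k)⁻¹ * m * φ B * ((φ k)⁻¹ * m)⁻¹ = (φ B)⁻¹ := by
      calc _ = (φ k)⁻¹ * (m * φ B * m⁻¹) * φ k := by group
        _ = _ := by rw [← hy, ← e]; simp only [map_mul, map_inv]; group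
    generalize (φ k)⁻¹ * m = n at c1 c2 c3
    obtain ⟨h, hh, h1⟩ := J.cube c1 c2
    refine fB' h h1 (J.inj ?_)
    simp only [map_mul, map_inv, hh]
    calc _ = n * (n * (n * φ B * n⁻¹) * n⁻¹) * n⁻¹ := by group
      _ = n * (n * φ B * n⁻¹)⁻¹ * n⁻¹ := by nth_rewrite 1 [c3]; group
      _ = n * φ B * n⁻¹ := by nth_rewrite 1 [c3]; rw [inv_inv]
      _ = _ := c3

theorem cjW {m : G} (a1 : m * z * m⁻¹ = φ U) (a2 : m * φ U * m⁻¹ = z * φ U) (a3 : m * φ B = φ B * m) {h : TE gA}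
    (hh : h ∈ [A, T1]) : ∃ k ∈ LB, m * φ h * m⁻¹ = φ (k * A * k⁻¹) ∨ m * φ h * m⁻¹ = φ (k * T1 * k⁻¹) := by
  obtain ⟨e1, e2, e3, e4⟩ := fW1.1 h hh
  obtain ⟨j, hj, j1⟩ := J.cjV a1 a2 e1
  rcases fW j j1 (J.inj (by
      rw [map_mul, hj, map_one]
      calc _ = m * φ (h * h) * m⁻¹ := by rw [map_mul]; group
        _ = 1 := by rw [e2]; simp)) (J.inj (by
      simp only [map_mul, hj, map_one]
      rw [← cj1 a3]
      calc _ = m * φ (h * B * (h * B) * (h * B)) * m⁻¹ := by simp only [map_mul]; group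
        _ = 1 := by rw [e3]; simp)) with e | ⟨k, hk, e⟩
  · rw [e, map_one] at hj
    exact absurd (J.inj (by simpa [mul_assoc] using congrArg (fun x => m⁻¹ * x * m) hj.symm)) e4
  · exact ⟨k, hk, e.imp (fun e => by rw [e, hj]) (fun e => by rw [e, hj])⟩

omit J in
theorem cLB {m : G} (a3 : m * φ B = φ B * m) {k : TE gA} (hk : k ∈ LB) : m * φ k = φ k * m := by
  simp only [LB, List.mem_cons, List.not_mem_nil, or_false] at hk
  rcases hk with rfl | rfl | rfl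
  · simp
  · exact a3
  · rw [map_inv]; exact (Commute.inv_right a3 : _)

theorem Vfix {x v : G} (xz : x * z * x⁻¹ = φ U) (xu : x * φ U * x⁻¹ = z * φ U) {h : TE gA} (hv : InV h) (e : φ h = v)
    (c : x * v = v * x) : v = 1 := by
  have c := cj1 c
  subst e
  rcases hv with rfl | rfl | rfl | rfl
  · simp
  · rw [J.hz] at c; exact absurd (xz.symm.trans c) J.uz
  · exact absurd (mul_eq_right.1 (xu.symm.trans c)) J.z1
  · rw [map_mul, J.hz, J.rot3 xz xu] at c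
    exact absurd (left_eq_mul.1 c) J.u1

theorem exists_x0 : ∃ x, x * z * x⁻¹ = φ U ∧ x * φ U * x⁻¹ = z * φ U ∧ x * φ B = φ B * x ∧ x * φ A = φ A * x := by
  obtain ⟨m, a1, a2, a3⟩ := J.exists_m
  obtain ⟨k, hk, e | e⟩ := J.cjW a1 a2 a3 (h := A) (by simp)
  · obtain ⟨c1, c2⟩ := J.adj a1 a2 (fW1.2.2.1 k hk).2.1
    refine ⟨_, c1, c2, ?_, cj2 ?_⟩
    · exact mem_Cx.1 (mul_mem (inv_mem (mem_Cx.2 (J.comm_iff.2 (fW1.2.2.1 k hk).1))) (mem_Cx.2 a3))
    · calc _ = (φ k)⁻¹ * (m * φ A * m⁻¹) * φ k := by group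
        _ = _ := by rw [e]; simp only [map_mul, map_inv]; group
  · exfalso
    obtain ⟨k', hk', e' | e'⟩ := J.cjW a1 a2 a3 (h := T1) (by simp)
    · obtain ⟨v, hv, v1⟩ := J.cube a1 a2
      have c := cLB a3 hk
      have c' := cLB a3 hk'
      refine fW2 v v1 (J.comm_iff.1 (hv ▸ mem_Cx.1 (mul_mem (mul_mem (mem_Cx.2 a3) (mem_Cx.2 a3)) (mem_Cx.2 a3))))
        k hk k' hk' (J.inj ?_)
      simp only [map_mul, map_inv, hv] at e e' ⊢
      calc _ = m * (m * (m * φ A * m⁻¹) * m⁻¹) * m⁻¹ := by group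
        _ = m * ((m * φ k * m⁻¹) * (m * φ T1 * m⁻¹) * (m * φ k * m⁻¹)⁻¹) * m⁻¹ := by rw [e]; group
        _ = (m * φ k * m⁻¹) * (m * φ k' * m⁻¹) * (m * φ A * m⁻¹) * ((m * φ k * m⁻¹) * (m * φ k' * m⁻¹))⁻¹ := by
          rw [e']; nth_rewrite 1 2 [cj1 c]; group
        _ = _ := by rw [cj1 c, cj1 c', e]; group
    · apply fW1.2.1
      have := J.comm_iff.2 ((fW1.2.2.1 k hk).2.2 k' hk').1
      rw [← e, ← e'] at this
      have := comm_cj m⁻¹ this
      exact J.comm_iff.1 (by simpa [mul_assoc] using this)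

end J3

structure J3X (z : G) (φ : TE gA →* G) (x : G) : Prop extends J3 z φ where
  xz : x * z * x⁻¹ = φ U
  xu : x * φ U * x⁻¹ = z * φ U
  xb : x * φ B = φ B * x
  xa : x * φ A = φ A * x
  x3 : x * x * x = 1
  xt : x * φ B * φ T1 = φ T1 * (x * φ B)
  sx : φ S * x * φ S * x * φ B = 1

theorem J3.exists_x {z : G} {φ : TE gA →* G} (J : J3 z φ) : ∃ x, J3X z φ x := by
  have key : ∀ x, x * z * x⁻¹ = φ U → x * φ U * x⁻¹ = z * φ U → x * φ B = φ B * x → x * φ A = φ A * x →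
      x * x * x = 1 ∧ x * φ B * φ T1 = φ T1 * (x * φ B) ∧
        (φ S * x * φ S * x * φ B = 1 ∨ φ S * x * φ S * x * φ B = φ U) := by
    intro x xz xu xb xa
    have sb : φ S * φ B = φ B * φ S := J.comm_iff.2 b1.2.2.2.2.2.1
    have si := sinv J.s2
    have xt : x * φ T1 * x⁻¹ = (φ B)⁻¹ * φ T1 * φ B := by
      obtain ⟨k, hk, e | e⟩ := J.cjW xz xu xb (h := T1) (by simp)
      · exfalso
        apply fW1.2.1
        have := J.comm_iff.2 ((fW1.2.2.1 k hk).2.2 k hk).2.1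
        rw [← e, ← cj1 xa] at this
        have := comm_cj x⁻¹ this
        exact J.comm_iff.1 (by simpa [mul_assoc] using this.symm)
      · have := ((fW1.2.2.1 k hk).2.2 k hk).2.2 (J.inj (by
          rw [map_mul, map_mul, ← e, map_mul, ← xz, ← cj1 xa, ← J.hz]
          calc _ = x * φ (T1 * A * T1) * x⁻¹ := by simp only [map_mul]; group
            _ = _ := by rw [fW1.2.2.2, map_mul]; group))
        rw [e, this]; simp
    refine ⟨?_, cj2 ?_, ?_⟩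
    · obtain ⟨v, hv, v1⟩ := J.cube xz xu
      exact J.Vfix xz xu (fV v v1
        (J.comm_iff.1 (hv ▸ mem_Cx.1 (mul_mem (mul_mem (mem_Cx.2 xb) (mem_Cx.2 xb)) (mem_Cx.2 xb))))
        (J.comm_iff.1 (hv ▸ mem_Cx.1 (mul_mem (mul_mem (mem_Cx.2 xa) (mem_Cx.2 xa)) (mem_Cx.2 xa))))) hv (by group)
    · calc _ = φ B * (x * φ T1 * x⁻¹) * (φ B)⁻¹ := by rw [xb]; group
        _ = _ := by rw [xt]; group
    · have sz : φ S * z * φ S = z := by rw [J.cz, mul_assoc, J.s2, mul_one]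
      have szu : φ S * (z * φ U) * φ S = φ U := by rw [← J.sus]; simp [mul_assoc, ← mul_assoc (φ S) (φ S), J.s2]
      have bu : φ B * φ U * (φ B)⁻¹ = φ U := cj1 (J.comm_iff.2 b1.2.2.1)
      have g1 : φ S * x * φ S * x * φ B * z = z * (φ S * x * φ S * x * φ B) := cj2 (by
        calc _ = φ S * (x * (φ S * (x * (φ B * z * (φ B)⁻¹) * x⁻¹) * φ S) * x⁻¹) * φ S := by
              simp only [mul_inv_rev, si]; group
          _ = z := by rw [cj1 (J.cz B), xz, J.sus, J.rot3 xz xu, sz])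
      have g2 : φ S * x * φ S * x * φ B * φ U = φ U * (φ S * x * φ S * x * φ B) := cj2 (by
        calc _ = φ S * (x * (φ S * (x * (φ B * φ U * (φ B)⁻¹) * x⁻¹) * φ S) * x⁻¹) * φ S := by
              simp only [mul_inv_rev, si]; group
          _ = φ U := by rw [bu, xu, szu, xu, szu])
      have g3 : φ S * x * φ S * x * φ B ∈ Cx(φ B) := mul_mem (mul_mem (mul_mem (mul_mem (mem_Cx.2 sb) (mem_Cx.2 xb))
        (mem_Cx.2 sb)) (mem_Cx.2 xb)) (mem_Cx.2 rfl)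
      have t1 : φ T1 = φ S * φ A * φ S := by simp [T1]
      have g4 : φ S * x * φ S * x * φ B * φ A = φ A * (φ S * x * φ S * x * φ B) := cj2 (by
        calc _ = φ S * (x * (φ S * (x * φ B * x⁻¹) * φ S) * x⁻¹) * (x * (φ S * (x * φ A * x⁻¹) * φ S) * x⁻¹) *
              (x * (φ S * (x * φ B * x⁻¹) * φ S) * x⁻¹)⁻¹ * φ S := by
              simp only [mul_inv_rev, si, mul_assoc, inv_mul_cancel_left, inv_inv, ← mul_assoc (φ S) (φ S), J.s2, one_mul]
          _ = φ A := by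
            rw [cj1 xb, cj1 xa, ← t1, xt, sb, mul_assoc (φ B), J.s2, mul_one, cj1 xb, t1]
            simp only [mul_assoc, mul_inv_cancel_left, ← mul_assoc (φ S) (φ S), J.s2, one_mul, mul_one])
      obtain ⟨v, hv⟩ := J.rng _ g1
      have c : φ S * x * (φ B)⁻¹ * φ v = φ v * (φ S * x * (φ B)⁻¹) := by
        have : φ v = (φ S * x * (φ B)⁻¹) * (φ S * x * (φ B)⁻¹) := by
          rw [hv]
          have b2 : φ B = (φ B)⁻¹ * (φ B)⁻¹ := by rw [← mul_inv_rev, eq_inv_iff_mul_eq_one, ← mul_assoc, J.b3]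
          have c1 : (φ B)⁻¹ * (φ S * x) = φ S * x * (φ B)⁻¹ :=
            (Commute.inv_right (mem_Cx.1 (mul_mem (mem_Cx.2 sb) (mem_Cx.2 xb)) : _) : _).symm
          calc _ = φ S * x * (φ S * x * (φ B)⁻¹) * (φ B)⁻¹ := by nth_rewrite 1 [b2]; group
            _ = _ := by nth_rewrite 1 [← c1]; group
        rw [this]; group
      have c := cj1 c
      rw [← hv]
      have f : ∀ w, φ S * x * (φ B)⁻¹ * w * (φ S * x * (φ B)⁻¹)⁻¹ = φ S * (x * ((φ B)⁻¹ * w * φ B) * x⁻¹) * φ S :=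
        fun w => by simp only [mul_inv_rev, si]; group
      have bz : (φ B)⁻¹ * z * φ B = z := by rw [mul_assoc, ← J.cz]; group
      have bu' : (φ B)⁻¹ * φ U * φ B = φ U := by nth_rewrite 1 [← bu]; group
      rcases fV v (J.comm_iff.1 (hv ▸ g2)) (J.comm_iff.1 (hv ▸ mem_Cx.1 g3)) (J.comm_iff.1 (hv ▸ g4)) with
        rfl | rfl | rfl | rfl
      · exact Or.inl (map_one _)
      · rw [J.hz, f, bz, xz, J.sus] at c
        exact absurd (mul_eq_left.1 c) J.u1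
      · exact Or.inr rfl
      · rw [map_mul, J.hz, f, show (φ B)⁻¹ * (z * φ U) * φ B = ((φ B)⁻¹ * z * φ B) * ((φ B)⁻¹ * φ U * φ B) by group,
          bz, bu', J.rot3 xz xu, sz] at c
        exact absurd (left_eq_mul.1 c) J.u1
  obtain ⟨x, xz, xu, xb, xa⟩ := J.exists_x0
  obtain ⟨x3, xt, e | e⟩ := key x xz xu xb xa
  · exact ⟨x, J, xz, xu, xb, xa, x3, xt, e⟩
  · have y1 : x * z * z * (x * z)⁻¹ = φ U := by rw [← xz]; group
    have y2 : x * z * φ U * (x * z)⁻¹ = z * φ U := by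
      rw [← xu, mul_assoc x, ← J.cz]; group
    have y3 : x * z * φ B = φ B * (x * z) := mem_Cx.1 (mul_mem (mem_Cx.2 xb) (mem_Cx.2 (J.cz B).symm))
    have y4 : x * z * φ A = φ A * (x * z) := mem_Cx.1 (mul_mem (mem_Cx.2 xa) (mem_Cx.2 (J.cz A).symm))
    obtain ⟨x3', xt', -⟩ := key _ y1 y2 y3 y4
    refine ⟨x * z, J, y1, y2, y3, y4, x3', xt', ?_⟩
    calc _ = (φ S * (x * z * x⁻¹) * φ S) * (φ S * φ S)⁻¹ * (φ S * x * φ S * x * φ B) * ((φ B)⁻¹ * z * φ B) := by group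
      _ = 1 := by
        rw [xz, J.sus, J.s2, e, mul_assoc (φ B)⁻¹, ← J.cz B, inv_mul_cancel_left, inv_one, mul_one, mul_assoc z, J.u2,
          mul_one, J.z2]

end CfL
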