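import Cfsg.Agent.OD.Pre
import Cfsg.Agent.L.J1b
import Cfsg.Agent.L.J3b
import Cfsg.Agent.H8.Coprime2
import Cfsg.Agent.OD.Leadx9322901eff
/-! Groups with involution centraliser `2 × A5`: centralisers of elements of order 3 and 5. -/
set_option autoImplicit false
set_option maxRecDepth 100000
open Subgroup CfH9 CfH7 Cfsg
namespace CfL
open JH

variable {G : Type*} [Group G]

def V4 (a b : G) (a2 : a * a = 1) (b2 : b * b = 1) (ab : b * a = a * b) : Subgroup G where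
  carrier := {x | x = 1 ∨ x = a ∨ x = b ∨ x = a * b}
  one_mem' := Or.inl rfl
  mul_mem' := by
    have h1 : ∀ x, a * (a * x) = x := fun x => by rw [← mul_assoc, a2, one_mul]
    have h2 : ∀ x, b * (a * x) = a * (b * x) := fun x => by rw [← mul_assoc, ab, mul_assoc]
    rintro x y (rfl | rfl | rfl | rfl) (rfl | rfl | rfl | rfl) <;> simp [a2, b2, ab, h1, h2, mul_assoc]
  inv_mem' := by
    rintro x (rfl | rfl | rfl | rfl) <;> simp [sinv a2, sinv b2, ab]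

theorem zp2 {a x : G} (a2 : a * a = 1) (hx : x ∈ zpowers a) : x = 1 ∨ x = a := by
  have := (zpowers_le.2 (Or.inr (Or.inl rfl)) : zpowers a ≤ V4 a 1 a2 (by simp) (by simp)) hx
  rcases this with h | h | h | h <;> simp [h]

theorem four_gen [Finite G] {a b : G} (a2 : a * a = 1) (b2 : b * b = 1) (ab : b * a = a * b) (a1 : a ≠ 1) (b1 : b ≠ 1)
    (ne : b ≠ a) {N W : Subgroup G} (hN : (Nat.card N).Coprime 2) (ha : a ∈ Nm(N)) (hb : b ∈ Nm(N))
    (h1 : N ⊓ Cx(a) ≤ W) (h2 : N ⊓ Cx(b) ≤ W) (h3 : N ⊓ Cx(a * b) ≤ W) : N ≤ W := by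
  have h4 : ∀ x, b * (a * x) = a * (b * x) := fun x => by rw [← mul_assoc, ab, mul_assoc]
  have h5 : ∀ x, a * (a * x) = x := fun x => by rw [← mul_assoc, a2, one_mul]
  have sq : ∀ x ∈ V4 a b a2 b2 ab, x * x = 1 := by
    rintro x (rfl | rfl | rfl | rfl) <;> simp [a2, b2, h4, h5, mul_assoc]
  refine CfH8.le_of_noncyclic (A := V4 a b a2 b2 ab) ⟨⟨fun x y => Subtype.ext ?_⟩⟩ ?_
    (CfH8.coprime_card_of_isPGroup' (fun x => ⟨1, Subtype.ext (by simpa [pow_two] using sq _ x.2)⟩) hN).symm ?_ ?_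
  · have := sinv (sq _ (x * y).2)
    rw [coe_mul, mul_inv_rev, sinv (sq _ x.2), sinv (sq _ y.2)] at this
    exact this.symm
  · rintro x (rfl | rfl | rfl | rfl)
    exacts [one_mem _, ha, hb, mul_mem ha hb]
  · rintro ⟨c, hc⟩
    have : ∀ x ∈ V4 a b a2 b2 ab, x = 1 ∨ x = c := fun x hx => by
      obtain ⟨n, hn⟩ := hc ⟨x, hx⟩
      exact zp2 (sq _ c.2) ⟨n, by simpa using congrArg Subtype.val hn⟩
    exact ne (((this b (Or.inr (Or.inr (Or.inl rfl)))).resolve_left b1).trans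
      ((this a (Or.inr (Or.inl rfl))).resolve_left a1).symm)
  · rintro x (rfl | rfl | rfl | rfl) hx
    exacts [absurd rfl hx, h1, h2, h3]

theorem odd_part [Finite G] {t u x : G} (t2 : t * t = 1) (u2 : u * u = 1) (tu : u * t = t * u) (t1 : t ≠ 1) (u1 : u ≠ 1)
    (ne : u ≠ t) (ux : u * x * u⁻¹ = x⁻¹) (hS : SylIn 2 (zpowers t) Cx(x)) :
    (∀ c, c * x = x * c → c * t = t * c) ∨ ∃ w, (w = u ∨ w = t * u) ∧ ∃ D : Subgroup G, D ≤ Cx(x) ∧ D ≤ Cx(w) ∧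
      t ∈ Nm(D) ∧ (∀ d ∈ D, d * d = 1 → d = 1) ∧ ∃ d ∈ D, d ≠ 1 := by
  by_contra hn
  push Not at hn
  obtain ⟨⟨c, h1, h2⟩, hn⟩ := hn
  have hp : PNil 2 Cx(x) := burnside_pNil hS fun n hn => by
    rw [Cz_zpowers, mem_Cx']
    exact (zp2 t2 ((mem_normalizer_iff.1 hn.2 t).1 (mem_zpowers t))).resolve_left (by simpa using t1)
  have tO : t ∈ Nm(pResidualOf 2 Cx(x)) := le_normalizer_pResidualOf _ (hS.le (mem_zpowers t))
  have key : ∀ w, (w = u ∨ w = t * u) → pResidualOf 2 Cx(x) ⊓ Cx(w) ≤ Cx(t) := fun w hw d hd => by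
    rw [hn w hw (pResidualOf 2 Cx(x) ⊓ Cx(w)) (inf_le_left.trans (pResidualOf_le _)) inf_le_right
      (le_normalizer_inf (zpowers_le.2 tO) ((zpowers_le.2 (mem_Cx.2 (by
        rcases hw with rfl | rfl
        · exact tu.symm
        · rw [mul_assoc, tu]))).trans le_normalizer) (mem_zpowers t)) (fun d hd d2 => by
        by_contra d1
        have := coprime_orderOf_of_mem hp hd.1
        rw [orderOf_eq_prime (by rw [pow_two, d2]) d1] at this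
        simp at this) d hd]
    exact one_mem _
  have hO := four_gen t2 u2 tu t1 u1 ne hp tO (by
    rw [mem_normalizer_iff_cj, CfH9.cj_pResidualOf, cj_Cx, ux, ← Cz_zpowers, zpowers_inv, Cz_zpowers])
    inf_le_right (key _ (Or.inl rfl)) (key _ (Or.inr rfl))
  obtain ⟨s, hs, r, hr, rfl⟩ := hS.exists_mul_pResidualOf (mem_Cx.2 h1)
  exact h2 (mem_Cx.1 (mul_mem ((zpowers_le.2 (mem_Cx.2 rfl) : _ ≤ Cx(t)) hs) (hO hr)))

theorem J1.two_comm [Finite G] {t : G} {φ : M →* G} (J : J1 t φ) {Q : Subgroup G} (hQ : IsPGroup 2 Q) {a b : G}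
    (ha : a ∈ Q) (hb : b ∈ Q) : a * b = b * a ∧ a * a = 1 := by
  obtain ⟨k, -, hk⟩ := J.syl.exists_le_cj hQ le_top
  obtain ⟨_, h1, rfl⟩ := mem_cj'.1 (hk ha)
  obtain ⟨_, h2, rfl⟩ := mem_cj'.1 (hk hb)
  obtain ⟨n, hn, rfl⟩ := mem_E.1 h1
  obtain ⟨m, hm, rfl⟩ := mem_E.1 h2
  exact ⟨comm_cj k (cj2 (Ac1.io n hn m hm).2), sq_of_isConj (isConj_mk k rfl) (J1.io2 hn)⟩

theorem Ac1.pow {φ : M →* G} {g : G} {f : ℕ → ℕ} (a : Ac1 φ g f) (i : ℕ) : Ac1 φ (g ^ i) f^[i] := by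
  induction i with
  | zero => exact fun n hn => ⟨hn, by simp⟩
  | succ i ih => rw [pow_succ]; exact ih.mul a

namespace J1G
variable {t g : G} {φ : M →* G} (J : J1G t φ g)
include J

theorem gt : g * t * g⁻¹ = φ U := by rw [← J.i1, ← io_val.2.2.1]; exact (J.ac 1 (by omega)).2
theorem gu : g * φ U * g⁻¹ = φ Y * φ U * (φ Y)⁻¹ := by
  have := (J.ac 2 (by omega)).2
  rwa [io_val.2.2.1, show lin 2 4 3 2 = 4 from rfl, io_val.2.2.2.2.1, V, map_mul, map_mul, map_inv] at this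
theorem gv : g * (φ Y * φ U * (φ Y)⁻¹) * g⁻¹ = t * φ U := by
  have := (J.ac 4 (by omega)).2
  rwa [io_val.2.2.2.2.1, show lin 2 4 3 4 = 3 from rfl, io_val.2.2.2.1, V, map_mul, map_mul, map_inv, map_mul, J.ht] at this
theorem u2 : φ U * φ U = 1 := by rw [← map_mul, rels.2.1, map_one]
theorem s2 : φ S * φ S = 1 := by rw [← map_mul, rels.2.2.1, map_one]
theorem ut : φ U ≠ t := fun e => rels.2.2.2.2.2.2.2.2.1 (J.inj (e.trans J.ht.symm))

theorem cio {n : ℕ} (hn : n < 8) (h0 : n ≠ 0) : ∃ i, g ^ i * t * (g ^ i)⁻¹ = φ (io n) := by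
  obtain ⟨i, -, e⟩ := (by decide : ∀ n < 8, n ≠ 0 → ∃ i < 7, (lin 2 4 3)^[i] 1 = n) n hn h0
  exact ⟨i, by rw [← e, ← (J.ac.pow i 1 (by omega)).2, J.i1]⟩

theorem one [Finite G] (w : G) (w2 : w * w = 1) (w1 : w ≠ 1) : IsConj t w := by
  obtain ⟨k, -, hk⟩ := J.syl.exists_conj_mem (mem_top w) (k := 1) (by simpa [pow_two] using w2)
  obtain ⟨n, hn, e⟩ := mem_E.1 hk
  obtain ⟨i, hi⟩ := J.cio hn (by
    rintro rfl
    rw [io_val.1, map_one] at e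
    exact w1 (by simpa using e.symm))
  exact (isConj_mk _ (hi.trans e)).trans (isConj_mk k rfl).symm

theorem dich [Finite G] {x : M} (hx : x ∈ [X3, X5]) : (∀ c, c * φ x = φ x * c → c * t = t * c) ∨
    (∃ a ∈ c1, φ x * (g * φ a * g⁻¹) = g * φ a * g⁻¹ * φ x) ∨
    ∃ a ∈ c3, φ x * (g ^ 3 * φ a * (g ^ 3)⁻¹) = g ^ 3 * φ a * (g ^ 3)⁻¹ * φ x := by
  obtain ⟨h1, h2⟩ := fX x hx
  have hS : SylIn 2 (zpowers t) Cx(φ x) := ⟨zpowers_le.2 (mem_Cx.2 (J.cz x).symm),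
    isPGroup_zpowers (k := 1) (by simpa [pow_two] using J.t2), fun Q hQ a b q hq => by
      obtain ⟨c, d⟩ := J.two_comm hQ hq (b (mem_zpowers t))
      obtain ⟨h, rfl⟩ := J.rng q c
      rcases h2 h (J.comm_iff.1 (mem_Cx.1 (a hq))) (J.inj (by rw [map_mul, map_mul, d, one_mul, map_one])) with rfl | rfl
      · rw [map_one]; exact one_mem _
      · rw [J.ht]; exact mem_zpowers t⟩
  refine (odd_part J.t2 J.u2 (J.cz U) J.t1 (ne_one_of_isConj (isConj_mk g J.gt) J.t1) J.ut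
    (by rw [sinv J.u2, ← map_mul, ← map_mul, h1, map_inv]) hS).imp_right ?_
  rintro ⟨w, hw, D, d1, d2, d3, d4, d, hd, d5⟩
  have key : ∀ (k : G) (v : M) (c : List M), k * t * k⁻¹ = w → k * φ v * k⁻¹ = t →
      (∀ a : M, a = 1 ∨ a ∈ c ∨ a * a ∈ c ∨ a * a * a ∈ c ∨ a * a * a * a ∈ c ∨ p15 a ≠ 1 ∨
        p15 (a * a * (v * a * v)) ≠ 1 ∨ p15 (a * a * (v * a * v) * a * (v * a * v)) ≠ 1) →
      ∃ a ∈ c, φ x * (k * φ a * k⁻¹) = k * φ a * k⁻¹ * φ x := by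
    intro k v c e1 e2 f
    obtain ⟨a, ha⟩ := J.rng (k⁻¹ * d * k) (comm_back (by rw [e1]; exact (mem_Cx.1 (d2 hd)).symm))
    let D' := D.comap ((MulAut.conj k).toMonoidHom.comp φ)
    have mD : ∀ {b}, b ∈ D' ↔ k * φ b * k⁻¹ ∈ D := Iff.rfl
    have m1 : a ∈ D' := by rw [mD, ha]; simpa [mul_assoc] using hd
    have m2 : v * a * v ∈ D' := by
      have := (mem_normalizer_iff.1 d3 _).1 (mD.1 m1)
      rw [sinv J.t2, ← e2] at this
      simpa [mD, mul_assoc] using this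
    have o : ∀ b ∈ D', ¬ p15 b ≠ 1 := fun b hb h => by
      have m : p15 b ∈ D' := by unfold p15; repeat (first | exact hb | apply mul_mem)
      have := d4 _ (mD.1 m) (sq_of_isConj (isConj_mk k rfl) (by rw [← map_mul, e30, map_one]))
      exact h (J.inj (by simpa using this))
    have fin : ∀ b ∈ D', b ∈ c → ∃ a ∈ c, φ x * (k * φ a * k⁻¹) = k * φ a * k⁻¹ * φ x := fun b hb hc =>
      ⟨b, hc, (mem_Cx.1 (d1 (mD.1 hb))).symm⟩
    have m3 := mul_mem m1 m1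
    rcases f a with h | h | h | h | h | h | h | h
    · rw [h, map_one] at ha
      exact absurd (by simpa [mul_assoc] using congrArg (fun y => k * y * k⁻¹) ha.symm) d5
    exacts [fin _ m1 h, fin _ m3 h, fin _ (mul_mem m3 m1) h, fin _ (mul_mem (mul_mem m3 m1) m1) h, absurd h (o _ m1),
      absurd h (o _ (mul_mem m3 m2)), absurd h (o _ (mul_mem (mul_mem (mul_mem m3 m2) m1) m2))]
  obtain ⟨-, -, -, v3, -, v5, v6⟩ := io_val
  rcases hw with rfl | rfl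
  · exact Or.inl (key g _ _ J.gt (by rw [← v5, (J.ac 5 (by omega)).2]; exact J.i1) f1)
  · refine Or.inr (key (g ^ 3) _ _ ?_ (by rw [← v6, (J.ac.pow 3 6 (by omega)).2]; exact J.i1) f3)
    have := (J.ac.pow 3 1 (by omega)).2
    rwa [J.i1, show (lin 2 4 3)^[3] 1 = 3 from rfl, v3, map_mul, J.ht] at this

omit J in
noncomputable def ev (t g : G) (φ : M →* G) : ℕ → G := fun i => [t, φ U, φ S, φ Y, (φ Y)⁻¹, g, g⁻¹].getD i 1

theorem hinv : ∀ x < 7, ev t g φ (jil.getD x 0) = (ev t g φ x)⁻¹ := by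
  intro x hx
  interval_cases x <;> simp [ev, jil, sinv J.t2, sinv J.u2, sinv J.s2]

theorem rl : φ Y * φ Y * φ Y = 1 ∧ φ U * φ Y * φ U * φ Y * φ U * φ Y = 1 ∧ φ S * φ Y * φ S * φ Y = 1 ∧
    φ S * φ U * φ S * φ U * φ S * φ U = 1 ∧ t * φ U * t * φ U = 1 ∧ t * φ Y * t * (φ Y)⁻¹ = 1 ∧ t * φ S * t * φ S = 1 ∧
    g * g * g * g * g * g * g = 1 ∧ g * t * g⁻¹ * φ U = 1 ∧ g * φ U * g⁻¹ * φ Y * φ U * (φ Y)⁻¹ = 1 ∧
    g * φ Y * φ U * (φ Y)⁻¹ * g⁻¹ * t * φ U = 1 ∧ φ Y * g * (φ Y)⁻¹ * g⁻¹ * g⁻¹ = 1 := by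
  obtain ⟨-, -, -, r1, r2, r3, r4, -⟩ := rels
  have c : ∀ h, t * φ h * t = φ h := fun h => by rw [mul_assoc, J.cz, ← mul_assoc, J.t2, one_mul]
  refine ⟨?_, ?_, ?_, ?_, by rw [c, J.u2], by rw [c]; simp, by rw [c, J.s2], by simpa [pow_succ] using J.g7,
    by rw [J.gt, J.u2], ?_, ?_, by rw [J.yg]; simp⟩
  · simp only [← map_mul, r1, map_one]
  · simp only [← map_mul, r2, map_one]
  · simp only [← map_mul, r3, map_one]
  · simp only [← map_mul, r4, map_one]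
  · rw [J.gu]; simp [mul_assoc, J.u2, ← mul_assoc (φ U)]
  · rw [show g * φ Y * φ U * (φ Y)⁻¹ * g⁻¹ = t * φ U by rw [← J.gv]; group, c, J.u2]

theorem col {r : List ℕ} (cov : ∀ (ev : ℕ → G) (H : Subgroup G), (∀ x < 7, ev (jil.getD x 0) = (ev x)⁻¹) →
    (∀ q ∈ jB ++ [r], CfH6.evw ev q = 1) → (∀ s ∈ [[0], [1], [2], [3]], CfH6.evw ev s ∈ H) →
    CfH6.Covers H (CfH6.gensub ev 7) 1) (h : CfH6.evw (ev t g φ) r = 1) : False := by
  obtain ⟨f, -, h2⟩ := cov (ev t g φ) Cx(t) J.hinv (by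
    rw [List.forall_mem_append]
    refine ⟨?_, by simpa using h⟩
    simpa only [jB, ev, List.forall_mem_cons, CfH6.evw_cons, CfH6.evw_nil, mul_one, List.getD_cons_succ,
      List.getD_cons_zero, ← mul_assoc, List.not_mem_nil, false_imp_iff, implies_true, and_true] using J.rl) (by
    simpa [ev, CfH6.evw_cons, CfH6.evw_nil, mem_Cx] using ⟨J.cz U, J.cz S, J.cz Y⟩)
  obtain ⟨i, hi, h3⟩ := h2 1 (one_mem _)
  obtain ⟨j, hj, h4⟩ := h2 g (CfH6.mem_gensub (x := 5) (by decide))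
  obtain rfl : i = 0 := by omega
  obtain rfl : j = 0 := by omega
  have : g ∈ Cx(t) := by simpa using mul_mem h4 (inv_mem h3)
  exact J.ut (by rw [← J.gt, mem_Cx'.1 this])
end J1G

end CfL
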