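import Cfsg.Agent.OD.Pre
import Cfsg.Agent.L.J1c
/-! Groups with involution centraliser `2 × A5`: the counting argument. -/
set_option autoImplicit false
set_option maxRecDepth 100000
open Subgroup CfH9 CfH7 Cfsg
namespace CfL
open JH

theorem JH.cY2 : ∀ h, h * Y = Y * h → h * h = 1 → h = 1 ∨ h = T := by decide +kernel
theorem JH.Y2 : Y * Y ≠ 1 := by decide +kernel

variable {G : Type*} [Group G]

namespace J1G
variable {t g : G} {φ : M →* G} (J : J1G t φ g)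
include J

theorem comm35 {a : M} (ha : a ∈ [U * S * U * Y, U * Y⁻¹ * U * S, U * S * U * Y⁻¹, U * Y * U * S]) {k : G}
    (C3 : ∀ c, c * φ X3 = φ X3 * c → c * t = t * c) : φ X5 * (k * φ a * k⁻¹) ≠ k * φ a * k⁻¹ * φ X5 := fun h => by
  obtain ⟨m, rfl⟩ := c3' a ha
  have e := comm_back (g := k * φ m) (a := φ X3) (b := φ X5) (by simpa [mul_assoc] using h.symm)
  obtain ⟨b, hb⟩ := J.rng _ (C3 _ e)
  have := congrArg φ (f35 b (J.comm_iff.1 (hb ▸ e)))
  simp only [map_mul, hb, map_one] at this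
  have h6 : φ (X5 * X5 * X5 * (X5 * X5 * X5)) = 1 := by
    simpa [mul_assoc] using congrArg (fun y => k * φ m * y * (k * φ m)⁻¹) this
  rw [x5.1] at h6
  exact x5.2 (J.inj (h6.trans (map_one φ).symm))

theorem cases [Finite G] :
    φ S * φ U * g * φ S * φ U * (φ Y)⁻¹ * g⁻¹ = g * φ S * φ U * (φ Y)⁻¹ * g⁻¹ * φ S * φ U ∨
    ∀ a : M, a * a ≠ 1 → ∀ c, c * φ a = φ a * c → c * t = t * c := by
  have s1 := sinv J.u2
  have s2 := sinv J.s2
  rcases J.dich (x := X3) (by simp) with C3 | ⟨a, ha, h⟩ | ⟨a, ha, h⟩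
  · right
    have C5 : ∀ c, c * φ X5 = φ X5 * c → c * t = t * c := by
      rcases J.dich (x := X5) (by simp) with C5 | ⟨a, ha, h⟩ | ⟨a, ha, h⟩
      · exact C5
      all_goals
        simp only [c1, c3, List.mem_cons, List.not_mem_nil, or_false] at ha
        have h' := mul_inv_eq_one.2 h
        exfalso
        rcases ha with rfl | rfl | rfl | rfl <;> first
          | (refine J.comm35 ?_ C3 h; simp; done)
          | simp only [X5, map_mul, map_inv, mul_inv_rev, inv_inv, s1, s2, pow_succ, pow_zero, one_mul, mul_assoc] at h'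
      · exact J.col (fun a b => jK7_cov a b) (by simpa only [ev, CfH6.evw_cons, CfH6.evw_nil, mul_one, List.getD_cons_succ, List.getD_cons_zero] using h')
      · exact J.col (fun a b => jK8_cov a b) (by simpa only [ev, CfH6.evw_cons, CfH6.evw_nil, mul_one, List.getD_cons_succ, List.getD_cons_zero] using h')
      · exact J.col (fun a b => jK9_cov a b) (by simpa only [ev, CfH6.evw_cons, CfH6.evw_nil, mul_one, List.getD_cons_succ, List.getD_cons_zero] using h')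
      · exact J.col (fun a b => jK10_cov a b) (by simpa only [ev, CfH6.evw_cons, CfH6.evw_nil, mul_one, List.getD_cons_succ, List.getD_cons_zero] using h')
    intro a a2 c hc
    obtain ⟨b, hb, k, h⟩ := (fodd a).resolve_left a2
    have cb : φ b ∈ Cx(c) := by
      simp only [List.mem_cons, List.not_mem_nil, or_false] at hb
      rcases hb with rfl | rfl
      · exact mem_Cx.2 hc.symm
      · rw [map_mul]; exact mul_mem (mem_Cx.2 hc.symm) (mem_Cx.2 hc.symm)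
    have e : ∀ x, k * x * k⁻¹ = b → φ x ∈ Cx((φ k)⁻¹ * c * φ k) := fun x e => mem_Cx.2
      (comm_back (by rw [← map_inv, ← map_mul, ← map_mul, e]; exact mem_Cx.1 cb)).symm
    have f : (φ k)⁻¹ * c * φ k * t = t * ((φ k)⁻¹ * c * φ k) := by
      rcases h with h | h | h
      · exact C3 _ (mem_Cx.1 (e _ h)).symm
      · exact C5 _ (mem_Cx.1 (e _ h)).symm
      · have := e _ h
        refine C5 _ (mem_Cx.1 ?_).symm
        rw [← x5.1, show X5 * X5 * X5 * (X5 * X5 * X5) = X5 * X5 * (X5 * X5) * (X5 * X5) by group, map_mul, map_mul]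
        exact mul_mem (mul_mem this this) this
    have := mul_mem (mul_mem (mem_Cx.2 (J.cz k)) (mem_Cx.2 f)) (inv_mem (mem_Cx.2 (J.cz k)))
    exact mem_Cx.1 (by simpa [mul_assoc] using this)
  all_goals
    simp only [c1, c3, List.mem_cons, List.not_mem_nil, or_false] at ha
    have h' := mul_inv_eq_one.2 h
    rcases ha with rfl | rfl | rfl | rfl <;>
      simp only [X3, map_mul, map_inv, mul_inv_rev, inv_inv, s1, s2, pow_succ, pow_zero, one_mul, mul_assoc] at h h'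
  · exact Or.inl (by simpa only [mul_assoc] using h)
  all_goals exfalso
  · exact J.col (fun a b => jK0_cov a b) (by simpa only [ev, CfH6.evw_cons, CfH6.evw_nil, mul_one, List.getD_cons_succ, List.getD_cons_zero] using h')
  · exact J.col (fun a b => jK1_cov a b) (by simpa only [ev, CfH6.evw_cons, CfH6.evw_nil, mul_one, List.getD_cons_succ, List.getD_cons_zero] using h')
  · exact J.col (fun a b => jK2_cov a b) (by simpa only [ev, CfH6.evw_cons, CfH6.evw_nil, mul_one, List.getD_cons_succ, List.getD_cons_zero] using h')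
  · exact J.col (fun a b => jK3_cov a b) (by simpa only [ev, CfH6.evw_cons, CfH6.evw_nil, mul_one, List.getD_cons_succ, List.getD_cons_zero] using h')
  · exact J.col (fun a b => jK4_cov a b) (by simpa only [ev, CfH6.evw_cons, CfH6.evw_nil, mul_one, List.getD_cons_succ, List.getD_cons_zero] using h')
  · exact J.col (fun a b => jK5_cov a b) (by simpa only [ev, CfH6.evw_cons, CfH6.evw_nil, mul_one, List.getD_cons_succ, List.getD_cons_zero] using h')
  · exact J.col (fun a b => jK6_cov a b) (by simpa only [ev, CfH6.evw_cons, CfH6.evw_nil, mul_one, List.getD_cons_succ, List.getD_cons_zero] using h')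

theorem n31 [Finite G] {w : G} (w2 : w * w = 1) (w1 : w ≠ 1) : {v | (v * v = 1 ∧ v ≠ 1) ∧ v * w = w * v}.ncard = 31 := by
  obtain ⟨k, rfl⟩ := isConj_iff.1 (J.one w w2 w1)
  rw [← JH.n31, ← TE.cnt_eq, ← Set.ncard_image_of_injective _ ((MulAut.conj k).injective.comp J.inj)]
  congr 1
  ext v
  constructor
  · rintro ⟨⟨h1, h2⟩, h3⟩
    obtain ⟨h, e⟩ := J.rng _ (comm_back h3.symm)
    have c : IsConj v (φ h) := isConj_mk k⁻¹ (by rw [e]; simp)
    exact ⟨h, ⟨J.inj (by rw [map_mul, sq_of_isConj c h1, map_one]), fun e' => ne_one_of_isConj c h2 (by rw [e', map_one])⟩,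
      by simp [e, mul_assoc]⟩
  · rintro ⟨h, ⟨h1, h2⟩, rfl⟩
    exact ⟨⟨sq_of_isConj (isConj_mk k rfl) (by rw [← map_mul, h1, map_one]),
      ne_one_of_isConj (isConj_mk k rfl) fun e => h2 (J.inj (by rw [e, map_one]))⟩, comm_cj k (J.cz h)⟩

theorem lower [Finite G] (hC : ∀ a : M, a * a ≠ 1 → ∀ c, c * φ a = φ a * c → c * t = t * c) :
    751 ≤ {v : G | v * v = 1 ∧ v ≠ 1}.ncard := by
  have h24 : ∀ a ∈ {h : M | h * h = 1 ∧ h ≠ 1 ∧ h ≠ T},
      {v | ((v * v = 1 ∧ v ≠ 1) ∧ v * φ a = φ a * v) ∧ v * t ≠ t * v}.ncard = 24 := by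
    rintro a ⟨h1, h2, h3⟩
    have e1 := J.n31 (w := φ a) (by rw [← map_mul, h1, map_one]) fun e => h2 (J.inj (by rw [e, map_one]))
    have e2 := n7 a h1 h2 h3
    rw [← TE.cnt_eq, ← Set.ncard_image_of_injective _ J.inj] at e2
    have := Set.ncard_inter_add_ncard_sdiff_eq_ncard {v | (v * v = 1 ∧ v ≠ 1) ∧ v * φ a = φ a * v} {v | v * t = t * v}
    rw [e1, show {v | (v * v = 1 ∧ v ≠ 1) ∧ v * φ a = φ a * v} ∩ {v | v * t = t * v} = φ '' _ from ?_, e2] at this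
    · exact (by omega : ∀ n, 7 + n = 31 → n = 24) _ this
    ext v
    constructor
    · rintro ⟨⟨⟨b1, b2⟩, b3⟩, b4⟩
      obtain ⟨h, rfl⟩ := J.rng v b4
      exact ⟨h, ⟨⟨J.inj (by rw [map_mul, b1, map_one]), fun e => b2 (by rw [e, map_one])⟩, J.comm_iff.1 b3⟩, rfl⟩
    · rintro ⟨h, ⟨⟨b1, b2⟩, b3⟩, rfl⟩
      exact ⟨⟨⟨by rw [← map_mul, b1, map_one], fun e => b2 (J.inj (by rw [e, map_one]))⟩, J.comm_iff.2 b3⟩, J.cz h⟩
  have e := ncard_pairs _ _ 24 h24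
  rw [TE.cnt_eq, n30] at e
  have := Set.ncard_inter_add_ncard_sdiff_eq_ncard {v : G | v * v = 1 ∧ v ≠ 1} {v | v * t = t * v}
  rw [show ({v : G | v * v = 1 ∧ v ≠ 1} ∩ {v | v * t = t * v}).ncard = 31 from J.n31 J.t2 J.t1] at this
  rw [← this, ← (by norm_num : 31 + 30 * 24 = 751), ← e]
  refine Nat.add_le_add_left (Set.ncard_le_ncard_of_injOn Prod.snd (fun p hp => (Set.mem_sdiff _).2 ⟨hp.2.1.1, hp.2.2⟩) ?_) _
  rintro ⟨a, v⟩ ⟨⟨a2, a1, aT⟩, ⟨-, va⟩, vt⟩ ⟨b, _⟩ ⟨⟨b2, b1, -⟩, ⟨-, vb⟩, -⟩ rfl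
  by_contra ne
  simp only at a2 a1 aT va vt b2 b1 vb
  refine vt (by_contra fun vt => vt (hC (a * b) (fun ab => vt ?_) v (by rw [map_mul, ← mul_assoc, va, mul_assoc, vb, mul_assoc])))
  have c : a * b = b * a := by rw [← sinv ab, mul_inv_rev, sinv a2, sinv b2]
  obtain ⟨k, hk⟩ := isConj_iff.1 (J.one (φ a) (by rw [← map_mul, a2, map_one]) fun e => a1 (J.inj (by rw [e, map_one])))
  obtain ⟨x, hx⟩ := J.rng _ (comm_back (hk ▸ J.comm_iff.2 c))
  obtain ⟨y, hy⟩ := J.rng _ (comm_back (hk ▸ va.symm))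
  obtain ⟨z, hz⟩ := J.rng _ (comm_back (hk ▸ J.cz a))
  have cx : IsConj (φ b) (φ x) := isConj_mk k⁻¹ (by rw [hx]; simp)
  have := J.comm_iff.2 (fC x (J.inj (by rw [map_mul, sq_of_isConj cx (by rw [← map_mul, b2, map_one]), map_one]))
    (fun e => ne_one_of_isConj cx (fun e => b1 (J.inj (by rw [e, map_one]))) (by rw [e, map_one]))
    (fun e => ne (by rw [J.inj (show φ a = φ b by rw [← hk, ← J.ht, ← e, hx]; group)]))
    y (J.comm_iff.1 (by rw [hx, hy]; simpa using comm_cj k⁻¹ vb))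
    z (J.comm_iff.1 (by rw [hx, hz]; simpa using comm_cj k⁻¹ (J.cz b).symm)))
  rw [hy, hz] at this
  simpa [mul_assoc] using comm_cj k this

theorem exists_N : ∃ ψ : JN.N →* G, Function.Injective ψ ∧ ψ JN.T = t ∧ ψ JN.Y = φ Y ∧ ψ JN.Gg = g := by
  obtain ⟨r1, r2, -, -, r5, r6, -, r8, r9, r10, r11, r12⟩ := J.rl
  obtain ⟨ψ, -, h⟩ := TE.exists_hom jN_g (fun i => [t, φ U, φ Y, (φ Y)⁻¹, g, g⁻¹].getD i 1) (by
    intro x hx
    replace hx : x < 6 := hx
    interval_cases x <;> simp [jNil, sinv J.t2, sinv J.u2]) (by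
    simpa only [jNrels, List.forall_mem_cons, CfH6.evw_cons, CfH6.evw_nil, mul_one, List.getD_cons_succ,
      List.getD_cons_zero, ← mul_assoc, List.not_mem_nil, false_imp_iff, implies_true, and_true] using
      ⟨r1, r2, r5, r6, r8, r9, r10, r11, r12⟩)
  have h1 : ψ JN.T = t := h 0 _ (by decide) (by decide +kernel)
  refine ⟨ψ, (injective_iff_map_eq_one ψ).2 fun m hm => (JN.fk m).resolve_right ?_, h1, h 2 _ (by decide) (by decide +kernel),
    h 4 _ (by decide) (by decide +kernel)⟩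
  rintro ⟨k, e⟩
  suffices ψ (k * JN.T * k⁻¹) = 1 from J.t1 (by simpa [h1] using this)
  rcases e with e | e | e | e <;> rw [e] <;> simp [hm, h1, J.t2, mul_assoc, ← mul_assoc t]

theorem not_real [Finite G] (hC : ∀ a : M, a * a ≠ 1 → ∀ c, c * φ a = φ a * c → c * t = t * c) (w : G) :
    w * g * w⁻¹ ≠ g⁻¹ := fun hw => by
  obtain ⟨ψ, hi, h1, h2, h3⟩ := J.exists_N
  have fix : ∀ x, φ Y * x = x * φ Y → x * g * x⁻¹ ≠ g⁻¹ ∧ (x * g = g * x → x = 1) := fun x hx => by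
    obtain ⟨h, rfl⟩ := J.rng x (hC Y Y2 x hx.symm)
    obtain ⟨k, hk, e⟩ : ∃ k ∈ [1, JN.Y, JN.Y⁻¹, JN.T, JN.T * JN.Y, JN.T * JN.Y⁻¹], ψ k = φ h := by
      have := cY h (J.comm_iff.1 hx.symm)
      simp only [List.mem_cons, List.not_mem_nil, or_false] at this
      rcases this with rfl | rfl | rfl | rfl | rfl | rfl <;> simp [h1, h2, J.ht]
    rw [← e, ← h3]
    refine ⟨fun e => (JN.fg k hk).1 (hi (by simpa using e)), fun e => ?_⟩
    rw [(JN.fg k hk).2 (hi (by simpa using e)), map_one]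
  have y3 : φ Y ^ 3 = 1 := by simpa [pow_succ] using J.rl.1
  have g4 : g = φ Y * g ^ 4 * (φ Y)⁻¹ := by
    rw [← conj_pow, J.yg, ← pow_two, ← pow_mul, pow_succ, J.g7, one_mul]
  have g4' : (φ Y)⁻¹ * g * φ Y = g ^ 4 := by nth_rewrite 1 [g4]; group
  have a1 := CfH3.dvd_ncard_of_conj (φ Y) Nat.prime_three y3 {x | x * g * x⁻¹ = g⁻¹} (fun x hx => by
    calc φ Y * x * (φ Y)⁻¹ * g * (φ Y * x * (φ Y)⁻¹)⁻¹ = φ Y * (x * ((φ Y)⁻¹ * g * φ Y) * x⁻¹) * (φ Y)⁻¹ := by group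
      _ = g⁻¹ := by rw [g4', ← conj_pow, hx]; nth_rewrite 2 [g4]; group) fun x hx e => (fix x e).1 hx
  have a2 := CfH3.dvd_ncard_of_conj (φ Y) Nat.prime_three y3 ({x | x * g * x⁻¹ = g} \ {1}) (fun x hx => ⟨by
    calc φ Y * x * (φ Y)⁻¹ * g * (φ Y * x * (φ Y)⁻¹)⁻¹ = φ Y * (x * ((φ Y)⁻¹ * g * φ Y) * x⁻¹) * (φ Y)⁻¹ := by group
      _ = g := by rw [g4', ← conj_pow, hx.1, ← g4], by simpa using hx.2⟩) fun x hx e => hx.2 ((fix x e).2 (cj2 hx.1))
  have a3 := Set.ncard_sdiff_singleton_add_one (s := {x | x * g * x⁻¹ = g}) (a := 1) (by simp)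
  have a4 : {x | x * g * x⁻¹ = g⁻¹} = (fun x => w * x) '' {x | x * g * x⁻¹ = g} := by
    ext x
    constructor
    · exact fun hx => ⟨w⁻¹ * x, by
        change _ = g
        rw [show w⁻¹ * x * g * (w⁻¹ * x)⁻¹ = w⁻¹ * (x * g * x⁻¹) * w by group, hx, ← hw]; group, by simp⟩
    · rintro ⟨y, hy, rfl⟩
      change _ = _
      rw [show w * y * g * (w * y)⁻¹ = w * (y * g * y⁻¹) * w⁻¹ by group, hy, hw]
  rw [a4, Set.ncard_image_of_injective _ (mul_right_injective w)] at a1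
  omega

theorem upper [Finite G] (hC : ∀ a : M, a * a ≠ 1 → ∀ c, c * φ a = φ a * c → c * t = t * c) :
    ∃ m, m * 168 = Nat.card G ∧ {v : G | v * v = 1 ∧ v ≠ 1}.ncard ≤ 210 + m := by
  obtain ⟨ψ, hi, h1, h2, h3⟩ := J.exists_N
  refine ⟨ψ.range.index, by
    rw [← ψ.range.index_mul_card, ← Nat.card_congr (MonoidHom.ofInjective hi).toEquiv, TE.card]; rfl, ?_⟩
  let A : Set G := (fun p : Fin 7 × M => g ^ p.1.1 * φ p.2 * (g ^ p.1.1)⁻¹) ''
    {p | p.1 ∈ Set.univ ∧ p.2 * p.2 = 1 ∧ p.2 ≠ 1 ∧ p.2 ≠ T}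
  have cA : A.ncard ≤ 210 := (Set.ncard_image_le (Set.toFinite _)).trans (by
    rw [ncard_pairs Set.univ (fun (_ : Fin 7) (h : M) => h * h = 1 ∧ h ≠ 1 ∧ h ≠ T) 30 fun _ _ => (TE.cnt_eq _).trans n30]
    simp [Set.ncard_univ])
  have mA : ∀ (i : ℕ) (w : G), w * w = 1 → w ≠ 1 → g ^ i * t * (g ^ i)⁻¹ * w = w * (g ^ i * t * (g ^ i)⁻¹) →
      w ≠ g ^ i * t * (g ^ i)⁻¹ → w ∈ A := fun i w w2 w1 e ne => by
    obtain ⟨h, hh⟩ := J.rng _ (comm_back e)
    have c : IsConj w (φ h) := isConj_mk (g ^ i)⁻¹ (by rw [hh]; simp)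
    refine ⟨(⟨i % 7, Nat.mod_lt _ (by omega)⟩, h), ⟨trivial, J.inj (by rw [map_mul, sq_of_isConj c w2, map_one]),
      fun e : h = 1 => ne_one_of_isConj c w1 (by rw [e, map_one]), fun e : h = T => ne ?_⟩, ?_⟩
    · rw [← J.ht, ← e, hh]; group
    · simp only [← pow_eq_pow_mod i J.g7, hh]; group
  have nB : ∀ w, w * w = 1 → w ≠ 1 → w ∉ A → ∀ k, ψ k * t * (ψ k)⁻¹ * w ≠ w * (ψ k * t * (ψ k)⁻¹) := fun w w2 w1 wA k e => by
    obtain ⟨i, -, e1, e2, e3⟩ := JN.ft k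
    replace e1 := congrArg ψ e1
    replace e2 := hi.ne e2
    replace e3 := congrArg ψ e3
    simp only [map_mul, map_inv, map_pow, h1, h3] at e1 e2 e3
    rw [e1] at e
    by_cases a : w = g ^ i * t * (g ^ i)⁻¹
    · exact wA (mA (i + 1) w w2 w1 (by rw [a, e3]) (by rw [a]; exact e2))
    · exact wA (mA i w w2 w1 e a)
  refine (Set.ncard_le_ncard_sdiff_add_ncard _ A).trans ?_
  rw [add_comm]
  refine Nat.add_le_add cA ?_
  rw [index, ← Set.ncard_univ]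
  refine Set.ncard_le_ncard_of_injOn (fun w => (w : G ⧸ ψ.range)) (fun _ _ => trivial) ?_
  rintro w ⟨⟨w2, w1⟩, wA⟩ v ⟨⟨v2, -⟩, -⟩ e
  obtain ⟨m, hm⟩ := QuotientGroup.eq.1 e
  have iv : w * ψ m * w⁻¹ = (ψ m)⁻¹ := by rw [hm, mul_inv_rev, inv_inv, sinv v2, sinv w2, ← mul_assoc, w2, one_mul]
  have key : ∀ (k a : JN.N), (k * a * k⁻¹ = m ∨ k * a⁻¹ * k⁻¹ = m) →
      (ψ k)⁻¹ * w * ψ k * ψ a * ((ψ k)⁻¹ * w * ψ k)⁻¹ = (ψ a)⁻¹ := by
    rintro k a (rfl | rfl)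
    · simpa [mul_assoc] using congrArg (fun y => (ψ k)⁻¹ * y * ψ k) iv
    · simpa [mul_assoc] using congrArg (fun y => (ψ k)⁻¹ * y⁻¹ * ψ k) iv
  rcases JN.fc m with rfl | ⟨k, e | e⟩
  · exact inv_mul_eq_one.1 (hm.symm.trans (map_one ψ))
  · have e' := congrArg ψ e
    simp only [map_mul, map_inv, h1] at e'
    refine absurd (cj2 ?_).symm (nB w w2 w1 wA k)
    refine Eq.trans ?_ (sinv (sq_of_isConj (isConj_mk (ψ k) rfl) J.t2))
    rw [e']
    calc _ = w * ψ m * w⁻¹ * (w * ψ m * w⁻¹) * (w * ψ m * w⁻¹) := by group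
      _ = _ := by rw [iv]; group
  exfalso
  rcases or_assoc.2 e with e | e
  · have a := key k _ e
    rw [h2] at a
    have b := comm_cj ((ψ k)⁻¹ * w * ψ k) (J.cz Y)
    rw [a] at b
    have b' : _ * φ Y = φ Y * _ := (mem_Cx.1 (inv_mem_iff.1 (mem_Cx.2 b))).symm
    obtain ⟨h, hh⟩ := J.rng _ (hC Y Y2 _ b')
    have c : IsConj t (φ h) := isConj_mk _ hh.symm
    rcases cY2 h (J.comm_iff.1 (hh ▸ b')) (J.inj (by rw [map_mul, sq_of_isConj c J.t2, map_one])) with rfl | rfl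
    · exact ne_one_of_isConj c J.t1 (map_one φ)
    · rw [J.ht] at hh
      exact nB w w2 w1 wA k (by simpa [mul_assoc] using (comm_cj (ψ k) (cj2 hh.symm)).symm)
  · exact J.not_real hC _ (h3 ▸ key k _ e)

theorem rel [Finite G] :
    φ S * φ U * g * φ S * φ U * (φ Y)⁻¹ * g⁻¹ = g * φ S * φ U * (φ Y)⁻¹ * g⁻¹ * φ S * φ U := by
  refine J.cases.resolve_right fun hC => ?_
  have a := J.lower hC
  obtain ⟨m, b, c⟩ := J.upper hC
  have d := ncard_conj_mul ⊤ t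
  rw [top_inf_eq, J.card_H, card_top, show {b | ∃ g ∈ (⊤ : Subgroup G), g * t * g⁻¹ = b} = {v : G | v * v = 1 ∧ v ≠ 1} from
    Set.ext fun v => ⟨fun ⟨k, _, e⟩ => ⟨sq_of_isConj (isConj_mk k e) J.t2, ne_one_of_isConj (isConj_mk k e) J.t1⟩,
      fun h => (isConj_iff.1 (J.one v h.1 h.2)).imp fun _ e => ⟨trivial, e⟩⟩] at d
  omega
end J1G

end CfL
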