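import Cfsg.Agent.OD.Pre
import Cfsg.Agent.L.J3b
import Cfsg.Agent.H4.D8b
/-! Groups of type `J₃`: the normaliser of an elementary subgroup of order 16, and a 3-centraliser. -/
set_option autoImplicit false
set_option maxRecDepth 100000
open Subgroup CfH9 CfH7 Cfsg
namespace CfL
open HA

variable {G : Type*} [Group G]

def Ac (φ : TE gA →* G) (g : G) (f : ℕ → ℕ) : Prop := ∀ n < 16, f n < 16 ∧ g * φ (io n) * g⁻¹ = φ (io (f n))

section
variable {φ : TE gA →* G} {g h : G} {f f' : ℕ → ℕ}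
theorem Ac.mul (a : Ac φ g f) (b : Ac φ h f') : Ac φ (g * h) (fun n => f (f' n)) := fun n hn =>
  ⟨(a _ (b n hn).1).1, by rw [← (a _ (b n hn).1).2, ← (b n hn).2]; group⟩
theorem Ac.inv (a : Ac φ g f) (f' : ℕ → ℕ) (h : ∀ n < 16, f' n < 16 ∧ f (f' n) = n := by decide) : Ac φ g⁻¹ f' :=
  fun n hn => ⟨(h n hn).1, by nth_rewrite 1 [← (h n hn).2]; rw [← (a _ (h n hn).1).2]; group⟩
theorem Ac.of4 (hf : ∀ a < 16, f a < 16 ∧ ∀ b < 16, f (a ^^^ b) = f a ^^^ f b)
    (h1 : g * φ (io 1) * g⁻¹ = φ (io (f 1))) (h2 : g * φ (io 2) * g⁻¹ = φ (io (f 2)))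
    (h4 : g * φ (io 4) * g⁻¹ = φ (io (f 4))) (h8 : g * φ (io 8) * g⁻¹ = φ (io (f 8))) : Ac φ g f := by
  have X : ∀ (a b c : ℕ), g * φ (io a) * g⁻¹ = φ (io (f a)) → g * φ (io b) * g⁻¹ = φ (io (f b)) →
      (a < 16 ∧ b < 16 ∧ a ^^^ b = c) → g * φ (io c) * g⁻¹ = φ (io (f c)) := by
    rintro a b _ e1 e2 ⟨ha, hb, rfl⟩
    rw [(hf a ha).2 b hb, io_xor a ha b hb, io_xor _ (hf a ha).1 _ (hf b hb).1, map_mul, map_mul, ← e1, ← e2]; group
  have h0 := X 1 1 0 h1 h1 (by decide)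
  have h3 := X 1 2 3 h1 h2 (by decide)
  have h5 := X 1 4 5 h1 h4 (by decide)
  have h6 := X 2 4 6 h2 h4 (by decide)
  have h7 := X 3 4 7 h3 h4 (by decide)
  intro n hn
  refine ⟨(hf n hn).1, ?_⟩
  interval_cases n
  exacts [h0, h1, h2, h3, h4, h5, h6, h7, h8, X 1 8 9 h1 h8 (by decide), X 2 8 10 h2 h8 (by decide),
    X 3 8 11 h3 h8 (by decide), X 4 8 12 h4 h8 (by decide), X 5 8 13 h5 h8 (by decide), X 6 8 14 h6 h8 (by decide),
    X 7 8 15 h7 h8 (by decide)]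
theorem Ac.ofH {k : TE gA} (h : ∀ n < 16, k * io n * k⁻¹ = io (f n)) (hf : ∀ n < 16, f n < 16 := by decide) :
    Ac φ (φ k) f := fun n hn => ⟨hf n hn, by rw [← h n hn]; simp⟩
theorem Ac.io (m : ℕ) (hm : m < 16) : Ac φ (φ (io m)) (fun n => n) := fun n hn => ⟨hn, cj1 (by
  rw [← map_mul, ← io_xor m hm n hn, Nat.xor_comm, io_xor n hn m hm, map_mul])⟩
end

namespace J3X
variable {z x : G} {φ : TE gA →* G} (J : J3X z φ x)
include J

theorem i0 : φ (io 0) = 1 := by rw [io_val.1, map_one]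
theorem i1 : φ (io 1) = z := by rw [io_val.2.1, J.hz]
omit J in
theorem i2 : φ (io 2) = φ U := by rw [io_val.2.2.1]
theorem i3 : φ (io 3) = z * φ U := by rw [io_val.2.2.2.1, map_mul, J.hz]
omit J in
theorem i4 : φ (io 4) = φ A := by rw [io_val.2.2.2.2.1]
omit J in
theorem i8 : φ (io 8) = φ B * φ A * (φ B)⁻¹ := by rw [io_val.2.2.2.2.2.1]; simp

theorem acx : Ac φ x (lin 2 3 4 8) := Ac.of4 (by decide) (by rw [J.i1, J.xz]; exact i2.symm)
  (by rw [i2, J.xu]; exact J.i3.symm) (by rw [i4, cj1 J.xa]; exact i4.symm) (by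
    change _ = φ (io 8)
    rw [i8]
    exact cj1 (mem_Cx.1 (mul_mem (mul_mem (mem_Cx.2 J.xb.symm) (mem_Cx.2 J.xa.symm)) (inv_mem (mem_Cx.2 J.xb.symm)))).symm)

theorem inE {g : G} (h1 : g * z = z * g) (h2 : g * φ A = φ A * g) : ∃ n < 16, φ (io n) = g := by
  obtain ⟨h, rfl⟩ := J.rng g h1
  obtain ⟨n, hn, rfl⟩ := fE h (J.comm_iff.1 h2)
  exact ⟨n, hn, rfl⟩

theorem inE' {g : G} {f : ℕ → ℕ} (a : Ac φ g f) (h : f 1 = 1 ∧ f 4 = 4 := by decide) : ∃ n < 16, φ (io n) = g := by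
  have a1 := (a 1 (by omega)).2
  have a4 := (a 4 (by omega)).2
  rw [h.1, J.i1] at a1
  rw [h.2, i4] at a4
  exact J.inE (cj2 a1) (cj2 a4)

theorem triv {g : G} {f : ℕ → ℕ} (a : Ac φ g f) (c : g ∈ Cx(x * φ B)) (h : f 1 = 1 ∧ f 4 = 4 := by decide) : g = 1 := by
  obtain ⟨n, hn, rfl⟩ := J.inE' a h
  have b := J.acx.mul (Ac.ofH acB) n hn
  rw [cj1 (mem_Cx.1 c).symm] at b
  have := io_inj _ hn _ b.1 (J.inj b.2)
  have h0 : ∀ n < 16, n = lin 2 3 4 8 (lin 1 2 8 12 n) → n = 0 := by decide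
  rw [h0 n hn this, J.i0]

theorem exists_w0 : ∃ w, Ac φ w (lin 4 8 1 2) := by
  obtain ⟨m, m1, m2⟩ := J.swapA
  have e2 : ∀ n < 16, m * (m * φ (io n) * m⁻¹) * m⁻¹ = φ (io n) := fun n hn => by
    obtain ⟨k, hk, e⟩ := J.inE (g := m * m) (cj2 (by rw [← m2]; nth_rewrite 2 [← m1]; rw [m2]; group))
      (cj2 (by rw [← m1]; nth_rewrite 2 [← m2]; rw [m1]; group))
    calc _ = (m * m) * φ (io n) * (m * m)⁻¹ := by group
      _ = _ := by rw [← e]; exact (Ac.io k hk n hn).2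
  obtain ⟨h, hh⟩ := J.rng (m⁻¹ * x * m) (comm_back (by rw [m1, J.xa]))
  have hu := J.comm_iff.2 (fN h (J.comm_iff.1 (by
    have : φ (h * A * h⁻¹) = m⁻¹ * φ U * m := by
      simp only [map_mul, map_inv, hh]
      rw [← J.xz, ← m2]; group
    rw [this]
    exact comm_back (by rw [m2, J.cz]))))
  obtain ⟨n, hn, e⟩ := J.inE (g := m * φ U * m⁻¹) (m2 ▸ comm_cj m (J.comm_iff.2 AU.symm)) (m1 ▸ comm_cj m (J.cz U))
  have c : x * φ (io n) * x⁻¹ = φ (io n) := by
    rw [e]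
    calc _ = m * (φ h * φ U * (φ h)⁻¹) * m⁻¹ := by rw [hh]; group
      _ = _ := by rw [cj1 hu]
  have c2 := io_inj _ (J.acx n hn).1 _ hn (J.inj ((J.acx n hn).2.symm.trans c))
  have h0 : ∀ n < 16, lin 2 3 4 8 n = n → n = 0 ∨ n = 4 ∨ n = 8 ∨ n = 12 := by decide
  have p1 : m * φ (io 1) * m⁻¹ = φ (io 4) := by rw [J.i1, m1, i4]
  have p4 : m * φ (io 4) * m⁻¹ = φ (io 1) := by rw [J.i1, i4, m2]
  have p2 : m * φ (io 2) * m⁻¹ = φ (io n) := by rw [i2, e]
  have pn : m * φ (io n) * m⁻¹ = φ (io 2) := by rw [← p2, e2 2 (by omega)]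
  rcases h0 n hn c2 with rfl | rfl | rfl | rfl
  · rw [J.i0] at e
    exact absurd (by simpa [mul_assoc] using congrArg (fun x => m⁻¹ * x * m) e.symm) J.u1
  · rw [i4, ← m1] at e
    exact absurd (by simpa using e.symm) J.uz
  · exact ⟨m, Ac.of4 (by decide) p1 p2 p4 pn⟩
  · exfalso
    have a : Ac φ m (lin 4 12 1 3) := Ac.of4 (by decide) p1 p2 p4 (by
      rw [show (8 : ℕ) = 4 ^^^ 12 by decide, io_xor 4 (by omega) 12 (by omega), map_mul]
      change _ = φ (io 3)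
      rw [show (3 : ℕ) = 1 ^^^ 2 by decide, io_xor 1 (by omega) 2 (by omega), map_mul, ← p4, ← pn]; group)
    have t : Ac φ (φ T1) _ := Ac.ofH acT
    have b := (((a.mul t).mul a).mul t).mul a
    have b1 := (b 1 (by omega)).2
    have b2 := (b 2 (by omega)).2
    have b4 := (b 4 (by omega)).2
    change _ = φ (io 1) at b1
    change _ = φ (io 3) at b2
    change _ = φ (io 5) at b4
    rw [J.i1] at b1
    obtain ⟨k, hk⟩ := J.rng _ (cj2 b1)
    rw [← hk] at b2 b4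
    rw [i4] at b4
    have := J.comm_iff.2 (fN k (by
      rw [J.inj (show φ (k * A * k⁻¹) = φ (io 5) by rw [← b4]; simp)]; exact io_val.2.2.2.2.2.2 5 (by omega)))
    rw [i2, cj1 this, J.i3] at b2
    exact J.z1 (right_eq_mul.1 b2)

theorem exists_w : ∃ w, Ac φ w (lin 4 8 1 2) ∧ w ∈ Cx(x * φ B) := by
  obtain ⟨m, a⟩ := J.exists_w0
  have c := J.acx.mul (Ac.ofH acB)
  obtain ⟨n, hn, e⟩ := J.inE' (((a.mul c).mul (a.inv (lin 4 8 1 2))).mul (c.inv (lin 3 1 12 4)))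
  obtain ⟨k, hk, e2⟩ := (by decide : ∀ n < 16, ∃ k < 16, k ^^^ (n ^^^ lin 2 3 4 8 (lin 1 2 8 12 k)) = 0) n hn
  refine ⟨φ (io k) * m, (Ac.io k hk).mul a, mem_Cx.2 (cj2 ?_)⟩
  have k2 : φ (io k) * φ (io k) = 1 := by rw [← map_mul, ← io_xor k hk k hk, Nat.xor_self, J.i0]
  have := congrArg (fun n => φ (io n)) e2
  simp only [J.i0] at this
  rw [io_xor _ hk _ (Nat.xor_lt_two_pow (n := 4) hn (c k hk).1), io_xor _ hn _ (c k hk).1, map_mul, map_mul,
    ← (c k hk).2, e] at this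
  calc _ = (φ (io k) * (m * (x * φ B) * m⁻¹ * (x * φ B)⁻¹ * (x * φ B * φ (io k) * (x * φ B)⁻¹))) * (x * φ B) *
        (φ (io k) * φ (io k))⁻¹ := by group
    _ = _ := by rw [this, k2]; group

end J3X

structure J3W (z : G) (φ : TE gA →* G) (x w : G) : Prop extends J3X z φ x where
  w2 : w * w = 1
  wx : w * x * w * (φ B)⁻¹ = 1
  wz : w * z * w * φ A = 1
  wt : w * φ T1 * (w * φ T1) * (w * φ T1) = 1
  w5 : (w * φ (B * T1 * B⁻¹)) ^ 5 = 1
  wu : w * φ U * w = φ B * φ A * (φ B)⁻¹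

theorem J3X.j3w {z x : G} {φ : TE gA →* G} (J : J3X z φ x) : ∃ w, J3W z φ x w := by
  obtain ⟨w, a, c⟩ := J.exists_w
  have cx : x ∈ Cx(x * φ B) := mem_Cx.2 (by rw [mul_assoc, J.xb])
  have cb : φ B ∈ Cx(x * φ B) := mem_Cx.2 (by rw [← mul_assoc, J.xb])
  have ct : φ T1 ∈ Cx(x * φ B) := mem_Cx.2 J.xt.symm
  have w2 : w * w = 1 := J.triv (a.mul a) (mul_mem c c)
  have t : Ac φ (φ T1) _ := Ac.ofH acT
  have t' := a.mul (Ac.ofH (φ := φ) acT')
  have ct' : w * φ (B * T1 * B⁻¹) ∈ Cx(x * φ B) := by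
    rw [map_mul, map_mul, map_inv]; exact mul_mem c (mul_mem (mul_mem cb ct) (inv_mem cb))
  refine ⟨w, J, w2, J.triv (((a.mul J.acx).mul a).mul ((Ac.ofH acB).inv (lin 1 2 12 4)))
    (mul_mem (mul_mem (mul_mem c cx) c) (inv_mem cb)), ?_,
    J.triv (((a.mul t).mul (a.mul t)).mul (a.mul t)) (mul_mem (mul_mem (mul_mem c ct) (mul_mem c ct)) (mul_mem c ct)),
    ?_, ?_⟩
  · have := (a 1 (by omega)).2
    change _ = φ (io 4) at this
    rw [J.i1, J3X.i4, sinv w2] at this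
    rw [this, J.t2]
  · have := J.triv ((((t'.mul t').mul t').mul t').mul t') (mul_mem (mul_mem (mul_mem (mul_mem ct' ct') ct') ct') ct')
    simpa only [pow_succ, pow_zero, one_mul] using this
  · have := (a 2 (by omega)).2
    change _ = φ (io 8) at this
    rwa [J3X.i2, J3X.i8, sinv w2] at this

def N3 (b : G) (b3 : b * b * b = 1) : Subgroup Cx(b) where
  carrier := {g | (g : G) = 1 ∨ (g : G) = b ∨ (g : G) = b⁻¹}
  one_mem' := Or.inl rfl
  mul_mem' := by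
    have e1 : b * b = b⁻¹ := eq_inv_of_mul_eq_one_left b3
    have e2 : b⁻¹ * b⁻¹ = b := by rw [← mul_inv_rev, e1, inv_inv]
    rintro g h (a | a | a) (c | c | c) <;> simp only [Set.mem_ofPred_eq, coe_mul, a, c] <;> simp [e1, e2]
  inv_mem' := by rintro g (a | a | a) <;> simp only [Set.mem_ofPred_eq, coe_inv, a] <;> simp

theorem N3_comm {b : G} {b3 : b * b * b = 1} {n : Cx(b)} (hn : n ∈ N3 b b3) (g : Cx(b)) : g * n = n * g := by
  have c : Commute (g : G) b := mem_Cx.1 g.2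
  apply Subtype.ext
  rcases hn with e | e | e <;> simp only [coe_mul, e]
  exacts [by simp, c, c.inv_right]

instance (b : G) (b3 : b * b * b = 1) : (N3 b b3).Normal := ⟨fun n hn g => by rwa [cj1 (N3_comm hn g)]⟩

theorem N3_lift {b : G} {b3 : b * b * b = 1} (bb : b * b ≠ 1) {g h : Cx(b)} (g2 : (g : G) * g = 1) (h2 : (h : G) * h = 1)
    (e : QuotientGroup.mk' (N3 b b3) g = QuotientGroup.mk' (N3 b b3) h) : (g : G) = h := by
  have m : g⁻¹ * h ∈ N3 b b3 := QuotientGroup.eq.1 e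
  have c := congrArg Subtype.val (N3_comm m g)
  have s : ((g⁻¹ * h : Cx(b)) : G) * (g⁻¹ * h : Cx(b)) = 1 := by
    simp only [coe_mul, coe_inv] at c ⊢
    rw [sinv g2] at c ⊢
    rw [← mul_assoc, ← c, ← mul_assoc (g : G), g2, one_mul, h2]
  rcases m with e | e | e
  · exact inv_mul_eq_one.1 e
  · exact absurd (e ▸ s) bb
  · rw [e, ← mul_inv_rev, inv_eq_one] at s; exact absurd s bb

open DihedralGroup in
theorem J3W.rel [Finite G] {z x w : G} {φ : TE gA →* G} (J : J3W z φ x w) :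
    w * φ S * w * φ S * w = (φ C * (x * (φ B)⁻¹) * φ C)⁻¹ * (x * (φ B)⁻¹)⁻¹ * φ S * (x * (φ B)⁻¹) * (φ C * (x * (φ B)⁻¹) * φ C) ∨
    φ S * (w * φ S * w * φ S * w) * φ S =
      (φ C * (x * (φ B)⁻¹) * φ C)⁻¹ * (x * (φ B)⁻¹)⁻¹ * φ S * (x * (φ B)⁻¹) * (φ C * (x * (φ B)⁻¹) * φ C) := by
  obtain ⟨-, -, -, -, -, sb, c2, cb, cs, cu, zu, su⟩ := b1
  replace sb := J.comm_iff.2 sb
  replace c2 := congrArg φ c2
  replace cb := congrArg φ cb
  replace cs := congrArg φ cs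
  replace cu := congrArg φ cu
  replace su := congrArg φ su
  have t1 : φ T1 = φ S * φ A * φ S := by simp [T1]
  have wt := J.wt
  have w5 := J.w5
  simp only [map_mul, map_one, map_inv, J.hz, t1] at c2 cb cs cu su wt w5
  have s2 := J.s2
  have w2 := J.w2
  have ub : φ U * φ B = φ B * φ U := J.comm_iff.2 b1.2.2.1.symm
  have cz := J.cz C
  have zb := (J.cz B).symm
  have xb := J.xb
  have wx : w * x * w = φ B := mul_inv_eq_one.1 J.wx
  have wz : w * z * w = φ A := (eq_inv_of_mul_eq_one_left J.wz).trans (sinv J.t2)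
  have sx : φ S * x * φ S = (x * φ B)⁻¹ := eq_inv_of_mul_eq_one_left (by rw [← J.sx]; group)
  have wu := J.wu
  have xz := J.xz
  have xu := J.xu
  have b3 := J.b3
  have bb := J.bb
  have u2 := J.u2
  have z2 := J.z2
  have dv := dl_val
  generalize hs : φ S = s at *
  generalize hc : φ C = c at *
  generalize hu : φ U = u at *
  generalize ha : φ A = a at *
  generalize hb : φ B = b at *
  have S2 : ∀ g, s * (s * g) = g := fun g => by rw [← mul_assoc, s2, one_mul]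
  have W2 : ∀ g, w * (w * g) = g := fun g => by rw [← mul_assoc, w2, one_mul]
  have C2 : ∀ g, c * (c * g) = g := fun g => by rw [← mul_assoc, c2, one_mul]
  have si := sinv s2
  have wi := sinv w2
  have ci := sinv c2
  have wb : w * b * w = x := by rw [← wx]; simp [mul_assoc, W2, w2]
  have wc : w * (x * b)⁻¹ * w = (x * b)⁻¹ := by
    calc _ = ((w * x * w) * (w * w)⁻¹ * (w * b * w))⁻¹ * (w * w) := by rw [w2]; simp [mul_assoc, W2, wi]
      _ = _ := by rw [wx, wb, w2, xb]; group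
  have sc : s * (x * b)⁻¹ * s = x := by rw [← sx]; simp [mul_assoc, S2, s2]
  have sbs : s * b * s = b := by rw [sb, mul_assoc, s2, mul_one]
  have mw : w * s * w * s * w ∈ Cx(b) := mem_Cx.2 (cj2 (by
    calc _ = w * (s * (w * (s * (w * b * w) * s) * w) * s) * w := by simp only [mul_inv_rev, si, wi, mul_assoc]
      _ = b := by rw [wb, sx, wc, sc, wx]))
  have mk : x * b⁻¹ ∈ Cx(b) := mul_mem (mem_Cx.2 xb) (inv_mem (mem_Cx.2 rfl))
  have ml : c * (x * b⁻¹) * c ∈ Cx(b) := mem_Cx.2 (cj2 (by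
    calc _ = c * (x * b⁻¹ * (c * b * c) * (x * b⁻¹)⁻¹) * c := by simp only [mul_inv_rev, ci, mul_assoc]
      _ = c * (x * b * x⁻¹)⁻¹ * c := by rw [cb]; group
      _ = (c * b * c)⁻¹ := by rw [cj1 xb]; simp only [mul_inv_rev, ci, mul_assoc]
      _ = b := by rw [cb, inv_inv]))
  obtain ⟨z', hz'⟩ : ∃ z' : Cx(b), (z' : G) = z := ⟨⟨z, mem_Cx.2 zb⟩, rfl⟩
  obtain ⟨u', hu'⟩ : ∃ u' : Cx(b), (u' : G) = u := ⟨⟨u, mem_Cx.2 ub⟩, rfl⟩
  obtain ⟨s', hs'⟩ : ∃ s' : Cx(b), (s' : G) = s := ⟨⟨s, mem_Cx.2 sb⟩, rfl⟩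
  obtain ⟨k', hk'⟩ : ∃ k' : Cx(b), (k' : G) = x * b⁻¹ := ⟨⟨_, mk⟩, rfl⟩
  obtain ⟨l', hl'⟩ : ∃ l' : Cx(b), (l' : G) = c * (x * b⁻¹) * c := ⟨⟨_, ml⟩, rfl⟩
  obtain ⟨w', hw'⟩ : ∃ w' : Cx(b), (w' : G) = w * s * w * s * w := ⟨⟨_, mw⟩, rfl⟩
  set π := QuotientGroup.mk' (N3 b b3) with hπ
  have lift := fun {g h : Cx(b)} => N3_lift (b3 := b3) bb (g := g) (h := h)
  have kz : x * b⁻¹ * z * (x * b⁻¹)⁻¹ = u := by rw [← xz, mul_assoc x, (Commute.inv_right zb).symm]; group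
  have ku : x * b⁻¹ * u * (x * b⁻¹)⁻¹ = z * u := by rw [← xu, mul_assoc x, (Commute.inv_right ub).symm]; group
  have bi : b⁻¹ * b⁻¹ = b := by rw [← mul_inv_rev, eq_comm, eq_inv_iff_mul_eq_one, ← mul_assoc, b3]
  have sk : s * (x * b⁻¹) * s * (x * b⁻¹) = 1 := by
    calc _ = (s * x * s) * (s * s)⁻¹ * (s * b * s)⁻¹ * (s * s) * x * b⁻¹ := by rw [s2]; simp [mul_assoc, S2, si]
      _ = b⁻¹ * (x⁻¹ * b⁻¹ * x) * b⁻¹ := by rw [sx, sbs, s2]; group
      _ = 1 := by rw [mul_assoc x⁻¹, (Commute.inv_right xb).symm, inv_mul_cancel_left, bi, mul_inv_cancel]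
  have czc : c * z * c = z := by rw [cz, mul_assoc, c2, mul_one]
  have r1 : z' * z' = 1 := Subtype.ext (by simp [hz', z2])
  have r2 : u' * u' = 1 := Subtype.ext (by simp [hu', u2])
  have r3 : s' * s' = 1 := Subtype.ext (by simp [hs', s2])
  have r4 : w' * w' = 1 := Subtype.ext (by simp [hw', mul_assoc, W2, S2, w2])
  have r5 : z' * u' = u' * z' := Subtype.ext (by simp [hz', hu', ← hu, J.cz])
  have r6 : s' * u' * s' * u' = z' := Subtype.ext (by simp [hz', hu', hs', su])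
  have r7 : k' * z' * k'⁻¹ = u' := Subtype.ext (by simp only [coe_mul, coe_inv, hz', hu', hk', kz])
  have r8 : k' * u' * k'⁻¹ = z' * u' := Subtype.ext (by simp only [coe_mul, coe_inv, hz', hu', hk', ku])
  have r9 : s' * k' * s' * k' = 1 := Subtype.ext (by simp only [coe_mul, coe_one, hs', hk', sk])
  have r10 : l' * z' * l'⁻¹ = s' := Subtype.ext (by
    simp only [coe_mul, coe_inv, hz', hs', hl']
    calc _ = c * (x * b⁻¹ * (c * z * c) * (x * b⁻¹)⁻¹) * c := by simp only [mul_inv_rev, ci, mul_assoc]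
      _ = s := by rw [czc, kz, cu])
  have r11 : l' * s' * l'⁻¹ = z' * s' := Subtype.ext (by
    simp only [coe_mul, coe_inv, hz', hs', hl']
    calc _ = c * (x * b⁻¹ * (c * s * c) * (x * b⁻¹)⁻¹) * c := by simp only [mul_inv_rev, ci, mul_assoc]
      _ = (c * z * c) * (c * u * c) := by rw [cs, ku]; simp only [mul_assoc, C2]
      _ = z * s := by rw [czc, cu])
  have r12 : u' * l' * u' * l' = 1 := Subtype.ext (by
    simp only [coe_mul, coe_one, hu', hl']
    calc _ = c * (s * (x * b⁻¹) * s * (x * b⁻¹)) * c := by rw [← cs]; simp only [mul_assoc, C2]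
      _ = 1 := by rw [sk, mul_one, c2])
  have r13 : w' * k' * w' * k' = 1 := Subtype.ext (by
    simp only [coe_mul, coe_one, hw', hk']
    have := (Commute.inv_right (mem_Cx.1 mw)).eq
    calc _ = w * (s * (w * (s * (w * x * w) * s) * w) * s) * w * (w * s * w * s * w)⁻¹ *
          (b⁻¹ * (w * s * w * s * w)) * (x * b⁻¹) := by simp only [mul_inv_rev, si, wi, mul_assoc, S2, W2]
      _ = b⁻¹ * (x⁻¹ * b⁻¹ * x) * b⁻¹ := by rw [wx, sbs, wb, sx, wc, ← this]; group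
      _ = 1 := by rw [mul_assoc x⁻¹, (Commute.inv_right xb).symm, inv_mul_cancel_left, bi, mul_inv_cancel])
  have r14 : w' * z' * (w' * z') * (w' * z') = 1 := Subtype.ext (by
    simp only [coe_mul, coe_one, hw', hz']
    calc _ = w * s * (w * (s * (w * z * w) * s) * (w * (s * (w * z * w) * s)) * (w * (s * (w * z * w) * s))) * s * w := by
          simp only [mul_assoc, S2, W2, w2, mul_one]
      _ = 1 := by rw [wz, wt, mul_one, mul_assoc w, s2, mul_one, w2])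
  have r15 : (w' * u') ^ 5 = 1 := Subtype.ext (by
    simp only [coe_mul, coe_one, coe_pow, hw', hu']
    have : w * s * w * s * w * u = w * s * (w * (b * (s * a * s) * b⁻¹)) * (w * s)⁻¹ := by
      calc _ = w * s * w * s * (w * u * w) * s * (w * s)⁻¹ := by simp only [mul_inv_rev, si, wi, mul_assoc, S2, W2, w2, mul_one]
        _ = w * s * w * (s * b) * a * (b⁻¹ * s) * (w * s)⁻¹ := by rw [wu]; group
        _ = _ := by rw [sb, (Commute.inv_right sb).symm]; group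
    rw [this, conj_pow, w5]; group)
  have z1 : π z' ≠ 1 := fun e => J.z1 (hz' ▸ lift (h := 1) (by simp [hz', z2]) (by simp) (by rw [e, map_one]))
  have u1 : π u' ≠ 1 := fun e => J.u1 (hu.trans (hu' ▸ lift (h := 1) (by simp [hu', u2]) (by simp) (by rw [e, map_one])))
  have uz : π u' ≠ π z' := fun e => J.uz (hu.trans (hu' ▸ hz' ▸ lift (by simp [hu', u2]) (by simp [hz', z2]) e))
  have mem : ∀ m, φ (dl m) ∈ Cx(b) := fun m => mem_Cx.2 (hb ▸ J.comm_iff.2 (dv.2.2.2.1 m))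
  let ψ : CfH4.D4 →* Cx(b) ⧸ N3 b b3 := π.comp ((φ.comp dl).codRestrict _ mem)
  have p1 : ψ (r 2) = π z' := congrArg π (Subtype.ext (by simp [dv.1, J.hz, hz']))
  have p2 : ψ (sr 0) = π u' := congrArg π (Subtype.ext (by simp [dv.2.1, hu, hu']))
  have p3 : ψ (sr 1) = π s' := congrArg π (Subtype.ext (by simp [dv.2.2.1, hs, hs']))
  have cm : CfH4.CM ψ (r 2) := by
    refine ⟨(injective_iff_map_eq_one _).2 fun m hm => ?_, by decide, fun g hg => ?_⟩
    · rcases (QuotientGroup.eq_one_iff _).1 hm with e | e | e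
      · exact dv.2.2.2.2 m 1 (by simp [LB]) (J.inj (by rw [map_one]; exact e))
      · exact dv.2.2.2.2 m B (by simp [LB]) (J.inj (by rw [hb]; exact e))
      · exact dv.2.2.2.2 m B⁻¹ (by simp [LB]) (J.inj (by rw [map_inv, hb]; exact e))
    · obtain ⟨g, rfl⟩ := QuotientGroup.mk'_surjective _ g
      rw [p1] at hg
      have := lift (g := g * z' * g⁻¹) (h := z') (by simp [hz', mul_assoc, ← mul_assoc z, z2]) (by simp [hz', z2])
        (by rw [map_mul, map_mul, map_inv]; exact cj1 hg)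
      simp only [coe_mul, coe_inv, hz'] at this
      obtain ⟨h, hh⟩ := J.rng g (cj2 this)
      obtain ⟨m, k, hk, rfl⟩ := fCB h (J.comm_iff.1 (by rw [hh, hb]; exact mem_Cx.1 g.2))
      refine ⟨m, QuotientGroup.eq.2 ?_⟩
      change ((φ (dl m))⁻¹ * g = 1 ∨ (φ (dl m))⁻¹ * g = b ∨ (φ (dl m))⁻¹ * g = b⁻¹)
      rw [← hh, map_mul, inv_mul_cancel_left]
      simp only [LB, List.mem_cons, List.not_mem_nil, or_false] at hk
      rcases hk with rfl | rfl | rfl <;> simp [hb]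
  rcases cm.d8_both (by rw [p1, p2, ← r7]; exact isConj_mk (π k') (by simp))
    (by rw [p1, p3, ← r10]; exact isConj_mk (π l') (by simp)) with ⟨⟨e⟩⟩ | ⟨⟨e⟩⟩
  · exfalso
    haveI : Fact (Nat.Prime 5) := ⟨by norm_num⟩
    have := orderOf_dvd_natCard (π (w' * u'))
    rw [orderOf_eq_prime (p := 5) (by rw [← map_pow, r15, map_one]) (fun h => ?_), Nat.card_congr e.toEquiv,
      CfH4.card_SL32] at this
    · norm_num at this
    · rw [map_mul, mul_eq_one_iff_eq_inv, ← map_inv, sinv r2] at h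
      have h : w' = u' := Subtype.ext (lift (congrArg Subtype.val r4) (congrArg Subtype.val r2) h)
      rw [h, ← r5, show z' * u' * (z' * u') = 1 by rw [mul_assoc, ← mul_assoc u', ← r5, mul_assoc, r2, mul_one, r1],
        one_mul, mul_eq_one_iff_eq_inv, sinv r2] at r14
      exact uz (by rw [r14])
  · have q : ∀ {g h : Cx(b)}, g = h → π g = π h := fun h => congrArg π h
    have sq : ((l'⁻¹ * k'⁻¹ * s' * k' * l' : Cx(b)) : G) * (l'⁻¹ * k'⁻¹ * s' * k' * l' : Cx(b)) = 1 := by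
      simp [hs', mul_assoc, S2]
    rcases A6.rel e (z := π z') (u := π u') (s := π s') (k := π k') (l := π l') (w := π w') (by simpa using q r1) z1
      (by simpa using q r2) u1 uz (by simpa using q r5) (by simpa using q r3) (by simpa using q r6) (by simpa using q r7)
      (by simpa using q r8) (by simpa using q r9) (by simpa using q r10) (by simpa using q r11) (by simpa using q r12)
      (by simpa using q r4) (by simpa using q r13) (by simpa using q r14) with h | h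
    · left
      have := lift (congrArg Subtype.val r4) sq (by simpa only [map_mul, map_inv] using h)
      simpa only [coe_mul, coe_inv, hw', hs', hk', hl'] using this
    · right
      have := lift (g := s' * w' * s') (by simp [hs', hw', mul_assoc, S2, W2, s2]) sq (by simpa only [map_mul, map_inv] using h)
      simpa only [coe_mul, coe_inv, hw', hs', hk', hl'] using this

end CfL
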