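import Cfsg.Agent.OD.Pre
import Cfsg.Agent.L.J3c
import Cfsg.Agent.L.SE
/-! Groups of type `J₃`: a subgroup of the right order is the whole group. -/
set_option autoImplicit false
set_option maxRecDepth 100000
open Subgroup CfH9 CfH7 Cfsg
namespace CfL
open HA

theorem odd_norm {P : Type*} [Group P] [Finite P] {p : ℕ} [hp : Fact p.Prime] {g : P} (hg : orderOf g = p)
    (hs : ¬ p ^ 2 ∣ Nat.card P) {B : ℕ} (h : ∀ D ≤ Nm(zpowers g), Odd (Nat.card D) → Nat.card D ≤ B)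
    (D : Subgroup P) (hD : Odd (Nat.card D)) (hpD : p ∣ Nat.card D) :
    ∃ n k, n ≤ B ∧ p ∣ n ∧ n * k = Nat.card D ∧ k ≡ 1 [MOD p] := by
  obtain ⟨S, hS⟩ := exists_sylIn p D
  have h1 : SylIn p (zpowers g) ⊤ := sylIn_top_iff.2 ⟨IsPGroup.of_card (n := 1) (by rw [Nat.card_zpowers, hg, pow_one]),
    fun e => hs (by rw [← (zpowers g).card_mul_index, Nat.card_zpowers, hg, pow_two]; exact mul_dvd_mul_left _ e)⟩
  have h2 : p ∣ Nat.card S := by
    rw [hS.card_eq_multiplicity]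
    exact dvd_pow_self _ (hp.out.factorization_pos_of_dvd Nat.card_pos.ne' hpD).ne'
  obtain ⟨k, -, hk⟩ := (h1.of_card_le hS.pgrp le_top (by
    rw [Nat.card_zpowers, hg]; exact Nat.le_of_dvd Nat.card_pos h2)).conj h1
  have h3 := CfH4.index_Nm_modEq hS.subgroupOf_top
  have h4 := (Nm(S.subgroupOf D)).card_mul_index
  have h5 : Nm(S.subgroupOf D) = (Nm(S)).subgroupOf D := (subgroupOf_normalizer_eq hS.le).symm
  have h6 : Nat.card Nm(S.subgroupOf D) = Nat.card (cj k (D ⊓ Nm(S))) := by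
    rw [card_cj, h5, ← card_subgroupOf (inf_le_left (a := D) (b := Nm(S))), inf_subgroupOf_left]
  refine ⟨_, _, ?_, ?_, h4, h3⟩
  · rw [h6]
    refine h _ (by rw [← hk, ← cj_normalizer]; exact cj_mono _ inf_le_right) ?_
    rw [card_cj]; exact hD.of_dvd_nat (card_dvd_of_le inf_le_left)
  · rw [h6, card_cj]; exact h2.trans (card_dvd_of_le (le_inf hS.le le_normalizer))

variable {G : Type*} [Group G]

theorem J3.card_H {z : G} {φ : TE gA →* G} (J : J3 z φ) : Nat.card Cx(z) = 1920 := by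
  have : φ.range = Cx(z) := by
    ext g
    exact ⟨fun ⟨h, e⟩ => e ▸ mem_Cx.2 (J.cz h), fun hg => J.rng g (mem_Cx.1 hg)⟩
  rw [← this, ← Nat.card_congr (MonoidHom.ofInjective J.inj).toEquiv, TE.card]
  rfl

theorem J3W.top [Finite G] [IsSimpleGroup G] {z x w : G} {φ : TE gA →* G} (J : J3W z φ x w)
    {P : Type*} [Group P] [Finite P] (ρ : P →* G) (hi : Function.Injective ρ) (hc : Nat.card P = 50232960)
    (hH : ∀ h, φ h ∈ ρ.range) (hx : x ∈ ρ.range) (hw : w ∈ ρ.range) {g : P} (hg : orderOf g = 17)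
    (h68 : ∀ D ≤ Nm(zpowers g), Odd (Nat.card D) → Nat.card D ≤ 68) : Function.Surjective ρ := by
  by_contra hn
  have cM : Nat.card ρ.range = 50232960 := by rw [← hc, Nat.card_congr (MonoidHom.ofInjective hi).toEquiv]
  have cz : Cx(z) ≤ ρ.range := fun g hg => by obtain ⟨h, rfl⟩ := J.rng g (mem_Cx.1 hg); exact hH h
  have zM : z ∈ ρ.range := cz (mem_Cx.2 rfl)
  have fus : ∀ s ∈ ρ.range, IsConj z s → ∃ m ∈ ρ.range, m * z * m⁻¹ = s := by
    intro s hs c
    have s2 := sq_of_isConj c J.z2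
    have a := ncard_conj_mul ρ.range z
    rw [inf_eq_right.2 cz, J.card_H, cM] at a
    obtain ⟨_, ⟨m, hm, rfl⟩, e⟩ : ∃ v ∈ {b | ∃ g ∈ ρ.range, g * z * g⁻¹ = b}, s * v = v * s := by
      by_contra h
      have := CfH3.dvd_ncard_of_conj s Nat.prime_two (by rw [pow_two, s2]) {b | ∃ g ∈ ρ.range, g * z * g⁻¹ = b}
        (by rintro _ ⟨m, hm, rfl⟩; exact ⟨s * m, mul_mem hs hm, by group⟩) (fun v hv e => h ⟨v, hv, e⟩)
      omega
    obtain ⟨h, hh⟩ := J.rng (m⁻¹ * s * m) (comm_back e.symm)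
    have key : ∀ k : G, k ∈ ρ.range → k * z * k⁻¹ = φ h → ∃ m ∈ ρ.range, m * z * m⁻¹ = s := fun k hk e =>
      ⟨m * k, mul_mem hm hk, by rw [show m * k * z * (m * k)⁻¹ = m * (k * z * k⁻¹) * m⁻¹ by group, e, hh]; group⟩
    by_cases a : h = Z
    · exact key 1 (one_mem _) (by simp [a, J.hz])
    by_cases b : h ∈ LU
    · obtain ⟨k, rfl⟩ := fU h b
      exact key (φ k * x) (mul_mem (hH k) hx) (by simp only [map_mul, map_inv, ← J.xz]; group)
    · have c' : IsConj s (φ h) := isConj_mk m⁻¹ (by rw [hh]; simp)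
      obtain ⟨k, rfl⟩ := fT h ⟨J.inj (by rw [map_mul, sq_of_isConj c' s2, map_one]),
        fun e => ne_one_of_isConj (c.trans c') J.z1 (by rw [e, map_one]), a, b⟩
      have wz : w * z * w⁻¹ = φ A := by rw [sinv J.w2]; exact (eq_inv_of_mul_eq_one_left J.wz).trans (sinv J.t2)
      exact key (φ k * w) (mul_mem (hH k) hw) (by simp only [map_mul, map_inv, ← wz]; group)
  have hC : ∀ g, g * z * g⁻¹ ∈ ρ.range → g ∈ ρ.range := fun g hg => by
    obtain ⟨m, hm, e⟩ := fus _ hg (isConj_mk g rfl)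
    refine (mul_mem_cancel_left (inv_mem hm)).1 (cz (mem_Cx'.2 ?_))
    rw [show m⁻¹ * g * z * (m⁻¹ * g)⁻¹ = m⁻¹ * (g * z * g⁻¹) * m by group, ← e]; group
  obtain ⟨t, ht⟩ : ∃ t, t ∉ ρ.range := by
    by_contra h
    exact hn fun y => by simpa using not_exists.1 h y
  obtain ⟨D, hD, odd, e⟩ := se_odd ρ.range zM J.z2 hC (fun s _ => J.one s) (isConj_mk t rfl) (fun h => ht (hC t h))
  rw [J.card_H, cM] at e
  have d1 : Nat.card (D ⊓ Cx(z) : Subgroup G) ∣ 1920 := J.card_H ▸ card_dvd_of_le inf_le_right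
  have d2 : Odd (Nat.card (D ⊓ Cx(z) : Subgroup G)) := odd.of_dvd_nat (card_dvd_of_le inf_le_left)
  have d3 : Nat.card (D ⊓ Cx(z) : Subgroup G) ∣ 15 :=
    (Nat.Coprime.pow_right 7 d2.coprime_two_right).dvd_of_dvd_mul_left d1
  have cD : Nat.card (D.comap ρ) = Nat.card D := by
    rw [← card_map_of_injective hi, map_comap_eq_self hD]
  haveI : Fact (Nat.Prime 17) := ⟨by norm_num⟩
  obtain ⟨n, k, n1, ⟨j, rfl⟩, n3, n4⟩ := odd_norm hg (by rw [hc]; norm_num) h68 (D.comap ρ) (cD ▸ odd) (by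
    rw [cD]; omega)
  rw [cD] at n3
  have := Nat.le_of_dvd (by norm_num) d3
  unfold Nat.ModEq at n4
  generalize Nat.card (D ⊓ Cx(z) : Subgroup G) = d at *
  have hj : j ≤ 4 := by omega
  rw [← n3] at e
  interval_cases j <;> interval_cases d <;> omega

end CfL
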