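import Cfsg.Agent.OD.Pre
import Cfsg.Agent.L.J1d
import Cfsg.Agent.L.J3d
import Cfsg.Agent.H6.J1P
/-! Groups with involution centraliser `2 × A5` are isomorphic to the presented group of order 175560. -/
set_option autoImplicit false
set_option maxRecDepth 100000
open Subgroup CfH9 CfH7 Cfsg
namespace CfL
open JH

variable {G : Type*} [Group G]

theorem J1G.top [Finite G] {t g : G} {φ : M →* G} (J : J1G t φ g)
    {P : Type*} [Group P] [Finite P] (ρ : P →* G) (hi : Function.Injective ρ) (hc : Nat.card P = 175560)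
    (hH : ∀ h, φ h ∈ ρ.range) (hx : g ∈ ρ.range) {g0 : P} (hg : orderOf g0 = 7)
    (h42 : ∀ D ≤ Nm(zpowers g0), Odd (Nat.card D) → Nat.card D ≤ 42) : Function.Surjective ρ := by
  by_contra hn
  have cM : Nat.card ρ.range = 175560 := by rw [← hc, Nat.card_congr (MonoidHom.ofInjective hi).toEquiv]
  have cz : Cx(t) ≤ ρ.range := fun g hg => by obtain ⟨h, rfl⟩ := J.rng g (mem_Cx.1 hg); exact hH h
  have zM : t ∈ ρ.range := cz (mem_Cx.2 rfl)
  have fus : ∀ s ∈ ρ.range, IsConj t s → ∃ m ∈ ρ.range, m * t * m⁻¹ = s := by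
    intro s hs c
    have s2 := sq_of_isConj c J.t2
    have a := ncard_conj_mul ρ.range t
    rw [inf_eq_right.2 cz, J.card_H, cM] at a
    obtain ⟨_, ⟨m, hm, rfl⟩, e⟩ : ∃ v ∈ {b | ∃ g ∈ ρ.range, g * t * g⁻¹ = b}, s * v = v * s := by
      by_contra h
      have := CfH3.dvd_ncard_of_conj s Nat.prime_two (by rw [pow_two, s2]) {b | ∃ g ∈ ρ.range, g * t * g⁻¹ = b}
        (by rintro _ ⟨m, hm, rfl⟩; exact ⟨s * m, mul_mem hs hm, by group⟩) (fun v hv e => h ⟨v, hv, e⟩)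
      omega
    obtain ⟨h, hh⟩ := J.rng (m⁻¹ * s * m) (comm_back e.symm)
    have c' : IsConj s (φ h) := isConj_mk m⁻¹ (by rw [hh]; simp)
    obtain ⟨k, n, hn, rfl⟩ := fI h (J.inj (by rw [map_mul, sq_of_isConj c' s2, map_one]))
    obtain ⟨i, e⟩ := J.cio hn (by
      rintro rfl
      exact ne_one_of_isConj (c.trans c') J.t1 (by simp [io_val.1]))
    refine ⟨m * φ k * g ^ i, mul_mem (mul_mem hm (hH k)) (pow_mem hx i), ?_⟩
    rw [map_mul, map_mul, map_inv, ← e] at hh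
    rw [show s = m * (m⁻¹ * s * m) * m⁻¹ by group, ← hh]; group
  have hC : ∀ g, g * t * g⁻¹ ∈ ρ.range → g ∈ ρ.range := fun g hg => by
    obtain ⟨m, hm, e⟩ := fus _ hg (isConj_mk g rfl)
    refine (mul_mem_cancel_left (inv_mem hm)).1 (cz (mem_Cx'.2 ?_))
    rw [show m⁻¹ * g * t * (m⁻¹ * g)⁻¹ = m⁻¹ * (g * t * g⁻¹) * m by group, ← e]; group
  obtain ⟨y, hy⟩ : ∃ t, t ∉ ρ.range := by
    by_contra h
    exact hn fun y => by simpa using not_exists.1 h y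
  obtain ⟨D, hD, odd, e⟩ := se_odd ρ.range zM J.t2 hC (fun s _ => J.one s) (isConj_mk y rfl) (fun h => hy (hC y h))
  rw [J.card_H, cM] at e
  have d1 : Nat.card (D ⊓ Cx(t) : Subgroup G) ∣ 120 := J.card_H ▸ card_dvd_of_le inf_le_right
  have d2 : Odd (Nat.card (D ⊓ Cx(t) : Subgroup G)) := odd.of_dvd_nat (card_dvd_of_le inf_le_left)
  have d3 : Nat.card (D ⊓ Cx(t) : Subgroup G) ∣ 15 :=
    (Nat.Coprime.pow_right 3 d2.coprime_two_right).dvd_of_dvd_mul_left d1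
  have cD : Nat.card (D.comap ρ) = Nat.card D := by
    rw [← card_map_of_injective hi, map_comap_eq_self hD]
  haveI : Fact (Nat.Prime 7) := ⟨by norm_num⟩
  obtain ⟨n, k, n1, ⟨j, rfl⟩, n3, n4⟩ := odd_norm hg (by rw [hc]; norm_num) h42 (D.comap ρ) (cD ▸ odd) (by
    rw [cD]; omega)
  rw [cD] at n3
  have := Nat.le_of_dvd (by norm_num) d3
  unfold Nat.ModEq at n4
  generalize Nat.card (D ⊓ Cx(t) : Subgroup G) = d at *
  have hj : j ≤ 6 := by omega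
  rw [← n3] at e
  interval_cases j <;> interval_cases d <;> omega

theorem J1G.iso [Finite G] {t g : G} {φ : M →* G} (J : J1G t φ g) : Spor.IsoJ1 G := by
  obtain ⟨r1, r2, r3, r4, -, -, -, r8, r9, r10, r11, r12⟩ := J.rl
  obtain ⟨ρ, e0, e1, e2, e3, e5⟩ := CfH6.J1P.hom t (φ U) (φ S) (φ Y) g J.t2 J.u2 J.s2 r1 r2 r3 r4 (J.cz _).symm (J.cz _).symm
    (J.cz _).symm r8 r9 r10 r11 r12 J.rel
  have := CfH6.J1P.simple
  have := CfH6.J1P.fin
  have hi := CfH6.inj_of_simple ρ (g := CfH6.J1P.el 0) (by rw [e0]; exact J.t1)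
  obtain ⟨g0, hg, h42⟩ := CfH6.J1P.syl7
  have hs := J.top ρ hi CfH6.J1P.card (fun h => by
    rw [← gen_wl h]
    refine CfH6.evw_mem (K := ρ.range.comap φ) (k := 5) (fun x hx => ?_) (jH_g.w_spec h.2).1
    interval_cases x
    exacts [⟨_, e0.trans J.ht.symm⟩, ⟨_, e1⟩, ⟨_, e2⟩, ⟨_, e3⟩, inv_mem (show Y ∈ ρ.range.comap φ from ⟨_, e3⟩)]) ⟨_, e5⟩ hg h42
  obtain ⟨f⟩ := CfH6.J1P.isoJ1
  exact ⟨(MulEquiv.ofBijective ρ ⟨hi, hs⟩).symm.trans f⟩

end CfL
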