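import Cfsg.Agent.OD.Pre
import Cfsg.Agent.L.J2g
import Cfsg.Agent.H6.J2P
/-! Groups of Hall-Janko type are isomorphic to the presented group. -/
set_option autoImplicit false
open Subgroup
namespace CfL
variable {G : Type*} [Group G]

theorem JS.iso {z : G} {φ : TE gA →* G} (J : JS z φ) [Finite G] : Nonempty (CfH6.J2P.P ≃* G) := by
  obtain ⟨hc, ev, h1, h2, h3⟩ := J.gens
  obtain ⟨ρ, hρ⟩ := CfH6.J2B.hhom ev h1 h2
  have := CfH6.J2P.simple
  have := CfH6.J2P.fin
  have hi := CfH6.inj_of_simple ρ (g := CfH6.J2B.el 0) (by rw [hρ 0 (by decide), h3]; exact J.z1)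
  exact ⟨MulEquiv.ofBijective ρ (hi.bijective_of_nat_card_le (by rw [hc, CfH6.J2P.card]))⟩

theorem fact604800 : Nat.factorization 604800 7 = 1 ∧ Nat.factorization 604800 5 = 2 ∧ Nat.factorization 604800 3 = 3 := by
  refine ⟨?_, ?_, ?_⟩ <;> rw [Nat.factorization_def _ (by norm_num)] <;> decide +kernel

theorem isConj_equiv {G' : Type*} [Group G'] (e : G ≃* G') {a b : G} : IsConj (e a) (e b) ↔ IsConj a b :=
  ⟨fun h => by simpa using e.symm.toMonoidHom.map_isConj h, fun h => e.toMonoidHom.map_isConj h⟩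

theorem eq_of_prime_card {p : ℕ} (hp : p.Prime) {X Y : Subgroup G} (hX : Nat.card X = p) (hY : Nat.card Y = p)
    {a : G} (h1 : a ∈ X) (h2 : a ∈ Y) (h3 : a ≠ 1) : X = Y := by
  have : Fact p.Prime := ⟨hp⟩
  have key : ∀ Z : Subgroup G, Nat.card Z = p → a ∈ Z → Z = zpowers a := fun Z hZ h => by
    have : Finite Z := Nat.finite_of_card_ne_zero (hZ ▸ hp.ne_zero)
    refine (eq_of_le_of_card_ge (zpowers_le.2 h) ?_).symm
    rcases hp.eq_one_or_self_of_dvd _ (hZ ▸ card_dvd_of_le (zpowers_le.2 h)) with e | e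
    · exact absurd (zpowers_eq_bot.1 (card_eq_one.1 e)) h3
    · rw [e, hZ]
  rw [key X hX h1, key Y hY h2]

end CfL
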