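import Cfsg.Agent.OD.Pre
import Cfsg.Agent.H6.J2P
/-! Word identities in the presented group of order 604800. -/
set_option autoImplicit false
namespace CfL
attribute [local instance] CfH6.J2A.act
theorem j2one (ws : List (List ℕ)) (h : CfH6.chkRels' 320 CfH6.J2A.nets0 8 CfH6.J2A.bs ws = true) :
    ∀ w ∈ ws, CfH6.evw CfH6.J2P.el w = 1 := CfH6.J2P.L0.rels_one' CfH6.J2P.base ws h
end CfL
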