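import Cfsg.Agent.OD.Pre
import Cfsg.Agent.L.J3d
import Cfsg.Agent.H6.J3P
import Cfsg.Agent.OD.Leadxe21bb7ea1a
/-! Groups of type `J₃` are isomorphic to the presented group. -/
set_option autoImplicit false
set_option maxRecDepth 100000
open Subgroup CfH9 CfH7 Cfsg
namespace CfL
open HA

theorem HA.gen_wl : ∀ a : TE gA, CfH6.evw gen (hA.wl a.1) = a := by decide +kernel

variable {G : Type*} [Group G]

theorem hA_mem {φ : TE gA →* G} {K : Subgroup G} (hz : φ Z ∈ K) (hp : φ (.mk gA 2) ∈ K) (hq : φ (.mk gA 3) ∈ K)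
    (hr : φ (.mk gA 4) ∈ K) (hs : φ S ∈ K) (hu : φ U ∈ K) (ha : φ A ∈ K) (hc : φ C ∈ K) (hb : φ B ∈ K) (h : TE gA) :
    φ h ∈ K := by
  rw [← gen_wl h]
  refine CfH6.evw_mem (K := K.comap φ) (k := 10) (fun x hx => ?_) (gA.w_spec h.2).1
  interval_cases x
  exacts [hz, hp, hq, hr, hs, hu, ha, hc, hb, inv_mem (show B ∈ K.comap φ from hb)]

theorem J3W.com {z x w : G} {φ : TE gA →* G} (J : J3W z φ x w) :
    CfH6.J3P.Com z (φ (.mk gA 2)) (φ (.mk gA 3)) (φ (.mk gA 4)) (φ S) (φ U) (φ A) (φ C) (φ B) x w := by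
  have k : ∀ {a b : TE gA}, a = b → φ a = φ b := fun h => congrArg φ h
  have hz := J.hz
  have wt := J.wt
  have xu := J.xu
  have xz := J.xz
  constructor
  case r8 => exact J.w2
  case r42 => exact J.x3
  case r43 => rw [xz, J.u2]
  case r44 => rw [xu, mul_assoc z, J.cz, ← mul_assoc, J.z2, one_mul, J.u2]
  case r45 => exact J.xa
  case r46 => exact J.xb
  case r47 => exact J.sx
  case r48 => exact J.wx
  case r49 => exact J.wz
  case r50 => simpa only [T1, map_mul, mul_assoc] using wt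
  all_goals (subst hz; simp only [← map_mul, ← map_inv]; first | (rw [← map_one φ]; exact k (by decide +kernel)) | exact k (by decide +kernel))

theorem J3.iso [Finite G] [IsSimpleGroup G] {z : G} {φ : TE gA →* G} (J : J3 z φ) :
    ∃ ρ : CfH6.J3P.P →* G, Function.Bijective ρ := by
  obtain ⟨x, J⟩ := J.exists_x
  obtain ⟨w, J⟩ := J.j3w
  have c2 : φ C * φ C = 1 := J.com.r7
  have ci : (φ C)⁻¹ = φ C := inv_eq_of_mul_eq_one_left c2
  have xb : φ B * x⁻¹ = x⁻¹ * φ B := by rw [eq_inv_mul_iff_mul_eq, ← mul_assoc, J.xb, mul_inv_cancel_right]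
  have s2 := J.s2
  have w2 := J.w2
  have si : (φ S)⁻¹ = φ S := inv_eq_of_mul_eq_one_left s2
  have wi : w⁻¹ = w := inv_eq_of_mul_eq_one_left w2
  have key : ∀ m : G, m⁻¹ = m →
      m = (φ C * (x * (φ B)⁻¹) * φ C)⁻¹ * (x * (φ B)⁻¹)⁻¹ * φ S * (x * (φ B)⁻¹) * (φ C * (x * (φ B)⁻¹) * φ C) →
      m * φ C * x⁻¹ * φ B * φ C * x⁻¹ * φ B * φ S * x * (φ B)⁻¹ * φ C * x * (φ B)⁻¹ * φ C = 1 := by
    intro m h1 h2
    rw [← h1, inv_eq_iff_mul_eq_one] at h2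
    simpa only [mul_inv_rev, inv_inv, ci, xb, mul_assoc] using h2
  rcases J.rel with h | h
  · obtain ⟨ρ, r0, r1, r2, r3, r4, r5, r6, r7, r8, r10, r12⟩ := CfH6.J3P.hom J.com
      (key _ (by simp only [mul_inv_rev, si, wi, mul_assoc]) h)
    have := CfH6.J3P.simple
    have := CfH6.J3P.fin
    have hi := CfH6.inj_of_simple ρ (g := CfH6.J3P.el 0) (by rw [r0]; exact J.z1)
    obtain ⟨g, hg, h68⟩ := CfH6.J3P.syl17
    exact ⟨ρ, hi, J.top ρ hi CfH6.J3P.card (hA_mem ⟨_, r0.trans J.hz.symm⟩ ⟨_, r1⟩ ⟨_, r2⟩ ⟨_, r3⟩ ⟨_, r4⟩ ⟨_, r5⟩ ⟨_, r6⟩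
      ⟨_, r7⟩ ⟨_, r8⟩) ⟨_, r10⟩ ⟨_, r12⟩ hg h68⟩
  · have h1 := key _ (by simp only [mul_inv_rev, si, wi, mul_assoc]) h
    have m : ∀ h, φ h ∈ Cx(z) := fun h => mem_Cx.2 (J.cz h)
    have h2 := (CfH6.J3P.collapse J.com (by simpa only [mul_assoc] using h1) Cx(z) (mem_Cx.2 rfl) (m _) (m _) (m _) (m _)
      (m _) (m _) (m _) (m _)).1
    exact absurd (by rw [← J.xz, mem_Cx.1 h2, mul_inv_cancel_right]) J.uz

theorem j3_iso [Finite G] [IsSimpleGroup G] {z : G} (hz : orderOf z = 2) (Q : Subgroup Cx(z)) [Q.Normal]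
    (hQ : IsExtraspecial 2 Q) (hc : Nat.card Q = 32) (hC : centralizer (Q : Set Cx(z)) ≤ Q)
    (e : Cx(z) ⧸ Q ≃* alternatingGroup (Fin 5)) (hone : ∀ x y : G, orderOf x = 2 → orderOf y = 2 → IsConj x y) :
    ∃ ρ : CfH6.J3P.P →* G, Function.Bijective ρ := by
  obtain ⟨φ, J⟩ := j3_of hz Q hQ hc hC (by
    rw [Nat.card_congr e.toEquiv, nat_card_alternatingGroup]; simp [Nat.factorial]) hone
  exact J.iso

end CfL
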