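import Cfsg.Agent.L.M23a
/-! The numerical search for the principal 11-block. -/
set_option autoImplicit false
namespace CfLm

section engine
variable {α β σ : Type}

def chk2 (ok : σ → α → Bool) (add : σ → α → σ) (fin : σ → List α → Bool) : ℕ → List α → σ → List α → Bool
  | 0, _, _, _ => false
  | _ + 1, [], s, acc => fin s acc
  | n + 1, c :: cs, s, acc => chk2 ok add fin n cs s acc &&
      (match ok (add s c) c with
        | false => true
        | true => chk2 ok add fin n (c :: cs) (add s c) (c :: acc))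

theorem chk2_sound {β : Type*} {ok : σ → α → Bool} {add : σ → α → σ} {fin : σ → List α → Bool} (f : β → α)
    (Inv : σ → List β → Prop) (R : α → α → Prop) (hR : ∀ a, R a a)
    (h1 : ∀ s x M, (∀ y ∈ M, R (f x) (f y)) → Inv s (x :: M) → ok (add s (f x)) (f x) = true ∧ Inv (add s (f x)) M)
    (h2 : ∀ s M M', M.Perm M' → Inv s M → Inv s M') :
    ∀ (n : ℕ) (cs : List α) (s : σ) (acc : List α) (M : List β), chk2 ok add fin n cs s acc = true → cs.Pairwise R →
      (∀ x ∈ M, f x ∈ cs) → Inv s M → ∃ s' M', List.Perm M' M ∧ Inv s' [] ∧ fin s' (M'.map f ++ acc) = true := by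
  intro n
  induction n with
  | zero => intro cs s acc M h; simp [chk2] at h
  | succ n ih =>
    intro cs s acc M h hp hM hI
    cases cs with
    | nil =>
      cases M with
      | nil => exact ⟨s, [], .refl _, hI, by simpa [chk2] using h⟩
      | cons x M => simpa using hM x (by simp)
    | cons c cs =>
      rw [chk2, Bool.and_eq_true] at h
      by_cases hc : ∃ x ∈ M, f x = c
      · obtain ⟨x, hx, rfl⟩ := hc
        obtain ⟨A, B, rfl⟩ := List.append_of_mem hx
        have hM' : ∀ y ∈ A ++ B, f y ∈ f x :: cs := fun y hy => hM y (by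
          rcases List.mem_append.1 hy with h | h <;> simp [h])
        obtain ⟨o, hI'⟩ := h1 s x (A ++ B) (fun y hy => by
          rcases List.mem_cons.1 (hM' y hy) with e | e
          · rw [e]; exact hR _
          · exact List.rel_of_pairwise_cons hp e) (h2 _ _ _ List.perm_middle hI)
        have h' := h.2
        rw [o] at h'
        obtain ⟨s', M', p, i, e⟩ := ih _ _ _ (A ++ B) h' hp hM' hI'
        refine ⟨s', M' ++ [x], ?_, i, by simpa using e⟩
        exact (List.perm_append_singleton _ _).trans ((p.cons x).trans List.perm_middle.symm)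
      · exact ih _ _ _ M h.1 hp.of_cons
          (fun x hx => (List.mem_cons.1 (hM x hx)).resolve_left fun e => hc ⟨x, hx, e⟩) hI
end engine

structure Rw where
  d : ℤ
  u : ℤ
  v : ℤ
  S : ℤ
  t : ℤ
  mb : ℤ
deriving DecidableEq

structure St where
  g : ℤ
  df : ℤ
  sq : ℤ
  ss : ℤ
  tt : ℤ
  l : ℤ
  lv : ℤ
  b : ℤ
  c : ℤ

def addS (s : St) (r : Rw) : St := ⟨s.g + r.u * r.u, s.df + r.v * r.v, s.sq + r.d * r.d, s.ss + r.S * r.S, s.tt + r.t * r.t,
  s.l + r.u * r.d, s.lv + r.v * r.d, s.b + r.u * r.S, s.c + r.u * r.t⟩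

def okS (g0 df0 : ℤ) (s : St) (r : Rw) : Bool := decide (s.g ≤ g0) && (decide (s.df ≤ df0) &&
  ((decide (r.v ≠ 0) || (decide (s.df = df0) && (decide (s.lv = 0) && decide (s.l.natAbs ≤ (g0 - s.g) * r.d)))) &&
  (decide (s.sq ≤ 10200960) && (decide (s.ss ≤ 46) && decide (s.tt ≤ 2)))))

def nt (v : ℕ) : ℕ → ℕ → ℕ
  | 0, x => x
  | f + 1, x => if (x + v / x) / 2 < x then nt v f ((x + v / x) / 2) else x

def notSq (v : ℤ) : Bool := decide (v < 0) || (decide ((nt v.toNat 99 v.toNat : ℤ) * nt v.toNat 99 v.toNat < v) &&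
  decide (v < ((nt v.toNat 99 v.toNat : ℤ) + 1) * (nt v.toNat 99 v.toNat + 1)))

theorem notSq_sq (a : ℕ) : notSq ((a : ℤ) ^ 2) = false := by
  rw [Bool.eq_false_iff]
  intro h
  simp only [notSq, Bool.or_eq_true, Bool.and_eq_true, decide_eq_true_eq] at h
  generalize nt _ _ _ = r at h
  rcases h with h | ⟨h1, h2⟩
  · nlinarith
  · rcases le_or_gt a r with c | c
    · have : (a : ℤ) ≤ r := by exact_mod_cast c
      nlinarith
    · have : (r : ℤ) + 1 ≤ a := by exact_mod_cast c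
      nlinarith

def gL : List Rw → ℕ
  | [] => 0
  | r :: rs => Nat.gcd (r.u * (10200960 / r.d)).natAbs (gL rs)

def force (n : ℕ) (f : ℕ → Bool) : Bool := match n with
  | 0 => f 0
  | k + 1 => f (k + 1)

theorem force_eq (n : ℕ) (f : ℕ → Bool) : force n f = f n := by cases n <;> rfl

def dec (mode : Bool) (K : ℤ) : List Rw → ℤ → ℤ → Bool
  | [], lin, Q => decide (lin ≠ 0) || (if mode then decide (Q ≠ 0) else notSq (-(11 * K * 1936 * Q)))
  | r :: rs, lin, Q => force (gL rs) fun g => (List.range (r.d / 22).toNat).all fun i =>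
      (if mode then decide ((Q + r.u * (10200960 / r.d) * ((i + 1 : ℕ) * (i + 1 : ℕ))) % g ≠ 0)
        else decide (r.mb < (r.d - 44 * (i + 1 : ℕ)).natAbs)) ||
      dec mode K rs (lin + r.u * (i + 1 : ℕ)) (Q + r.u * (10200960 / r.d) * ((i + 1 : ℕ) * (i + 1 : ℕ)))

theorem gL_dvd {β : Type*} (f : β → Rw) (j : β → ℕ) (M : List β) :
    (gL (M.map f) : ℤ) ∣ (M.map fun x => (f x).u * (10200960 / (f x).d) * ((j x : ℤ) * j x)).sum := by
  induction M with
  | nil => simp
  | cons x M ih =>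
    simp only [List.map_cons, List.sum_cons, gL]
    exact dvd_add (Dvd.dvd.mul_right (Int.natCast_dvd.2 (Nat.gcd_dvd_left _ _)) _)
      ((Int.natCast_dvd_natCast.2 (Nat.gcd_dvd_right _ _)).trans ih)

theorem dec_sound {β : Type*} (f : β → Rw) (j : β → ℕ) (mode : Bool) (K : ℤ) (A : ℕ) (hA : mode = true → A = 0) (K0 : K ≠ 0) :
    ∀ (M : List β) (lin Q : ℤ), (∀ x ∈ M, 1 ≤ j x ∧ 22 * (j x : ℤ) ≤ (f x).d ∧ (mode = false → |(f x).d - 44 * j x| ≤ (f x).mb)) →
      lin + (M.map fun x => (f x).u * j x).sum = 0 →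
      -(11 * K * 1936 * (Q + (M.map fun x => (f x).u * (10200960 / (f x).d) * ((j x : ℤ) * j x)).sum)) = (A : ℤ) ^ 2 →
      dec mode K (M.map f) lin Q = false := by
  intro M
  induction M with
  | nil =>
    intro lin Q _ h1 h2
    simp only [List.map_nil, List.sum_nil, add_zero] at h1 h2
    cases mode
    · simp [dec, h1, h2, notSq_sq]
    · rw [hA rfl] at h2
      simpa [dec, h1, K0] using h2
  | cons x M ih =>
    intro lin Q h0 h1 h2
    obtain ⟨a1, a2, a3⟩ := h0 x (by simp)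
    simp only [List.map_cons, List.sum_cons, ← add_assoc] at h1 h2
    rw [List.map_cons, dec, force_eq, List.all_eq_false]
    refine ⟨j x - 1, List.mem_range.2 (by omega), ?_⟩
    rw [Nat.sub_add_cancel a1, ih _ _ (fun y hy => h0 y (by simp [hy])) h1 h2]
    cases mode
    · simpa [Int.natCast_natAbs] using a3 rfl
    · rw [hA rfl] at h2
      have h3 : Q + (f x).u * (10200960 / (f x).d) * ((j x : ℤ) * j x) =
        -(M.map fun x => (f x).u * (10200960 / (f x).d) * ((j x : ℤ) * j x)).sum :=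
          eq_neg_of_add_eq_zero_left (by simpa [K0] using h2)
      simpa [h3] using gL_dvd f j M

def jsT (r : Rw) (rs : List Rw) (lp ln : ℕ) : List ℕ := match rs with
  | [] => if r.u = 0 then List.range ((r.d / 22).toNat + 1) else [(lp - ln + (ln - lp)) / r.u.natAbs]
  | _ :: _ => List.range' 1 (r.d / 22).toNat

def decT : List Rw → ℕ → ℕ → ℕ → ℕ → Bool
  | [], lp, ln, qp, qn => or (not (Nat.beq lp ln)) (not (Nat.beq qp qn))
  | r :: rs, lp, ln, qp, qn => force (gL rs) fun g => force (r.u * (10200960 / r.d)).toNat fun cp =>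
      force (-(r.u * (10200960 / r.d))).toNat fun cn => force r.u.toNat fun up => force (-r.u).toNat fun un =>
      (jsT r rs lp ln).all fun j => force (Nat.add qp (Nat.mul cp (Nat.mul j j))) fun qp' =>
        force (Nat.add qn (Nat.mul cn (Nat.mul j j))) fun qn' => or (not (Nat.beq (Nat.mod qp' g) (Nat.mod qn' g)))
          (force (Nat.add lp (Nat.mul up j)) fun lp' => force (Nat.add ln (Nat.mul un j)) fun ln' => decT rs lp' ln' qp' qn')

theorem decT_sound {β : Type*} (f : β → Rw) (j : β → ℕ) :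
    ∀ (M : List β) (lp ln qp qn : ℕ), (∀ x ∈ M, 1 ≤ j x ∧ 22 * (j x : ℤ) ≤ (f x).d) →
      (lp : ℤ) - ln + (M.map fun x => (f x).u * j x).sum = 0 →
      (qp : ℤ) - qn + (M.map fun x => (f x).u * (10200960 / (f x).d) * ((j x : ℤ) * j x)).sum = 0 →
      decT (M.map f) lp ln qp qn = false := by
  intro M
  induction M with
  | nil =>
    intro lp ln qp qn _ h1 h2
    simp only [List.map_nil, List.sum_nil, add_zero] at h1 h2
    obtain rfl : lp = ln := by omega
    obtain rfl : qp = qn := by omega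
    simp [decT]
  | cons x M ih =>
    intro lp ln qp qn h0 h1 h2
    obtain ⟨a1, a2⟩ := h0 x (by simp)
    simp only [List.map_cons, List.sum_cons, ← add_assoc] at h1 h2
    have b := fun x : ℤ => Int.toNat_sub_toNat_neg x
    rw [List.map_cons, decT]
    simp only [force_eq, Nat.add_eq, Nat.mul_eq]
    rw [List.all_eq_false]
    refine ⟨j x, ?_, ?_⟩
    · cases M with
      | nil =>
        simp only [List.map_nil, List.sum_nil, add_zero, jsT] at h1 ⊢
        split_ifs with c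
        · exact List.mem_range.2 (by omega)
        · rw [List.mem_singleton]
          refine (Nat.div_eq_of_eq_mul_right (Int.natAbs_pos.2 c) ?_).symm
          rw [← Int.natAbs_natCast (j x), ← Int.natAbs_mul]; omega
      | cons y M => exact List.mem_range'_1.2 (by omega)
    · have e1 : ((qp + ((f x).u * (10200960 / (f x).d)).toNat * (j x * j x) : ℕ) : ℤ) -
          (qn + (-((f x).u * (10200960 / (f x).d))).toNat * (j x * j x) : ℕ) +
          (M.map fun x => (f x).u * (10200960 / (f x).d) * ((j x : ℤ) * j x)).sum = 0 := by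
        push_cast; linear_combination h2 + ((j x : ℤ) * j x) * b ((f x).u * (10200960 / (f x).d))
      rw [ih _ _ _ _ (fun y hy => h0 y (by simp [hy])) (by push_cast; linear_combination h1 + (j x : ℤ) * b (f x).u) e1]
      have e2 := gL_dvd f j M
      rw [eq_neg_of_add_eq_zero_right e1, dvd_neg] at e2
      have e3 := (Nat.modEq_iff_dvd.2 e2).symm
      simp only [Bool.or_false, Bool.not_eq_true, Bool.not_eq_false', Nat.beq_eq]; exact e3

def finS (g0 df0 K : ℤ) (s : St) (acc : List Rw) : Bool :=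
  if s.g = g0 ∧ s.df = df0 ∧ s.l = 0 ∧ s.lv = 0 ∧ s.b = 0 ∧ s.c = 0 then
    decT (acc.filter (fun r => decide (r.v ≠ 0)) ++ acc.filter (fun r => !decide (r.v ≠ 0))) 0 0 0 0 && dec false K acc 0 0 else true

def RR (a b : Rw) : Prop := a.v = 0 → b.v = 0 ∧ b.d ≤ a.d
instance : DecidableRel RR := fun a b => by unfold RR; infer_instance

def InvS {β : Type*} (f : β → Rw) (g0 df0 : ℤ) (s : St) (M : List β) : Prop := (∀ x ∈ M, 0 ≤ (f x).d) ∧
  s.g + (M.map fun x => (f x).u * (f x).u).sum = g0 ∧ s.df + (M.map fun x => (f x).v * (f x).v).sum = df0 ∧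
  s.sq + (M.map fun x => (f x).d * (f x).d).sum ≤ 10200960 ∧ s.ss + (M.map fun x => (f x).S * (f x).S).sum ≤ 46 ∧
  s.tt + (M.map fun x => (f x).t * (f x).t).sum ≤ 2 ∧ s.l + (M.map fun x => (f x).u * (f x).d).sum = 0 ∧
  s.lv + (M.map fun x => (f x).v * (f x).d).sum = 0 ∧ s.b + (M.map fun x => (f x).u * (f x).S).sum = 0 ∧
  s.c + (M.map fun x => (f x).u * (f x).t).sum = 0

theorem sqs {β : Type*} (w : β → ℤ) (M : List β) : 0 ≤ (M.map fun x => w x * w x).sum :=
  List.sum_nonneg fun z hz => by obtain ⟨x, -, rfl⟩ := List.mem_map.1 hz; exact mul_self_nonneg _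

theorem tail_bd {β : Type*} (f : β → Rw) (D : ℤ) (M : List β) (h : ∀ y ∈ M, (f y).v = 0 ∧ 0 ≤ (f y).d ∧ (f y).d ≤ D) :
    (M.map fun x => (f x).v * (f x).v).sum = 0 ∧ (M.map fun x => (f x).v * (f x).d).sum = 0 ∧
      |(M.map fun x => (f x).u * (f x).d).sum| ≤ (M.map fun x => (f x).u * (f x).u).sum * D := by
  induction M with
  | nil => simp
  | cons x M ih =>
    obtain ⟨a, b, c⟩ := ih fun y hy => h y (by simp [hy])
    obtain ⟨d1, d2, d3⟩ := h x (by simp)
    simp only [List.map_cons, List.sum_cons, a, b, d1, zero_mul, add_zero, true_and]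
    refine (abs_add_le _ _).trans ?_
    rw [add_mul, abs_mul, abs_of_nonneg d2]
    have : |(f x).u| ≤ (f x).u * (f x).u := by rw [← sq, ← sq_abs]; exact Int.le_self_sq _
    nlinarith [abs_nonneg (f x).u]

structure SN where
  g : ℕ
  df : ℕ
  sq : ℕ
  ss : ℕ
  tt : ℕ
  lp : ℕ
  ln : ℕ
  vp : ℕ
  vn : ℕ
  bp : ℕ
  bn : ℕ
  cp : ℕ
  cn : ℕ

def toS (s : SN) : St := ⟨s.g, s.df, s.sq, s.ss, s.tt, s.lp - s.ln, s.vp - s.vn, s.bp - s.bn, s.cp - s.cn⟩

def addN (s : SN) (r : Rw) : SN := ⟨Nat.add s.g (r.u * r.u).toNat, Nat.add s.df (r.v * r.v).toNat, Nat.add s.sq (r.d * r.d).toNat,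
  Nat.add s.ss (r.S * r.S).toNat, Nat.add s.tt (r.t * r.t).toNat,
  Nat.add s.lp (r.u * r.d).toNat, Nat.add s.ln (-(r.u * r.d)).toNat, Nat.add s.vp (r.v * r.d).toNat, Nat.add s.vn (-(r.v * r.d)).toNat,
  Nat.add s.bp (r.u * r.S).toNat, Nat.add s.bn (-(r.u * r.S)).toNat, Nat.add s.cp (r.u * r.t).toNat, Nat.add s.cn (-(r.u * r.t)).toNat⟩

def okN (g0 df0 : ℕ) (s : SN) (r : Rw) : Bool := and (Nat.ble s.g g0) (and
  (cond (decide (r.v ≠ 0)) (Nat.ble s.df df0) (and (Nat.beq s.df df0) (and (Nat.beq s.vp s.vn)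
    (and (Nat.ble s.lp (Nat.add s.ln (Nat.mul (Nat.sub g0 s.g) r.d.toNat))) (Nat.ble s.ln (Nat.add s.lp (Nat.mul (Nat.sub g0 s.g) r.d.toNat)))))))
  (and (Nat.ble s.sq 10200960) (and (Nat.ble s.ss 46) (Nat.ble s.tt 2))))

def finN (g0 df0 : ℕ) (K : ℤ) (s : SN) (acc : List Rw) : Bool :=
  cond (and (Nat.beq s.g g0) (Nat.beq s.lp s.ln)) (finS g0 df0 K (toS s) acc) true

theorem toS_add (s : SN) (r : Rw) : toS (addN s r) = addS (toS s) r := by
  have a := fun x : ℤ => Int.toNat_of_nonneg (mul_self_nonneg x)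
  have b := fun x : ℤ => Int.toNat_sub_toNat_neg x
  simp only [toS, addN, addS, Nat.add_eq, Nat.cast_add, a, St.mk.injEq, true_and]
  refine ⟨?_, ?_, ?_, ?_⟩
  · linarith [b (r.u * r.d)]
  · linarith [b (r.v * r.d)]
  · linarith [b (r.u * r.S)]
  · linarith [b (r.u * r.t)]

theorem okN_of {g0 df0 : ℕ} {s : SN} {r : Rw} (hd : 0 ≤ r.d) (h : okS g0 df0 (toS s) r = true) : okN g0 df0 s r = true := by
  simp only [okS, Bool.and_eq_true, Bool.or_eq_true, decide_eq_true_eq] at h
  dsimp only [toS] at h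
  obtain ⟨h1, h2, h3, h4, h5, h6⟩ := h
  simp only [okN, Bool.and_eq_true, Nat.ble_eq, Nat.add_eq, Nat.mul_eq, Nat.sub_eq]
  refine ⟨by omega, ?_, by omega, by omega, by omega⟩
  by_cases hv : r.v = 0
  · obtain ⟨a, b, c⟩ := h3.resolve_left (by simpa using hv)
    have e : (((g0 - s.g) * r.d.toNat : ℕ) : ℤ) = ((g0 : ℤ) - s.g) * r.d := by
      rw [Nat.cast_mul, Int.toNat_of_nonneg hd, Nat.cast_sub (by omega)]
    rw [← e] at c
    generalize (g0 - s.g) * r.d.toNat = B at c
    simp only [hv, ne_eq, not_true_eq_false, decide_false, cond_false, Bool.and_eq_true, Nat.ble_eq, Nat.beq_eq]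
    omega
  · simp only [hv, ne_eq, not_false_eq_true, decide_true, cond_true, Nat.ble_eq]; omega

def s0 : SN := ⟨1, 0, 1, 4, 0, 0, 1, 0, 0, 2, 0, 0, 0⟩

theorem search {β : Type*} (f : β → Rw) (j : β → ℕ) {g0 df0 : ℕ} {K : ℤ} {L : List Rw} (K0 : K ≠ 0) (hL : L.Pairwise RR)
    (h : chk2 (okN g0 df0) addN (finN g0 df0 K) 400 L s0 [] = true) (M : List β)
    (hM : ∀ x ∈ M, f x ∈ L) (hI : InvS f g0 df0 ⟨1, 0, 1, 4, 0, -1, 0, 2, 0⟩ M) (A : ℕ)
    (hj : ∀ x ∈ M, 1 ≤ j x ∧ 22 * (j x : ℤ) ≤ (f x).d ∧ (A ≠ 0 → |(f x).d - 44 * j x| ≤ (f x).mb))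
    (h1 : (M.map fun x => (f x).u * j x).sum = 0)
    (h2 : -(11 * K * 1936 * (M.map fun x => (f x).u * (10200960 / (f x).d) * ((j x : ℤ) * j x)).sum) = (A : ℤ) ^ 2) : False := by
  obtain ⟨s, M', p, i, e⟩ := chk2_sound f (fun s M => InvS f g0 df0 (toS s) M) RR (fun a h => ⟨h, le_rfl⟩) (fun s x M hR hI => by
    suffices k : okS g0 df0 (addS (toS s) (f x)) (f x) = true ∧ InvS f g0 df0 (addS (toS s) (f x)) M from
      ⟨okN_of (hI.1 x (by simp)) (toS_add s (f x) ▸ k.1), by rw [toS_add]; exact k.2⟩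
    generalize toS s = s at hI
    obtain ⟨a0, a1, a2, a3, a4, a5, a6, a7, a8, a9⟩ := hI
    simp only [List.map_cons, List.sum_cons, ← add_assoc] at a1 a2 a3 a4 a5 a6 a7 a8 a9
    refine ⟨?_, fun y hy => a0 y (by simp [hy]), a1, a2, a3, a4, a5, a6, a7, a8, a9⟩
    have b1 := sqs (fun x => (f x).u) M
    have b2 := sqs (fun x => (f x).v) M
    have b3 := sqs (fun x => (f x).d) M
    have b4 := sqs (fun x => (f x).S) M
    have b5 := sqs (fun x => (f x).t) M
    simp only [okS, Bool.and_eq_true, Bool.or_eq_true, decide_eq_true_eq]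
    dsimp only [addS]
    refine ⟨by linarith, by linarith, ?_, by linarith, by linarith, by linarith⟩
    by_cases hv : (f x).v = 0
    · obtain ⟨c1, c2, c3⟩ := tail_bd f (f x).d M fun y hy => ⟨(hR y hy hv).1, a0 y (by simp [hy]), (hR y hy hv).2⟩
      refine Or.inr ⟨by linarith, by linarith, ?_⟩
      rw [Int.natCast_natAbs, eq_neg_of_add_eq_zero_left a6, abs_neg, ← a1, add_sub_cancel_left]; exact c3
    · exact Or.inl hv) (fun s M M' p hI => by
      simp only [InvS, ← fun w : β → ℤ => (p.map w).sum_eq]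
      exact ⟨fun x hx => hI.1 x (p.mem_iff.2 hx), hI.2⟩) _ _ _ _ M h hL hM hI
  obtain ⟨-, a1, a2, -, -, -, a6, a7, a8, a9⟩ := i
  simp only [List.map_nil, List.sum_nil, add_zero] at a1 a2 a6 a7 a8 a9
  rw [finN, show (and (Nat.beq s.g g0) (Nat.beq s.lp s.ln)) = true by
    dsimp only [toS] at a1 a6; simp only [Bool.and_eq_true, Nat.beq_eq]; omega, cond_true,
    finS, if_pos ⟨a1, a2, a6, a7, a8, a9⟩, List.append_nil, Bool.and_eq_true] at e
  rw [← (p.map _).sum_eq] at h1 h2
  have k := fun mode hA hj => dec_sound f j mode K A hA K0 M' 0 0 hj (by rw [zero_add, h1]) (by rw [zero_add, h2])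
  by_cases A0 : A = 0
  · have p' := List.filter_append_perm (fun x => decide ((f x).v ≠ 0)) M'
    have := decT_sound f j _ 0 0 0 0 (fun x hx => ⟨(hj x (p.mem_iff.1 (p'.mem_iff.1 hx))).1, (hj x (p.mem_iff.1 (p'.mem_iff.1 hx))).2.1⟩)
      (by rw [(p'.map _).sum_eq, h1]; rfl) (by rw [(p'.map _).sum_eq]; simpa [A0, K0] using h2)
    rw [List.filter_map, List.filter_map, ← List.map_append] at e
    exact Bool.noConfusion (this.symm.trans e.1)
  · rw [k false (by simp) fun x hx => ⟨(hj x (p.mem_iff.1 hx)).1, (hj x (p.mem_iff.1 hx)).2.1,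
      fun _ => (hj x (p.mem_iff.1 hx)).2.2 A0⟩] at e
    simp at e

end CfLm
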