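import Cfsg.Agent.L.M23d
/-! A kernel computation for the principal 11-block. -/
set_option autoImplicit false
set_option maxRecDepth 100000
namespace CfLm

def L5_12 : List Rw := [⟨2415,-1,-1,0,0,220⟩, ⟨2415,0,1,0,0,220⟩, ⟨2208,-2,1,0,0,203⟩, ⟨1932,-2,-1,0,0,177⟩, ⟨1932,-1,1,0,0,177⟩, ⟨1840,2,-1,0,0,165⟩, ⟨1680,-2,1,-2,0,155⟩, ⟨1610,1,-1,0,0,145⟩, ⟨1610,2,1,0,0,145⟩, ⟨1380,0,-1,0,0,125⟩, ⟨1380,1,1,0,0,125⟩, ⟨1104,1,-1,0,0,99⟩, ⟨1104,2,1,0,0,99⟩, ⟨920,-2,-1,0,0,85⟩, ⟨920,-1,1,0,0,85⟩, ⟨840,1,-1,-1,-1,75⟩, ⟨840,1,-1,-1,1,75⟩, ⟨840,2,1,-1,-1,75⟩, ⟨840,2,1,-1,1,75⟩, ⟨690,-2,1,0,0,65⟩, ⟨644,-1,-1,0,0,59⟩, ⟨644,0,1,0,0,59⟩,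 ⟨480,-2,-1,6,0,45⟩, ⟨480,-1,1,6,0,45⟩, ⟨368,0,-1,0,0,33⟩, ⟨368,1,1,0,0,33⟩, ⟨345,1,-1,0,0,30⟩, ⟨345,2,1,0,0,30⟩, ⟨336,-1,-1,-5,-1,31⟩, ⟨336,-1,-1,-5,1,31⟩, ⟨336,0,1,-5,-1,31⟩, ⟨336,0,1,-5,1,31⟩, ⟨322,2,-1,0,0,27⟩, ⟨184,-2,1,0,0,19⟩, ⟨161,-2,-1,0,0,16⟩, ⟨161,-1,1,0,0,16⟩, ⟨160,-1,-1,2,0,15⟩, ⟨160,0,1,2,0,15⟩, ⟨140,-2,1,-4,0,15⟩, ⟨138,-1,-1,0,0,13⟩, ⟨138,0,1,0,0,13⟩, ⟨115,0,-1,0,0,10⟩, ⟨115,1,1,0,0,10⟩, ⟨105,-1,-1,-3,-1,10⟩, ⟨105,-1,-1,-3,1,10⟩, ⟨105,0,1,-3,-1,10⟩, ⟨105,0,1,-3,1,10⟩, ⟨92,1,-1,0,0,7⟩, ⟨92,2,1,0,0,7⟩, ⟨80,2,-1,1,-1,5⟩, ⟨80,2,-1,1,1,5⟩, ⟨70,1,-1,-2,0,5⟩, ⟨70,2,1,-2,0,5⟩, ⟨69,2,-1,0,0,4⟩, ⟨60,0,-1,-5,-1,5⟩,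 ⟨60,0,-1,-5,1,5⟩, ⟨60,1,1,-5,-1,5⟩, ⟨60,1,1,-5,1,5⟩, ⟨48,1,-1,-4,0,3⟩, ⟨48,2,1,-4,0,3⟩, ⟨2760,1,0,0,0,250⟩, ⟨2576,-2,0,0,0,236⟩, ⟨1472,2,0,0,0,132⟩, ⟨1344,-2,0,3,-1,124⟩, ⟨1344,-2,0,3,1,124⟩, ⟨1288,-1,0,0,0,118⟩, ⟨966,2,0,0,0,86⟩, ⟨805,-2,0,0,0,75⟩, ⟨736,1,0,0,0,66⟩, ⟨552,-2,0,0,0,52⟩, ⟨483,1,0,0,0,43⟩, ⟨460,2,0,0,0,40⟩, ⟨276,-1,0,0,0,26⟩, ⟨240,2,0,3,-1,20⟩, ⟨240,2,0,3,1,20⟩, ⟨230,1,0,0,0,20⟩, ⟨210,-1,0,-6,0,20⟩, ⟨112,-2,0,6,0,12⟩, ⟨56,-1,0,3,-1,6⟩, ⟨56,-1,0,3,1,6⟩, ⟨46,-2,0,0,0,6⟩, ⟨35,-2,0,-1,-1,5⟩, ⟨35,-2,0,-1,1,5⟩, ⟨32,1,0,5,-1,2⟩, ⟨32,1,0,5,1,2⟩, ⟨24,-2,0,-2,0,4⟩, ⟨23,-1,0,0,0,3⟩]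
theorem good5_12 : Good 5 12 := ⟨L5_12, by decide +kernel, by decide +kernel, by decide +kernel⟩

end CfLm
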