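import Cfsg.Agent.L.M23d
/-! A kernel computation for the principal 11-block. -/
set_option autoImplicit false
set_option maxRecDepth 100000
namespace CfLm

def L10_6 : List Rw := [⟨2760,1,0,0,0,250⟩, ⟨2576,-2,0,0,0,236⟩, ⟨2208,3,0,0,0,198⟩, ⟨1840,-3,0,0,0,170⟩, ⟨1680,3,0,-2,0,150⟩, ⟨1472,2,0,0,0,132⟩, ⟨1449,3,0,0,0,129⟩, ⟨1344,-2,0,3,-1,124⟩, ⟨1344,-2,0,3,1,124⟩, ⟨1288,-1,0,0,0,118⟩, ⟨966,2,0,0,0,86⟩, ⟨828,-3,0,0,0,78⟩, ⟨805,-2,0,0,0,75⟩, ⟨736,1,0,0,0,66⟩, ⟨690,3,0,0,0,60⟩, ⟨630,-3,0,5,-1,60⟩, ⟨630,-3,0,5,1,60⟩, ⟨552,-2,0,0,0,52⟩, ⟨483,1,0,0,0,43⟩, ⟨460,2,0,0,0,40⟩, ⟨448,3,0,1,-1,38⟩, ⟨448,3,0,1,1,38⟩, ⟨322,-3,0,0,0,32⟩, ⟨320,-1,0,4,0,30⟩,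 ⟨276,-1,0,0,0,26⟩, ⟨240,2,0,3,-1,20⟩, ⟨240,2,0,3,1,20⟩, ⟨230,1,0,0,0,20⟩, ⟨210,-1,0,-6,0,20⟩, ⟨184,3,0,0,0,14⟩, ⟨140,3,0,-4,0,10⟩, ⟨112,-2,0,6,0,12⟩, ⟨80,-3,0,1,-1,10⟩, ⟨80,-3,0,1,1,10⟩, ⟨69,-3,0,0,0,9⟩, ⟨56,-1,0,3,-1,6⟩, ⟨56,-1,0,3,1,6⟩, ⟨46,-2,0,0,0,6⟩, ⟨36,-3,0,-3,-1,6⟩, ⟨36,-3,0,-3,1,6⟩, ⟨35,-2,0,-1,-1,5⟩, ⟨35,-2,0,-1,1,5⟩, ⟨32,1,0,5,-1,2⟩, ⟨32,1,0,5,1,2⟩, ⟨24,-2,0,-2,0,4⟩, ⟨23,-1,0,0,0,3⟩]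
theorem good10_6 : Good 10 6 := ⟨L10_6, by decide +kernel, by decide +kernel, by decide +kernel⟩

end CfLm
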