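import Cfsg.Agent.L.M23b
import Cfsg.Agent.L.M23d
import Cfsg.Agent.H8.PA4
import Cfsg.Agent.OD.Leadx9525d6a0cc
/-! The centralizer of an element of order 11 has odd order. -/
set_option autoImplicit false
set_option linter.unusedSectionVars false
open Cfsg CfH4 CfH4.GA CfH4.D1 CfH9 CfH7 Subgroup Finset
open scoped ComplexConjugate
namespace CfLm
universe u
variable {G : Type u} [Group G] [Finite G]

instance f5 : Fact (Nat.Prime 5) := ⟨by norm_num⟩
instance f7 : Fact (Nat.Prime 7) := ⟨by norm_num⟩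
instance f11 : Fact (Nat.Prime 11) := ⟨by norm_num⟩
instance f23 : Fact (Nat.Prime 23) := ⟨by norm_num⟩

theorem sumJ {J : Finset (IrrCharacter G)} (hJ : triv G ∉ J) (W : IrrCharacter G → ℤ)
    (h : ∀ χ, χ ≠ triv G → χ ∉ J → W χ = 0) : ∑ χ, W χ = W (triv G) + (J.toList.map W).sum := by
  classical
  rw [sum_map_toList, ← sum_insert hJ]
  exact (sum_subset (subset_univ _) fun χ _ c => h χ (fun e => c (e ▸ mem_insert_self _ _))
    fun e => c (mem_insert_of_mem e)).symm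

theorem sumJ_le {J : Finset (IrrCharacter G)} (hJ : triv G ∉ J) (W : IrrCharacter G → ℤ) :
    W (triv G) * W (triv G) + (J.toList.map fun χ => W χ * W χ).sum ≤ ∑ χ, W χ * W χ := by
  classical
  rw [sum_map_toList, ← sum_insert (f := fun χ => W χ * W χ) hJ]
  exact sum_le_sum_of_subset_of_nonneg (subset_univ _) fun _ _ _ => mul_self_nonneg _

theorem one_le (W : IrrCharacter G → ℤ) {χ : IrrCharacter G} (h : χ ≠ triv G) :
    W (triv G) * W (triv G) + W χ * W χ ≤ ∑ χ, W χ * W χ := by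
  simpa using sumJ_le (J := {χ}) (by simpa using h.symm) W

theorem deg_triv : deg (triv G : G → ℂ) = 1 := deg_eq_of_eq (by simp [triv_apply])

theorem zdeg {z : G} (Z : Syl 23 z) (cz : Nat.card Cx(z) = 23) (ez : e 23 z = 11) (χ : IrrCharacter G) :
    (23 : ℤ) ∣ deg (χ : G → ℂ) - 11 * (u z (1 : ZMod 23) χ + u z (5 : ZMod 23) χ) := by
  have := deg2 Z (k := 11) (g := 5) (fun t ht => (E_iff Z t).2 (ez ▸ ht)) (by decide +kernel) (by decide +kernel) (by norm_num)
    (by decide +kernel) χ.2.isCharacter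
  refine ⟨m z χ (0 : ZMod 23), ?_⟩
  by_cases h : χ ∈ B0 23 G
  · simp only [u, if_pos h, this]; push_cast; ring
  · simp only [u, if_neg h, this, Z.K1 cz h 1, Z.K1 cz h 5]; push_cast; ring

set_option maxRecDepth 100000 in
theorem memDD (d : ℕ) (h : d < 3194) (h1 : 22 ≤ d) (h2 : d ∣ 10200960) : (d : ℤ) ∈ DD := by
  have := List.all_eq_true.1 (show (List.range 3194).all (fun d => decide (22 ≤ d → 10200960 % d = 0 → (d : ℤ) ∈ DD)) = true by
    decide +kernel) d (List.mem_range.2 h)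
  exact of_decide_eq_true this h1 (Nat.mod_eq_zero_of_dvd h2)

theorem noK [IsSimpleGroup G] (hG : Nat.card G = 10200960) {z w s : G} (Z : Syl 23 z) (cz : Nat.card Cx(z) = 23)
    (ez : e 23 z = 11) (W : Syl 11 w) {e0 K : ℕ} (he : e 11 w = e0) (h3 : e0 = 2 ∨ e0 = 5 ∨ e0 = 10)
    (hK : Nat.card Cx(w) = 11 * K) (hs : s * s = 1) (s1 : s ≠ 1) (hc : Commute w s) (gd : Good e0 K) : False := by
  classical
  have hn : ¬ (Nat.card G).Prime := by rw [hG]; norm_num
  obtain ⟨L, hL, hP, hC⟩ := gd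
  obtain ⟨g, hg⟩ : ∃ g : ZMod 11, g = if e0 = 2 then 1 else 2 := ⟨_, rfl⟩
  have g0 : g ≠ 0 := by rw [hg]; split_ifs <;> decide
  have K0 : K ≠ 0 := fun k => Nat.card_pos.ne' (hK.trans (by rw [k]))
  have ix : (Cx(w).index : ℤ) = 927360 / K := by
    have := Cx(w).card_mul_index
    rw [hK, hG] at this
    have h2 : (927360 : ℤ) = K * Cx(w).index := by
      have : K * Cx(w).index = 927360 := by linarith [mul_assoc 11 K Cx(w).index]
      exact_mod_cast this.symm
    rw [h2, Int.mul_ediv_cancel_left _ (by exact_mod_cast K0)]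
  have g1 := W.gram (j := 1) (l := 1) one_ne_zero one_ne_zero
  have g2 := W.gram g0 g0
  have g3 := W.gram one_ne_zero g0
  have z1 := Z.gram (j := 1) (l := 1) one_ne_zero one_ne_zero
  have z2 := Z.gram (j := 5) (l := 5) (by decide) (by decide)
  have z3 := Z.gram (j := 1) (l := 5) one_ne_zero (by decide)
  simp only [E_iff W, E_iff Z, he, ez] at g1 g2 g3 z1 z2 z3
  rw [if_pos (by simp)] at g1 z1
  rw [if_pos (by simp [g0])] at g2
  rw [if_pos (by decide +kernel)] at z2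
  rw [if_neg (by decide +kernel)] at z3
  have g4 : ∑ χ, (u w (1 : ZMod 11) χ - u w g χ) * (u w (1 : ZMod 11) χ - u w g χ) = ((if e0 = 5 then 2 else 0 : ℕ) : ℤ) := by
    simp only [sub_mul, mul_sub, sum_sub_distrib, mul_comm (u w g _) (u w (1 : ZMod 11) _), g1, g2, g3]
    rcases h3 with rfl | rfl | rfl <;> simp only [hg] <;> decide +kernel
  have z4 : ∑ χ, (u z (1 : ZMod 23) χ + u z (5 : ZMod 23) χ) * (u z (1 : ZMod 23) χ + u z (5 : ZMod 23) χ) = 46 := by
    simp only [add_mul, mul_add, sum_add_distrib, mul_comm (u z (5 : ZMod 23) _) (u z (1 : ZMod 23) _), z1, z2, z3]; norm_num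
  have z5 : ∑ χ, (u z (1 : ZMod 23) χ - u z (5 : ZMod 23) χ) * (u z (1 : ZMod 23) χ - u z (5 : ZMod 23) χ) = 2 := by
    simp only [sub_mul, mul_sub, sum_sub_distrib, mul_comm (u z (5 : ZMod 23) _) (u z (1 : ZMod 23) _), z1, z2, z3]; norm_num
  have bt : ∀ a : ZMod 23, ∑ χ, u w (1 : ZMod 11) χ * u z a χ = 0 := fun a => by
    simp only [mul_comm (u w _ _)]
    refine Z.BT W (by norm_num) (fun y t c1 c2 _ => ?_) a 1
    obtain ⟨k, rfl⟩ := isConj_iff.1 c1
    refine Nat.Coprime.coprime_dvd_left (orderOf_dvd_natCard Cx(k * z * k⁻¹) (mem_Cx.2 c2.eq.symm)) ?_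
    rw [CfH8.PA.cxeq (y := k * z * k⁻¹) Z (((MulAut.conj k).orderOf_eq z).trans Z.ord), cz]; norm_num
  have ln : ∀ a : ZMod 11, ∑ χ, u w a χ * deg (χ : G → ℂ) = 0 := fun a => by
    have := W.lin a PReg.one
    simp only [← fun χ : IrrCharacter G => χ.2.isCharacter.deg_eq] at this
    exact_mod_cast this
  have sq : ∑ χ : IrrCharacter G, (deg (χ : G → ℂ) : ℤ) * deg (χ : G → ℂ) = 10200960 := by
    have := sum_irr_deg_sq (G := G)
    simp only [hG, pow_two] at this
    exact_mod_cast this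
  have t1 := W.u_triv (j := 1) one_ne_zero
  have t2 := W.u_triv g0
  have t3 := Z.u_triv (j := 1) one_ne_zero
  have t4 := Z.u_triv (j := 5) (by decide)
  have t5 := deg_triv (G := G)
  have rw' : ∀ χ : IrrCharacter G, ∃ j : ℕ, (χ = triv G → j = 0) ∧ (χ ∈ B0 11 G → (χ : G → ℂ) s = deg (χ : G → ℂ) - 44 * j ∧
      (χ ≠ triv G → 1 ≤ j ∧ ∀ l : ZMod 11, 2 * j ≤ m w χ l)) := fun χ => by
    by_cases a : χ = triv G
    · exact ⟨0, fun _ => rfl, fun _ => ⟨by simp [a, t5, triv_apply], fun b => absurd a b⟩⟩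
    by_cases b : χ ∈ B0 11 G
    · obtain ⟨j, c1, c2, c3⟩ := row hn W hs s1 hc (by norm_num) b a
      exact ⟨j, fun c => absurd c a, fun _ => ⟨by rw [c2]; push_cast; ring, fun _ => ⟨c1, c3⟩⟩⟩
    · exact ⟨0, fun _ => rfl, fun c => absurd c b⟩
  choose j j0 hj using rw'
  have uB : ∀ (a : ZMod 11) χ, χ ∉ B0 11 G → u w a χ = 0 := fun a χ h => if_neg h
  have l2 : ∑ χ, u w (1 : ZMod 11) χ * j χ = 0 := by
    have a := W.lin 1 (g := s) (Nat.Coprime.coprime_dvd_left (orderOf_dvd_of_pow_eq_one (n := 2) (by rw [pow_two, hs]))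
      (by norm_num))
    have b : ((∑ χ, u w (1 : ZMod 11) χ * deg (χ : G → ℂ) - 44 * ∑ χ, u w (1 : ZMod 11) χ * j χ : ℤ) : ℂ) = 0 := by
      rw [← a]; push_cast; rw [mul_sum, ← sum_sub_distrib]
      refine sum_congr rfl fun χ _ => ?_
      by_cases c : χ ∈ B0 11 G
      · rw [(hj χ c).1]; ring
      · simp [uB 1 χ c]
    rw [ln, Int.cast_eq_zero] at b
    linarith
  have dv : ∀ χ : IrrCharacter G, deg (χ : G → ℂ) ∣ 10200960 := fun χ =>
    hG ▸ CfH5.degree_dvd_card χ.2 χ.2.isCharacter.deg_eq.symm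
  have q : -(11 * K * 1936 * ∑ χ, u w (1 : ZMod 11) χ * (10200960 / (deg (χ : G → ℂ) : ℤ)) * ((j χ : ℤ) * j χ)) =
      (Nat.card (Syl.A w s) : ℤ) ^ 2 := by
    have a := W.quad hs (by norm_num) (j := 1) one_ne_zero
    rw [hK, hG, mul_assoc, mul_sum] at a
    have b : ((10200960 * ∑ χ, u w (1 : ZMod 11) χ * deg (χ : G → ℂ) - 88 * 10200960 * ∑ χ, u w (1 : ZMod 11) χ * j χ +
      1936 * ∑ χ, u w (1 : ZMod 11) χ * (10200960 / (deg (χ : G → ℂ) : ℤ)) * ((j χ : ℤ) * j χ) : ℤ) : ℂ) =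
        ∑ χ : IrrCharacter G, ((10200960 : ℕ) : ℂ) * (u w (1 : ZMod 11) χ *
          conj ((χ : G → ℂ) s * (χ : G → ℂ) s / (χ : G → ℂ) 1)) := by
      simp only [mul_sum, ← sum_sub_distrib, ← sum_add_distrib, Int.cast_sum]
      refine sum_congr rfl fun χ _ => ?_
      by_cases c : χ ∈ B0 11 G
      · obtain ⟨k, hk⟩ := dv χ
        have d0 : (deg (χ : G → ℂ) : ℂ) ≠ 0 := by exact_mod_cast χ.2.deg_pos.ne'
        have e1 : (10200960 : ℤ) / (deg (χ : G → ℂ) : ℤ) = k := by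
          rw [show (10200960 : ℤ) = (deg (χ : G → ℂ) : ℤ) * k by exact_mod_cast hk,
            Int.mul_ediv_cancel_left _ (by exact_mod_cast χ.2.deg_pos.ne')]
        have e2 : (10200960 : ℂ) = deg (χ : G → ℂ) * k := by exact_mod_cast hk
        rw [e1, (hj χ c).1, ← χ.2.isCharacter.deg_eq]
        simp only [map_div₀, map_mul, map_sub, map_natCast, map_ofNat]
        push_cast
        have e3 : ∀ a b : ℂ, 10200960 * (b * (a / deg (χ : G → ℂ))) = b * (a * k) := fun a b => by rw [e2]; field_simp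
        rw [e3]
        linear_combination (u w (1 : ZMod 11) χ * (deg (χ : G → ℂ) - 88 * j χ)) * e2
      · simp [uB 1 χ c]
    rw [← b, ln, l2] at a
    have c : (((11 * K : ℕ) : ℤ) * (10200960 * 0 - 88 * 10200960 * 0 + 1936 * ∑ χ, u w (1 : ZMod 11) χ *
      (10200960 / (deg (χ : G → ℂ) : ℤ)) * ((j χ : ℤ) * j χ))) = -(Nat.card (Syl.A w s) : ℤ) ^ 2 := by exact_mod_cast a
    push_cast at c
    linarith
  let J := univ.filter fun χ => χ ≠ triv G ∧ (u w (1 : ZMod 11) χ ≠ 0 ∨ u w (1 : ZMod 11) χ - u w g χ ≠ 0)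
  have hJ : triv G ∉ J := by simp [J]
  have oJ : ∀ χ, χ ≠ triv G → χ ∉ J → u w (1 : ZMod 11) χ = 0 ∧ u w (1 : ZMod 11) χ - u w g χ = 0 := fun χ a b => by
    simpa [J, a] using b
  have iJ : ∀ χ ∈ J.toList, χ ≠ triv G ∧ χ ∈ B0 11 G ∧
      (u w (1 : ZMod 11) χ ≠ 0 ∨ u w (1 : ZMod 11) χ - u w g χ ≠ 0) := fun χ h => by
    obtain ⟨a, b⟩ := (mem_filter.1 (mem_toList.1 h)).2
    exact ⟨a, by_contra fun c => by simp [uB _ χ c] at b, b⟩
  let f : IrrCharacter G → Rw := fun χ => ⟨deg (χ : G → ℂ), u w (1 : ZMod 11) χ, u w (1 : ZMod 11) χ - u w g χ,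
    u z (1 : ZMod 23) χ + u z (5 : ZMod 23) χ, u z (1 : ZMod 23) χ - u z (5 : ZMod 23) χ,
    mbf e0 (deg (χ : G → ℂ)) (u w (1 : ZMod 11) χ) (u w (1 : ZMod 11) χ - u w g χ)⟩
  have d22 : ∀ χ ∈ J.toList, m w χ (0 : ZMod 11) + 20 * j χ ≤ deg (χ : G → ℂ) := fun χ h => by
    obtain ⟨a, b, -⟩ := iJ χ h
    rw [W.deg_eq χ.2.isCharacter, ← add_sum_erase _ _ (mem_univ (0 : ZMod 11))]
    have := card_nsmul_le_sum (univ.erase (0 : ZMod 11)) (fun l => m w χ l) _ fun l _ => ((hj χ b).2 a).2 l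
    rw [card_erase_of_mem (mem_univ _), card_univ, ZMod.card, smul_eq_mul] at this
    omega
  have dd : e0 ≠ 2 → ∀ χ ∈ B0 11 G, deg (χ : G → ℂ) - 5 * (2 * u w (1 : ZMod 11) χ - (u w (1 : ZMod 11) χ - u w g χ)) =
      11 * m w χ (0 : ZMod 11) := fun a χ b => by
    have := deg2 W (k := 5) (g := 2) (fun t ht => (E_iff W t).2 (by
      rcases h3 with h | h | h
      · exact absurd h a
      · rw [he, h, ht]
      · rw [he, h, show 10 = 5 * 2 from rfl, pow_mul, ht, one_pow])) (by decide +kernel) (by decide +kernel) (by norm_num)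
      (by decide +kernel) χ.2.isCharacter
    simp only [hg, if_neg a, u, if_pos b, this]; push_cast; ring
  have mb : e0 ≠ 2 → ∀ χ ∈ B0 11 G, (f χ).mb = m w χ (0 : ZMod 11) := fun a χ b => by
    simp only [f, mbf]
    rw [if_neg (by exact_mod_cast a), dd a χ b, Int.mul_ediv_cancel_left _ (by norm_num)]
  refine search f j (by exact_mod_cast K0) hP hC J.toList (fun χ h => ?_) ⟨fun χ _ => Int.natCast_nonneg _, ?_, ?_, ?_, ?_, ?_,
    ?_, ?_, ?_, ?_⟩ (Nat.card (Syl.A w s)) (fun χ h => ?_) ?_ ?_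
  · obtain ⟨a, b, c⟩ := iJ χ h
    obtain ⟨-, j1⟩ := hj χ b
    obtain ⟨j1, j2⟩ := j1 a
    have a1 := one_le (u w (1 : ZMod 11)) a
    have a2 := one_le (fun χ => u w (1 : ZMod 11) χ - u w g χ) a
    have a3 := one_le (fun χ => u z (1 : ZMod 23) χ + u z (5 : ZMod 23) χ) a
    have a4 := one_le (fun χ => u z (1 : ZMod 23) χ - u z (5 : ZMod 23) χ) a
    have a5 := one_le (fun χ => (deg (χ : G → ℂ) : ℤ)) a
    simp only [g1, g4, z4, z5, sq, t1, t2, t3, t4, t5] at a1 a2 a3 a4 a5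
    have a6 := d22 χ h
    have a7 := j2 0
    rw [← hL]
    refine mem_gen (memDD _ ?_ (by omega) (dv χ)) (by omega) (by split_ifs at a2 <;> omega) (by omega) (by omega)
      ⟨c, by omega, fun e5 => ?_, ix ▸ dvd_u W 1 χ, by rw [sub_sub_cancel]; exact ix ▸ dvd_u W g χ, fun e2 => ?_⟩
      (zdeg Z cz ez χ) ⟨u z (5 : ZMod 23) χ, by ring⟩
    · have : (deg (χ : G → ℂ) : ℤ) < 3194 := by nlinarith
      exact_mod_cast this
    · rw [if_neg fun k => e5 (by exact_mod_cast k)] at a2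
      exact mul_self_eq_zero.1 (le_antisymm (by omega) (mul_self_nonneg _))
    · have e2' : e0 ≠ 2 := fun k => e2 (by exact_mod_cast k)
      have a8 := j2 1
      have a9 := j2 g
      have := mb e2' χ b
      simp only [f] at this
      rw [this, sub_sub_cancel]
      refine ⟨⟨_, dd e2' χ b⟩, by omega, ?_, ?_⟩ <;> simp only [u, if_pos b] <;> omega
  · have := sumJ hJ (fun χ => u w (1 : ZMod 11) χ * u w (1 : ZMod 11) χ) fun χ a b => by simp [(oJ χ a b).1]
    simp only [g1, t1] at this; simp only [f]; push_cast; linarith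
  · have := sumJ hJ (fun χ => (u w (1 : ZMod 11) χ - u w g χ) * (u w (1 : ZMod 11) χ - u w g χ))
      fun χ a b => by simp [(oJ χ a b).2]
    simp only [g4, t1, t2] at this; simp only [f]; linarith
  · have := sumJ_le hJ fun χ => (deg (χ : G → ℂ) : ℤ)
    simp only [sq, t5] at this; simp only [f]; push_cast at this; linarith
  · have := sumJ_le hJ fun χ => u z (1 : ZMod 23) χ + u z (5 : ZMod 23) χ
    simp only [z4, t3, t4] at this; simp only [f]; linarith
  · have := sumJ_le hJ fun χ => u z (1 : ZMod 23) χ - u z (5 : ZMod 23) χ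
    simp only [z5, t3, t4] at this; simp only [f]; linarith
  · have := sumJ hJ (fun χ => u w (1 : ZMod 11) χ * deg (χ : G → ℂ)) fun χ a b => by simp [(oJ χ a b).1]
    simp only [ln, t1, t5] at this; simp only [f]; push_cast at this; linarith
  · have := sumJ hJ (fun χ => (u w (1 : ZMod 11) χ - u w g χ) * deg (χ : G → ℂ)) fun χ a b => by simp [(oJ χ a b).2]
    rw [show ∑ χ, (u w (1 : ZMod 11) χ - u w g χ) * deg (χ : G → ℂ) = 0 by simp only [sub_mul, sum_sub_distrib, ln, sub_self]] at this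
    simp only [t1, t2] at this; simp only [f]; linarith
  · have := sumJ hJ (fun χ => u w (1 : ZMod 11) χ * (u z (1 : ZMod 23) χ + u z (5 : ZMod 23) χ))
      fun χ a b => by simp [(oJ χ a b).1]
    rw [show ∑ χ, u w (1 : ZMod 11) χ * (u z (1 : ZMod 23) χ + u z (5 : ZMod 23) χ) = 0 by
      simp only [mul_add, sum_add_distrib, bt, add_zero]] at this
    simp only [t1, t3, t4] at this; simp only [f]; linarith
  · have := sumJ hJ (fun χ => u w (1 : ZMod 11) χ * (u z (1 : ZMod 23) χ - u z (5 : ZMod 23) χ))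
      fun χ a b => by simp [(oJ χ a b).1]
    rw [show ∑ χ, u w (1 : ZMod 11) χ * (u z (1 : ZMod 23) χ - u z (5 : ZMod 23) χ) = 0 by
      simp only [mul_sub, sum_sub_distrib, bt, sub_zero]] at this
    simp only [t1, t3, t4] at this; simp only [f]; linarith
  · obtain ⟨a, b, -⟩ := iJ χ h
    obtain ⟨j3, j1⟩ := hj χ b
    obtain ⟨j1, j2⟩ := j1 a
    have a6 := d22 χ h
    have a7 := j2 0
    refine ⟨j1, by simp only [f]; omega, fun A0 => ?_⟩
    have := EB W (by norm_num) hs (Set.nonempty_coe_sort.1 (Nat.card_ne_zero.1 A0).1) χ.2.isCharacter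
      (z := deg (χ : G → ℂ) - 44 * j χ) (by rw [j3]; push_cast; ring)
    refine this.trans ?_
    by_cases e2 : e0 = 2
    · simp only [f, mbf]; rw [if_pos (by exact_mod_cast e2)]; omega
    · rw [mb e2 χ b]
  · have := sumJ hJ (fun χ => u w (1 : ZMod 11) χ * j χ) fun χ a b => by simp [(oJ χ a b).1]
    simp only [l2, j0 _ rfl] at this; simp only [f]; push_cast at this; linarith
  · have := sumJ hJ (fun χ => u w (1 : ZMod 11) χ * (10200960 / (deg (χ : G → ℂ) : ℤ)) * ((j χ : ℤ) * j χ))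
      fun χ a b => by simp [(oJ χ a b).1]
    simp only [j0 _ rfl, Nat.cast_zero, mul_zero, zero_add] at this
    simp only [f]; rw [← this]; exact q

end CfLm
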