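import Cfsg.Agent.L.M23e
import Cfsg.Agent.L.M23d2
import Cfsg.Agent.L.M23d3
/-! The centralizer and normalizer of an element of order 11. -/
set_option autoImplicit false
set_option linter.unusedSectionVars false
open Cfsg CfH4 CfH4.GA CfH4.D1 CfH9 CfH7 Subgroup Finset CfH8.PA CfH8.MG
namespace CfLm
universe u
variable {G : Type u} [Group G] [Finite G]

theorem ds {p q : ℕ} [Fact p.Prime] [Fact q.Prime] {x y : G} (X : Syl p x) (Y : Syl q y) (c : x * y = y * x) :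
    ∃ D a b, Nat.card Nm(zpowers x) = D * a ∧ Nat.card Nm(zpowers y) = D * b ∧ a % q = 1 % q ∧ b % p = 1 % p ∧
      p ∣ D ∧ q ∣ D := by
  have k : ∀ {x y : G}, x * y = y * x → y ∈ Nm(zpowers x) := fun {x y} c =>
    centralizer_le_normalizer _ ((Cz_zpowers x).ge (mem_Cx.2 c.symm))
  refine ⟨Nat.card (Nm(zpowers x) ⊓ Nm(zpowers y) : Subgroup G), _, _, (CfH1.MG.ri _ _).symm,
    by rw [inf_comm]; exact (CfH1.MG.ri _ _).symm, CfH1.MG.smod (Y.syl.mono (zpowers_le.2 (k c)) le_top),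
    CfH1.MG.smod (X.syl.mono (zpowers_le.2 (k c.symm)) le_top), ?_, ?_⟩
  · exact X.ord ▸ orderOf_dvd_natCard _ (mem_inf.2 ⟨k rfl, k c.symm⟩)
  · exact Y.ord ▸ orderOf_dvd_natCard _ (mem_inf.2 ⟨k c, k rfl⟩)

theorem opt' [IsSimpleGroup G] (hG : Nat.card G = 10200960) (hA : CN G 23 23 253) {p : ℕ} [hp : Fact p.Prime] (h2 : ¬ p ^ 2 ∣ 10200960)
    (h3 : ¬ p ∣ 23) (h4 : ¬ 23 ∣ p * Nat.factorial (p - 1)) (h5 : 10200960 ≠ p) {x : G} (hx : orderOf x = p) :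
    ∃ K, Syl p x ∧ Nat.card Cx(x) = p * K ∧ e p x ∣ p - 1 ∧ 1 < e p x ∧ ¬ p ∣ K ∧ Nat.card Nm(zpowers x) = p * e p x * K ∧
      p * e p x * K ∈ DL ∧ 10200960 / (p * e p x * K) % p = 1 := by
  obtain ⟨K, a1, a2, a3, a4, a5, a6, -, -, a8⟩ := g5 hp.out (hG ▸ h2) (hG ▸ h5) hx
  rw [hG] at a5 a6
  obtain ⟨z, hz⟩ := exists_prime_orderOf_dvd_card' (G := G) 23 (by rw [hG]; norm_num)
  have Z : Syl 23 z := ⟨hz, CfH1.MG.sylz hz (by rw [hG]; norm_num) (mem_top z)⟩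
  refine ⟨K, ⟨hx, a8⟩, a1, a3, a4, a2, by rw [card_Nm_zp hp.out hx, a1, e]; ring, ?_, a6⟩
  rw [← List.mem_toFinset, ← CfH8.PA.dl, Nat.mem_divisors]
  refine ⟨Nat.Coprime.dvd_of_dvd_mul_left (k := p * e p x * K) (m := 23) (n := 443520) (Nat.Coprime.symm ((Nat.Prime.coprime_iff_not_dvd (by norm_num)).2 fun d => ?_)) a5, by norm_num⟩
  rcases (Nat.Prime.dvd_mul (by norm_num)).1 d with d | d
  · exact h4 (d.trans (Nat.mul_dvd_mul_left _ (Nat.dvd_factorial (Nat.zero_lt_of_lt a4)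
      (Nat.le_of_dvd (Nat.sub_pos_of_lt hp.out.one_lt) a3))))
  · exact h3 ((hA z hz).1 ▸ swp Z hx (a1 ▸ d.mul_left p))

theorem n1 : ∀ e ∈ [2, 5, 10], ∀ K ∈ DL, ¬ 11 ∣ K → 11 * e * K ∈ DL → 10200960 / (11 * e * K) % 11 = 1 →
    (e, K) ∈ [(5, 1), (2, 63), (2, 448), (5, 56), (10, 28), (2, 8), (2, 30), (2, 96), (2, 140), (2, 360), (2, 1680), (2, 20160),
      (5, 12), (5, 144), (5, 672), (5, 8064), (10, 6), (10, 72), (10, 336), (10, 4032)] := by decide +kernel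
theorem n2 : ∀ A ∈ [1386, 9856, 3080], ∀ B ∈ DL, ∀ D ∈ DL, 7 ∣ D → 11 ∣ D → D ∣ A → D ∣ B → (A / D) % 7 = 1 → (B / D) % 11 = 1 →
    10200960 / B % 7 = 1 → (2 ∣ B ∨ 3 ∣ B) → A = 3080 ∧ B = 3080 := by decide +kernel
theorem n3 : ∀ B ∈ DL, ∀ D ∈ DL, 7 ∣ D → 5 ∣ D → D ∣ 3080 → D ∣ B → (3080 / D) % 5 = 1 → (B / D) % 7 = 1 →
    10200960 / B % 5 = 1 → 11 ∣ B := by decide +kernel
theorem dDL {D B : ℕ} (h : D ∣ B) (hB : B ∈ DL) : D ∈ DL := by
  rw [← List.mem_toFinset, ← CfH8.PA.dl, Nat.mem_divisors] at hB ⊢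
  exact ⟨h.trans hB.1, hB.2⟩

theorem seven [IsSimpleGroup G] (hG : Nat.card G = 10200960) (hA : CN G 23 23 253) {w : G} (W : Syl 11 w)
    (h7 : 7 ∣ Nat.card Cx(w)) (hN : Nat.card Nm(zpowers w) ∈ [1386, 9856, 3080]) : 5 ∣ Nat.card Cx(w) := by
  obtain ⟨⟨y, hy⟩, yo⟩ := exists_prime_orderOf_dvd_card' (G := Cx(w)) 7 h7
  have yo : orderOf y = 7 := (orderOf_coe _).trans yo
  obtain ⟨K, Y, b1, b2, b3, b4, b5, b6, b7⟩ := opt' hG hA (p := 7) (by norm_num) (by norm_num) (by decide) (by norm_num) yo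
  obtain ⟨D, a, b, c1, c2, c3, c4, c5, c6⟩ := ds W Y (mem_Cx.1 hy).symm
  have D0 : 0 < D := Nat.pos_of_mul_pos_right (c1 ▸ Nat.card_pos)
  have e6 : e 7 y = 2 ∨ e 7 y = 3 ∨ e 7 y = 6 := by
    have := Nat.le_of_dvd (by norm_num) b2
    generalize e 7 y = n at *
    interval_cases n <;> simp_all
  rw [b5] at c2
  obtain ⟨-, d2⟩ := n2 _ hN _ b6 D (dDL ⟨b, c2⟩ b6) c6 c5 ⟨a, c1⟩ ⟨b, c2⟩ (by rw [c1, Nat.mul_div_cancel_left _ D0, c3])
    (by rw [c2, Nat.mul_div_cancel_left _ D0, c4]) b7 (by rcases e6 with h | h | h <;> rw [h] <;> omega)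
  have h5 : 5 ∣ Nat.card Cx(y) := by rw [b1]; rcases e6 with h | h | h <;> rw [h] at d2 <;> omega
  obtain ⟨⟨v, hv⟩, vo⟩ := exists_prime_orderOf_dvd_card' (G := Cx(y)) 5 h5
  have vo : orderOf v = 5 := (orderOf_coe _).trans vo
  obtain ⟨K', V, f1, f2, f3, f4, f5, f6, f7⟩ := opt' hG hA (p := 5) (by norm_num) (by norm_num) (by decide) (by norm_num) vo
  obtain ⟨D, a, b, c1, c2, c3, c4, c5, c6⟩ := ds Y V (mem_Cx.1 hv).symm
  have D0 : 0 < D := Nat.pos_of_mul_pos_right (c1 ▸ Nat.card_pos)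
  rw [f5] at c2
  rw [b5, d2] at c1
  have := n3 _ f6 D (dDL ⟨b, c2⟩ f6) c5 c6 ⟨a, c1⟩ ⟨b, c2⟩ (by rw [c1, Nat.mul_div_cancel_left _ D0, c3])
    (by rw [c2, Nat.mul_div_cancel_left _ D0, c4]) f7
  refine swp W vo ?_
  have e4 := Nat.le_of_dvd (by norm_num) f2
  rw [f1]
  generalize e 5 v = n at *
  interval_cases n <;> omega

theorem qb : QB.{u} := fun {G} _ _ hs hG hA w hw => by
  obtain ⟨z, hz⟩ := exists_prime_orderOf_dvd_card' (G := G) 23 (by rw [hG]; norm_num)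
  have Z : Syl 23 z := ⟨hz, CfH1.MG.sylz hz (by rw [hG]; norm_num) (mem_top z)⟩
  obtain ⟨cz, nz⟩ := hA z hz
  have ez : e 23 z = 11 := by
    have := card_Nm_zp (p := 23) (by norm_num) hz
    rw [nz, cz] at this
    rw [e]; omega
  obtain ⟨K, W, b1, b2, b3, b4, b5, b6, b7⟩ := opt' hG hA (p := 11) (by norm_num) (by norm_num) (by decide) (by norm_num) hw
  obtain ⟨e0, he⟩ : ∃ e0, e 11 w = e0 := ⟨_, rfl⟩
  rw [he] at b2 b3 b5 b6 b7
  have h3 : e0 = 2 ∨ e0 = 5 ∨ e0 = 10 := by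
    have := Nat.le_of_dvd (by norm_num) b2
    clear he b5 b6 b7
    interval_cases e0 <;> simp_all
  have ev : 2 ∣ K → ¬ Good e0 K := fun h2 gd => by
    obtain ⟨⟨s, hs⟩, so⟩ := exists_prime_orderOf_dvd_card' (G := Cx(w)) 2 (b1 ▸ h2.mul_left 11)
    have so : orderOf s = 2 := (orderOf_coe _).trans so
    exact noK hG Z cz ez W he h3 b1 (by rw [← pow_two, ← so, pow_orderOf_eq_one])
      (fun k => by rw [k, orderOf_one] at so; omega) (mem_Cx.1 hs).symm gd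
  have sv := seven hG hA W
  rw [b1, b5] at sv
  have := n1 e0 (by simpa using h3) K (dDL (Dvd.intro_left _ rfl) b6) b4 b6 b7
  simp only [List.mem_cons, Prod.mk.injEq, List.not_mem_nil, or_false] at this
  rcases this with h | h | h | h | h | h | h | h | h | h | h | h | h | h | h | h | h | h | h | h <;> obtain ⟨rfl, rfl⟩ := h
  · exact ⟨b1, b5⟩
  iterate 4 exact absurd (sv (by norm_num) (by simp)) (by norm_num)
  · exact absurd good2_8 (ev (by norm_num))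
  · exact absurd good2_30 (ev (by norm_num))
  · exact absurd good2_96 (ev (by norm_num))
  · exact absurd good2_140 (ev (by norm_num))
  · exact absurd good2_360 (ev (by norm_num))
  · exact absurd good2_1680 (ev (by norm_num))
  · exact absurd good2_20160 (ev (by norm_num))
  · exact absurd good5_12 (ev (by norm_num))
  · exact absurd good5_144 (ev (by norm_num))
  · exact absurd good5_672 (ev (by norm_num))
  · exact absurd good5_8064 (ev (by norm_num))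
  · exact absurd good10_6 (ev (by norm_num))
  · exact absurd good10_72 (ev (by norm_num))
  · exact absurd good10_336 (ev (by norm_num))
  · exact absurd good10_4032 (ev (by norm_num))

end CfLm
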