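import Cfsg.Agent.OD.Pre
import Cfsg.Agent.L.CA
/-! Models of normalisers of subgroups. -/
set_option autoImplicit false
open CfH6 MulAction Subgroup
namespace CfL

structure NM {H G : Type*} [Group H] [Group G] (φ : H →* G) (K : Subgroup H) (S : Subgroup G) : Prop where
  inj : Function.Injective φ
  map : K.map φ = S
  norm : normalizer (S : Set G) = φ.range

section
variable {H G G' : Type*} [Group H] [Group G] [Group G'] {φ : H →* G} {K : Subgroup H} {S : Subgroup G}

theorem NM.equiv (h : NM φ K S) (e : G ≃* G') : NM (e.toMonoidHom.comp φ) K (S.map e.toMonoidHom) :=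
  ⟨e.injective.comp h.inj, by rw [← map_map, h.map], by
    rw [← map_equiv_normalizer_eq, h.norm, MonoidHom.range_comp]⟩

theorem NM.card (h : NM φ K S) : Nat.card S = Nat.card K := by rw [← h.map, card_map_of_injective h.inj]

theorem NM.card_norm (h : NM φ K S) : Nat.card (normalizer (S : Set G)) = Nat.card H := by
  rw [h.norm, ← Nat.card_congr (MonoidHom.ofInjective h.inj).toEquiv]

theorem NM.mem (h : NM φ K S) {a : H} : φ a ∈ S ↔ a ∈ K := by rw [← h.map, mem_map_iff_mem h.inj]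

theorem NM.cent (h : NM φ K S) (h1 : ∀ a, (∀ k ∈ K, k * a = a * k) ↔ a ∈ K) : centralizer (S : Set G) = S := by
  ext g
  constructor
  · intro hg
    obtain ⟨a, rfl⟩ := h.norm.le (centralizer_le_normalizer _ hg)
    exact h.mem.2 ((h1 a).1 fun k hk => h.inj (by rw [map_mul, map_mul]; exact hg _ (h.mem.2 hk)))
  · rw [← h.map]
    rintro ⟨a, ha, rfl⟩ _ ⟨k, hk, rfl⟩
    rw [← map_mul, ← map_mul, (h1 a).2 ha k hk]

/-- transport to an arbitrary Sylow subgroup of an isomorphic group -/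
theorem NM.sylow [Finite G'] (h : NM φ K S) (e : G ≃* G') {p : ℕ} [Fact p.Prime]
    (hc : Nat.card K = p ^ (Nat.card G').factorization p) (D : Sylow p G') :
    ∃ e' : G ≃* G', NM (e'.toMonoidHom.comp φ) K D := by
  have h1 := h.equiv e
  let D0 := Sylow.ofCard (p := p) (S.map e.toMonoidHom) (h1.card.trans hc)
  obtain ⟨g, hg⟩ := exists_smul_eq G' D0 D
  refine ⟨e.trans (MulAut.conj g), ?_⟩
  have h2 := h1.equiv (MulAut.conj g)
  rw [← hg]
  exact h2
end

theorem Rep.nm {T : Tab} {G : Type*} [Group G] [Finite G] {ev : ℕ → G} (r : Rep T ev) [IsPretransitive G r.Pt]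
    {T' : Tab} {il : List ℕ} {rels : List (List ℕ)} (g : T'.Good il rels) (σ : List (List ℕ))
    (h1 : ∀ w ∈ (List.range T'.nc).map (fun x => subst σ [x, il.getD x 0]) ++ rels.map (subst σ), evw ev w = 1)
    (b b1 : r.Pt) (m : ℕ) (l : List (ℕ × ℕ)) (d : ℕ)
    (h2 : (σ.all fun w => allLt T.nc w && Nat.beq (T.trL w b.1) b.1) = true)
    (h3 : (σ.all (allLt T.nc) && Nat.ble T'.N (popc d (T.growL σ m l (Nat.shiftLeft 1 b1.1)))) = true)
    (h4 : Nat.beq σ.length T'.nc = true) (hc : Nat.card G = T.N * T'.N) :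
    ∃ φ : TE g →* G, Function.Injective φ ∧ φ.range = stabilizer G b ∧
      ∀ a : TE g, φ a = evw ev (subst σ (T'.wl a.1)) := by
  obtain ⟨φ, e1, e2⟩ := TE.exists_hom g (byW ev σ) (fun x hx => by
    have := h1 _ (List.mem_append_left _ (List.mem_map.mpr ⟨x, List.mem_range.mpr hx, rfl⟩))
    rw [evw_subst, evw_cons, evw_cons, evw_nil, mul_one] at this
    exact eq_inv_of_mul_eq_one_right this) (fun r hr => by
    rw [← evw_subst]
    exact h1 _ (List.mem_append_right _ (List.mem_map.mpr ⟨r, hr, rfl⟩)))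
  have h4 := Nat.eq_of_beq_eq_true h4
  have hle : φ.range ≤ stabilizer G b := by
    rintro _ ⟨a, rfl⟩
    refine TE.hom_mem e1 (fun x hx => r.words_stab σ b h2 _ ?_) a
    rw [List.getD_eq_getElem _ _ (by omega)]
    exact List.getElem_mem _
  have h5 := r.orb_ge (K := φ.range) (ws := σ) (fun w hw => by
    obtain ⟨x, hx, rfl⟩ := List.getElem_of_mem hw
    refine ⟨⟨_, (g.R_spec (h4 ▸ hx) g.pos).1⟩, (e2 x _ (h4 ▸ hx) rfl).trans ?_⟩
    rw [byW, List.getD_eq_getElem _ _ hx]) b1 m l _ d h3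
  have h6 := card_orbit_mul φ.range b1
  have h7 : 0 < Nat.card (φ.range ⊓ stabilizer G b1 : Subgroup G) := Nat.card_pos
  have h8 : T'.N ≤ Nat.card φ.range := by nlinarith
  have h9 := (stabilizer G b).card_mul_index
  rw [r.index_stab, hc, mul_comm] at h9
  have h10 : 0 < T.N := Nat.zero_lt_of_lt b.2
  refine ⟨φ, ?_, eq_of_le_of_card_ge hle (by rw [Nat.eq_of_mul_eq_mul_left h10 h9]; exact h8), fun a => by
    rw [e1, evw_subst]⟩
  have := (φ.rangeRestrict_surjective.bijective_of_nat_card_le (by rw [TE.card]; exact h8)).1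
  exact fun a c e => this (Subtype.ext e)

theorem Rep.nm' {T : Tab} {G : Type*} [Group G] {ev : ℕ → G} (r : Rep T ev) {H : Type*} [Group H] {φ : H →* G}
    {b : r.Pt} (h1 : Function.Injective φ) (h2 : φ.range = stabilizer G b) (K : Subgroup H) [hK : K.Normal]
    (h3 : ∀ i : r.Pt, (∀ s ∈ K.map φ, s • i = i) → i = b) : NM φ K (K.map φ) :=
  ⟨h1, rfl, le_antisymm (h2 ▸ normalizer_le_stab (h2 ▸ map_le_range φ K) h3) (by
    rw [MonoidHom.range_eq_map, ← normalizer_eq_top_iff.2 hK]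
    exact le_normalizer_map φ)⟩

/-- the elements killed by `n` -/
def tors {H : Type*} [Group H] (n : ℕ) (h : ∀ a b : H, a ^ n = 1 → b ^ n = 1 → (a * b) ^ n = 1) : Subgroup H where
  carrier := {a | a ^ n = 1}
  one_mem' := one_pow n
  mul_mem' := fun ha hb => h _ _ ha hb
  inv_mem' := fun {a} ha => by change a⁻¹ ^ n = 1; rw [inv_pow, show a ^ n = 1 from ha, inv_one]

instance {H : Type*} [Group H] (n : ℕ) (h : ∀ a b : H, a ^ n = 1 → b ^ n = 1 → (a * b) ^ n = 1) :
    (tors n h).Normal := ⟨fun a ha g => by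
  change (g * a * g⁻¹) ^ n = 1
  rw [conj_pow, show a ^ n = 1 from ha, mul_one, mul_inv_cancel]⟩

end CfL
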