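import Cfsg.Agent.OD.Pre
import Cfsg.Agent.L.SuT1
import Cfsg.Agent.H6.G2G
import Cfsg.Agent.H6.Iso
import Cfsg.Agent.OD.Leadx81fc8fe19b
import Cfsg.Agent.OD.Leadx902790a749
/-! Subgroups of index 416 in `G₂(4)`. -/
set_option autoImplicit false
set_option maxRecDepth 100000
open CfH6 MulAction Subgroup
namespace CfL
namespace SuA

abbrev X : Type := G2B.G
instance : Finite X := G2O.finG.1
noncomputable def r : Rep sA G2B.el := Classical.choice sA_act.rep
instance : IsPretransitive X r.Pt := r.trans _ (r.pt 0) 3 sAtr sAtr_ok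
noncomputable abbrev p0 : r.Pt := r.pt 0
noncomputable abbrev z : X := evw G2B.el sAz

theorem card_stab : Nat.card (stabilizer X p0) = 120960 :=
  card_of_index G2G.card (r.index_stab p0) (by decide)

theorem stab_eq : gensub (byW G2B.el sAN) 5 = stabilizer X p0 :=
  eq_of_le_of_card_ge (gen_le (r.words_stab sAN p0 (by decide +kernel)) _)
    (card_stab.le.trans (le_trans (by decide +kernel) (r.chain_ge (byW_gen G2B.el sAN) 12 sAch sAch_ok)))

theorem base : ∀ g ∈ r.Fx sAbs, g = 1 := fun g hg =>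
  r.chain_base (byW_gen G2B.el sAN) 12 sAch sAch_ok
    ((congrArg (fun K : Subgroup X => Nat.card K) stab_eq).le.trans (card_stab.le.trans (by decide +kernel))) g
    (stab_eq.ge (hg p0 List.mem_cons_self)) fun i hi => hg i (List.mem_cons_of_mem _ hi)

theorem rev (w : List ℕ) (h : ∀ x ∈ w, x < 6) : evw G2B.el w.reverse = (evw G2B.el w)⁻¹ := by
  rw [← evw_invw G2B.el G2B.il 6 G2B.hinv w h, invw]
  congr 2
  refine (List.map_id w).symm.trans (List.map_congr_left fun x hx => ?_)
  have := h x hx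
  interval_cases x <;> rfl

theorem weq (u v : List ℕ) (h : (allLt 6 v && ([u ++ v.reverse].all fun w => allLt sA.nc w &&
    sAbs.all fun b => Nat.beq (sA.trL w b) b)) = true) : evw G2B.el u = evw G2B.el v := by
  rw [Bool.and_eq_true] at h
  have := r.wone base _ h.2 _ List.mem_cons_self
  rwa [evw_append, rev v (allLt_sound h.1), mul_inv_eq_one] at this

theorem norm_z {x : X} (hx : x ∈ stabilizer X p0) : x * z * x⁻¹ ∈ zpowers z := by
  have h : gensub (byW G2B.el sAN) 5 ≤ normalizer (zpowers z : Set X) := gen_le (fun w hw => by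
    have key : ∀ k, k < 6 → evw G2B.el ([k] ++ sAz ++ [k].reverse) ∈ zpowers z →
        evw G2B.el [k] ∈ normalizer (zpowers z : Set X) := fun k hk h => by
      rw [evw_append, evw_append, rev _ (by simpa using hk)] at h
      refine mem_normalizer_fintype ?_
      rintro _ ⟨n, rfl⟩
      have := zpow_mem h n
      rwa [conj_zpow] at this
    simp only [sAN, List.mem_cons, List.not_mem_nil, or_false] at hw
    rcases hw with rfl | rfl | rfl | rfl | rfl
    · exact key 0 (by decide) (by rw [weq _ sAz (by decide +kernel)]; exact mem_zpowers _)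
    · exact key 1 (by decide) (by rw [weq _ sAz (by decide +kernel)]; exact mem_zpowers _)
    · exact key 2 (by decide) (by rw [weq _ sAz (by decide +kernel)]; exact mem_zpowers _)
    · refine key 3 (by decide) ?_
      rw [weq _ sAz.reverse (by decide +kernel), rev _ (by decide)]
      exact inv_mem (mem_zpowers _)
    · exact key 5 (by decide) (by rw [weq _ sAz (by decide +kernel)]; exact mem_zpowers _)) _
  exact (mem_normalizer_iff.1 (h (stab_eq.ge hx)) z).1 (mem_zpowers z)

def D (Y : Subgroup X) : Set r.Pt := {i | ∃ x : X, x • p0 = i ∧ x * z * x⁻¹ ∈ Y}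

theorem D_smul {Y : Subgroup X} {y : X} (hy : y ∈ Y) {i : r.Pt} (h : i ∈ D Y) : y • i ∈ D Y := by
  obtain ⟨x, rfl, hx⟩ := h
  exact ⟨y * x, mul_smul _ _ _, by simpa [mul_assoc] using Y.mul_mem (Y.mul_mem hy hx) (Y.inv_mem hy)⟩

theorem D_all {Y : Subgroup X} {x : X} (h : x • p0 ∈ D Y) : x * z * x⁻¹ ∈ Y := by
  obtain ⟨y, e, hy⟩ := h
  obtain ⟨n, hn⟩ := norm_z (x := y⁻¹ * x) (by rw [mem_stabilizer_iff, mul_smul, ← e, inv_smul_smul])
  have := zpow_mem hy n
  rw [conj_zpow, show z ^ n = _ from hn] at this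
  simpa [mul_assoc] using this

def kw (u : List ℕ) : List (List ℕ) := sAp ++ [u.reverse ++ sAz ++ u]

theorem kw_mem {Y : Subgroup X} (hP : ∀ w ∈ sAp, evw G2B.el w ∈ Y) {u : List ℕ} (hu : allLt 6 u = true)
    (h : (evw G2B.el u)⁻¹ • p0 ∈ D Y) (v : List ℕ) : evw G2B.el (subst (kw u) v) ∈ Y :=
  evw_sub (byW_mem (forall_app hP (forall_cons (by
    rw [evw_append, evw_append, rev u (allLt_sound hu)]
    simpa using D_all h) forall_nil))) v

def tg0 : List (List ℕ) := [[0], [1], [2], [3], [4]]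
def tg1 : List (List ℕ) := tg0.map fun w => sAs.reverse ++ w ++ sAs

def Good (Y : Subgroup X) : Prop :=
  13 ∣ Nat.card Y ∨ (∀ w ∈ tg0, evw G2B.el w ∈ Y) ∨ ∀ w ∈ tg1, evw G2B.el w ∈ Y

noncomputable def c13 (c : List ℕ × List ℕ) : Bool :=
  allLt 6 c.1 && (allLt sA.nc (subst (kw c.1) c.2) && Nat.beq (sA.trL (wpow (subst (kw c.1) c.2) 13) 0) 0 &&
    !Nat.beq (sA.trL (subst (kw c.1) c.2) 0) 0)

noncomputable def cJ (tg : List (List ℕ)) (c : List ℕ × List (List ℕ)) : Bool :=
  allLt 6 c.1 && (List.range tg.length).all fun k => allLt 6 (tg.getD k []) &&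
    [subst (kw c.1) (c.2.getD k []) ++ (tg.getD k []).reverse].all fun w => allLt sA.nc w &&
      sAbs.all fun b => Nat.beq (sA.trL w b) b

theorem k13 : sA13.all c13 = true := by decide +kernel
theorem kJ0 : sAJ0.all (cJ tg0) = true := by decide +kernel
theorem kJ1 : sAJ1.all (cJ tg1) = true := by decide +kernel

theorem cJ_sound {Y : Subgroup X} (hP : ∀ w ∈ sAp, evw G2B.el w ∈ Y) {tg : List (List ℕ)}
    {c : List ℕ × List (List ℕ)} (hc : cJ tg c = true) (h : (evw G2B.el c.1)⁻¹ • p0 ∈ D Y) :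
    ∀ w ∈ tg, evw G2B.el w ∈ Y := fun w hw => by
  rw [cJ, Bool.and_eq_true] at hc
  obtain ⟨k, hk, rfl⟩ := List.getElem_of_mem hw
  have := weq _ _ (List.all_eq_true.1 hc.2 k (List.mem_range.2 hk))
  rw [List.getD_eq_getElem tg _ hk] at this
  exact this ▸ kw_mem hP hc.1 h _

def reps : List (List ℕ) := sA13.map Prod.fst ++ sAJ0.map Prod.fst ++ sAJ1.map Prod.fst

theorem kcov : (sAp.all (allLt sA.nc) && reps.all (allLt sA.nc) && Nat.beq (Nat.succ (Nat.lor sAU (sA.growL sAp 1 sAcov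
    (reps.foldr (fun u S => Nat.lor S (Nat.shiftLeft 1 (sA.trL u 0))) 0)))) (Nat.shiftLeft 1 sA.N)) = true := by
  decide +kernel

theorem D_sub {Y : Subgroup X} (hP : ∀ w ∈ sAp, evw G2B.el w ∈ Y) (hY : ¬ Good Y) (i : r.Pt) (hi : i ∈ D Y) :
    sAU.testBit i.1 = true := by
  have h := kcov
  simp only [Bool.and_eq_true] at h
  have h0 : ∀ u ∈ reps, (evw G2B.el u)⁻¹ • p0 ∉ D Y := fun u hu hD => hY <| by
    simp only [reps, List.mem_append, List.mem_map] at hu
    rcases hu with (⟨c, hc, rfl⟩ | ⟨c, hc, rfl⟩) | ⟨c, hc, rfl⟩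
    · have := List.all_eq_true.1 k13 c hc
      rw [c13, Bool.and_eq_true] at this
      exact Or.inl ((r.dvd_order _ p0 (by norm_num) this.2).trans
        (orderOf_dvd_natCard Y (kw_mem hP this.1 hD _)))
    · exact Or.inr (Or.inl (cJ_sound hP (List.all_eq_true.1 kJ0 c hc) hD))
    · exact Or.inr (Or.inr (cJ_sound hP (List.all_eq_true.1 kJ1 c hc) hD))
  have h1 : ∀ vs : List (List ℕ), (∀ u ∈ vs, u ∈ reps) →
      r.Sub (vs.foldr (fun u S => Nat.lor S (Nat.shiftLeft 1 (sA.trL u 0))) 0) (D Y)ᶜ := by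
    intro vs
    induction vs with
    | nil => intro _ i hi; simp at hi
    | cons v vs ih =>
      intro hv i hi
      change Nat.testBit (_ ||| _) i = true at hi
      rw [Nat.testBit_or, Bool.or_eq_true] at hi
      rcases hi with hi | hi
      · exact ih (fun u hu => hv u (List.mem_cons_of_mem _ hu)) i hi
      · have := hv v List.mem_cons_self
        exact ⟨_, h0 v this, by rw [r.word (allLt_all h.1.2 v this), ← bit_one hi]; rfl⟩
  have h2 := r.growL_sub h.1.1 (A := (D Y)ᶜ) (fun w hw a ha hD => ha (by simpa using D_smul (hP w hw) hD)) 1 sAcov _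
    (h1 reps fun _ h => h)
  have h3 : r.Sub (Nat.lor sAU (sA.growL sAp 1 sAcov
      (reps.foldr (fun u S => Nat.lor S (Nat.shiftLeft 1 (sA.trL u 0))) 0)))
      ({i | sAU.testBit i.1 = true} ∪ (D Y)ᶜ) := fun j hj => by
    have hj' : j < sA.N := by
      rw [show Nat.lor _ _ = Nat.pred (Nat.shiftLeft 1 sA.N) by rw [← Nat.eq_of_beq_eq_true h.2]; rfl,
        testBit_mask] at hj
      exact of_decide_eq_true hj
    change Nat.testBit (_ ||| _) j = true at hj
    rw [Nat.testBit_or, Bool.or_eq_true] at hj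
    rcases hj with hj | hj
    · exact ⟨⟨j, hj'⟩, Or.inl hj, rfl⟩
    · obtain ⟨a, ha, e⟩ := h2 j hj
      exact ⟨a, Or.inr ha, e⟩
  exact (h3.all r h.2 i).resolve_right fun h => h hi

theorem good {Y : Subgroup X} (hP : ∀ w ∈ sAp, evw G2B.el w ∈ Y) (hc : Nat.card Y = 604800) : Good Y := by
  by_contra hY
  have hz : p0 ∈ D Y := ⟨1, one_smul _ _, by
    rw [one_mul, inv_one, mul_one, z, weq sAz (subst sAp sAzv) (by decide +kernel)]
    exact evw_sub (byW_mem hP) _⟩
  have h28 : ∀ (L : Subgroup X) (i : r.Pt), L ≤ Y → i ∈ D Y → (orbit L i).ncard ≤ 28 := fun L i hL hi =>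
    r.ncard_le (bitN sAU) (fun j hj => by
      obtain ⟨y, rfl⟩ := hj
      rw [bitN_eq]; exact D_sub hP hY _ (D_smul (hL y.2) hi)) 28 (by decide +kernel)
  have h1 := card_orbit_mul Y p0
  by_cases h : Y ≤ stabilizer X p0
  · have := card_le_of_le h
    rw [card_stab, hc] at this
    omega
  obtain ⟨y, hy, hn⟩ := SetLike.not_le_iff_exists.1 h
  have h2 : r.pt 47 ∈ D Y := by
    have h3 := D_sub hP hY _ (D_smul hy hz)
    have h4 : Nat.lor 1 (sA.growL sAp 1 sA27 (Nat.shiftLeft 1 47)) = sAU := Nat.eq_of_beq_eq_true (by decide +kernel)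
    rw [← h4] at h3
    change Nat.testBit (_ ||| _) _ = true at h3
    rw [Nat.testBit_or, Bool.or_eq_true] at h3
    rcases h3 with h3 | h3
    · exact absurd (Subtype.ext (bit_one (b := 0) h3).symm) hn
    · obtain ⟨a, ⟨k, hk⟩, e⟩ := r.orb_sub (K := Y) (by decide +kernel) hP (r.pt 47) 1 sA27 _ h3
      have := D_smul (Y.inv_mem k.2) (D_smul hy hz)
      rwa [← Subtype.ext e, ← hk, show (fun m : Y => m • r.pt 47) k = (k : X) • r.pt 47 from rfl,
        inv_smul_smul] at this
  have h3 := card_orbit_mul (Y ⊓ stabilizer X p0) (r.pt 47)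
  have h4 := card_orbit_mul (stabilizer X p0) (r.pt 47)
  have h5 := r.orb_ge (r.words_stab sAN p0 (by decide +kernel)) (r.pt 47) 3 sA945 945 12 sA945_ok
  have h6 := card_le_of_le (inf_le_inf_right (stabilizer X (r.pt 47)) (inf_le_right : Y ⊓ stabilizer X p0 ≤ _))
  have h7 := h28 Y p0 le_rfl hz
  have h8 := h28 _ _ (inf_le_left : Y ⊓ stabilizer X p0 ≤ Y) h2
  rw [card_stab] at h4
  rw [hc, h3] at h1
  have h9 : Nat.card (stabilizer X p0 ⊓ stabilizer X (r.pt 47) : Subgroup X) ≤ 128 := by nlinarith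
  have := Nat.mul_le_mul h7 (Nat.mul_le_mul h8 (h6.trans h9))
  omega

theorem cardJ : Nat.card (gensub G2B.el 5) = 604800 := by
  rw [← gensub_id G2B.el (σ := G2A.ws1) (by decide)]
  exact card_of_index G2G.card G2G.stab.2 (by decide)

theorem cls (Y : Subgroup X) (hc : Nat.card Y = 604800) : ∃ x : X, ∀ y, y ∈ Y ↔ x⁻¹ * y * x ∈ gensub G2B.el 5 := by
  have : Fact (Nat.Prime 3) := ⟨by norm_num⟩
  obtain ⟨φ, -, e2⟩ := TE.exists_hom sP_g (byW G2B.el [[1, 2], [2, 1], [0, 1, 0, 3, 2, 1, 0, 1, 3],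
    [3, 1, 0, 1, 2, 3, 0, 1, 0]]) (fun x hx => by
      refine eq_inv_of_mul_eq_one_right ?_
      have := r.wone base ((List.range 4).map fun x => subst [[1, 2], [2, 1], [0, 1, 0, 3, 2, 1, 0, 1, 3],
        [3, 1, 0, 1, 2, 3, 0, 1, 0]] [x, sPil.getD x 0]) (by decide +kernel) _
        (List.mem_map.2 ⟨x, List.mem_range.2 hx, rfl⟩)
      rwa [evw_subst, evw_cons, evw_cons, evw_nil, mul_one] at this) fun w hw => by
      rw [← evw_subst]
      exact r.wone base (sPrels.map (subst _)) (by decide +kernel) _ (List.mem_map.2 ⟨w, hw, rfl⟩)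
  have hp : IsPGroup 3 φ.range := by
    rw [MonoidHom.range_eq_map]
    exact (IsPGroup.of_card (n := 3) (by rw [card_top, TE.card]; rfl)).map φ
  obtain ⟨Q, hQ⟩ := hp.exists_le_sylow
  obtain ⟨R⟩ : Nonempty (Sylow 3 Y) := inferInstance
  have hR : Nat.card (R.1.map Y.subtype) = 3 ^ (Nat.card X).factorization 3 := by
    rw [card_map_of_injective Y.subtype_injective, R.card_eq_multiplicity, hc, G2G.card]
    congr 1
    rw [Nat.factorization_def _ (by norm_num), Nat.factorization_def _ (by norm_num),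
      show 604800 = 3 ^ 3 * 22400 by norm_num, show 251596800 = 3 ^ 3 * 9318400 by norm_num,
      padicValNat.mul (by norm_num) (by norm_num), padicValNat.mul (by norm_num) (by norm_num),
      padicValNat.eq_zero_of_not_dvd (n := 22400) (by norm_num),
      padicValNat.eq_zero_of_not_dvd (n := 9318400) (by norm_num)]
  obtain ⟨g, hg⟩ := exists_smul_eq X (Sylow.ofCard _ hR) Q
  let Y' := Y.map (MulAut.conj g).toMonoidHom
  have hY : ∀ y, y ∈ Y ↔ g * y * g⁻¹ ∈ Y' := fun y => (mem_map_iff_mem (MulAut.conj g).injective).symm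
  have hc' : Nat.card Y' = 604800 := by rw [card_map_of_injective (MulAut.conj g).injective, hc]
  have hle : φ.range ≤ Y' := hQ.trans (by
    rw [← hg]
    exact map_mono (map_subtype_le R.1))
  have hP : ∀ w ∈ sAp, evw G2B.el w ∈ Y' := forall_cons (hle ⟨TE.mk sP_g 1, e2 0 _ (by decide) rfl⟩)
    (forall_cons (hle ⟨TE.mk sP_g 3, e2 2 _ (by decide) rfl⟩) forall_nil)
  rcases good hP hc' with h | h | h
  · rw [hc'] at h; omega
  · have : gensub G2B.el 5 = Y' := eq_of_le_of_card_ge (by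
      rw [← gensub_id G2B.el (σ := tg0) (by decide)]; exact gen_le h _) (by rw [hc', cardJ])
    exact ⟨g⁻¹, fun y => by rw [this, hY, inv_inv]⟩
  · let s := evw G2B.el sAs
    have : gensub G2B.el 5 = Y'.map (MulAut.conj s).toMonoidHom := eq_of_le_of_card_ge (gensub_le fun x hx => by
      refine ⟨_, h _ (List.mem_map.2 ⟨[x], by interval_cases x <;> simp [tg0], rfl⟩), ?_⟩
      rw [evw_append, evw_append, rev _ (by decide)]
      simp [s, mul_assoc]) (by rw [card_map_of_injective (MulAut.conj s).injective, hc', cardJ])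
    refine ⟨(s * g)⁻¹, fun y => ?_⟩
    rw [this, hY, ← mem_map_iff_mem (f := (MulAut.conj s).toMonoidHom) (MulAut.conj s).injective]
    simp [mul_assoc]

end SuA
end CfL
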