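import Cfsg.Agent.OD.Pre
import Cfsg.Agent.L.SuT2
import Cfsg.Agent.L.SuA
import Cfsg.Agent.H6.Suz
/-! The rank 3 action of the presented sporadic Suzuki group. -/
set_option autoImplicit false
set_option maxRecDepth 100000
open CfH6 MulAction Subgroup
namespace CfL
namespace SuB

abbrev S : Type := SuzB.G
noncomputable abbrev el : ℕ → S := SuzB.el
instance : Finite S := SuzO.finG.1

theorem exRep : Nonempty (Rep sB el) := by
  obtain ⟨r⟩ := sB_act.rep
  obtain ⟨ψ, h⟩ := SuzB.hhom (wel 7 SuzB.il SuzB.rels) (wp_inv _ _ _) (wp_rel _ _ _)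
  exact ⟨r.comap ψ h⟩

noncomputable def r : Rep sB el := Classical.choice exRep
instance : IsPretransitive S r.Pt :=
  r.trans [[0], [1], [2], [3], [4], [5], [6]] (r.pt 416) 3 sBtr (by decide +kernel)
noncomputable abbrev p0 : r.Pt := r.pt 416
noncomputable abbrev b0 : r.Pt := r.pt 415
noncomputable abbrev c0 : r.Pt := r.pt 0
noncomputable abbrev d0 : r.Pt := r.pt 1
def g6 : List (List ℕ) := [[0], [1], [2], [3], [4], [5]]
def g5 : List (List ℕ) := [[0], [1], [2], [3], [4]]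

theorem card_stab : Nat.card (stabilizer S p0) = 251596800 := card_of_index Suz.card (r.index_stab p0) (by decide)

theorem h6 : ∀ w ∈ g6, evw el w ∈ stabilizer S p0 := r.words_stab g6 p0 (by decide +kernel)

theorem X_eq : gensub (byW el g6) 6 = stabilizer S p0 :=
  eq_of_le_of_card_ge (gen_le h6 _) (card_stab.trans (card_of_index Suz.card Suz.stab.2 (by decide)).symm).le

noncomputable def J : Subgroup S := stabilizer S p0 ⊓ stabilizer S b0
noncomputable def U : Subgroup S := J ⊓ stabilizer S c0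

theorem h5 : ∀ w ∈ g5, evw el w ∈ J := fun w hw =>
  ⟨r.words_stab g5 p0 (by decide +kernel) w hw, r.words_stab g5 b0 (by decide +kernel) w hw⟩

theorem iota : ∃ ι : G2B.G →* S, Function.Injective ι ∧ ι.range = stabilizer S p0 ∧ ∀ x < 6, ι (G2B.el x) = el x := by
  obtain ⟨ι, h⟩ := G2B.hhom el (fun x hx => by
    rw [← SuzB.hinv x (by omega)]; interval_cases x <;> rfl) fun w hw => SuzB.hrel w (by
      revert w; decide +kernel)
  have := G2G.simple
  refine ⟨ι, inj_of_simple ι (g := G2B.el 0) ?_, ?_, h⟩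
  · rw [h 0 (by decide)]
    simpa using r.ne_one [0] (r.pt 2) (by decide +kernel)
  · rw [range_hom h G2B.htop, ← X_eq, gensub_id el (by decide)]

theorem mapJ {ι : G2B.G →* S} (h : ∀ x < 6, ι (G2B.el x) = el x) : (gensub G2B.el 5).map ι = gensub el 5 := by
  rw [gensub, MonoidHom.map_closure, gensub, Set.image_image]
  congr 1
  exact Set.image_congr fun x hx => h x (Nat.lt_succ_of_lt hx)

theorem J_eq : gensub (byW el g5) 5 = J ∧ Nat.card J = 604800 := by
  obtain ⟨ι, h1, -, h3⟩ := iota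
  have e : Nat.card (gensub (byW el g5) 5) = 604800 := by
    rw [gensub_id el (by decide), ← mapJ h3, card_map_of_injective h1, SuA.cardJ]
  have h4 := card_orbit_mul (stabilizer S p0) b0
  have h7 := r.orb_ge h6 b0 3 sB416 416 11 (by decide +kernel)
  rw [card_stab] at h4
  have : gensub (byW el g5) 5 = J := eq_of_le_of_card_ge (gen_le h5 _) (by rw [e, J]; nlinarith)
  exact ⟨this, this ▸ e⟩

theorem cls (Y : Subgroup S) (hY : Y ≤ stabilizer S p0) (hc : Nat.card Y = 604800) :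
    ∃ x : S, x • p0 = p0 ∧ ∀ y, y • p0 = p0 → (y ∈ Y ↔ y • x • b0 = x • b0) := by
  obtain ⟨ι, h1, h2, h3⟩ := iota
  obtain ⟨x, hx⟩ := SuA.cls (Y.comap ι) (by
    rw [← card_map_of_injective h1, map_comap_eq_self (h2 ▸ hY), hc])
  have hx' : ι x • p0 = p0 := h2.le ⟨x, rfl⟩
  refine ⟨ι x, hx', fun y hy => ?_⟩
  obtain ⟨y, rfl⟩ := h2.ge hy
  rw [← mem_comap, hx, ← mem_map_iff_mem h1, mapJ h3, ← gensub_id el (σ := g5) (by decide), J_eq.1, J, mem_inf,
    mem_stabilizer_iff, mem_stabilizer_iff]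
  simp only [map_mul, map_inv, mul_smul, inv_smul_eq_iff, hx', hy, true_and]

theorem baseB (g : S) (h : g • p0 = p0) (hg : g ∈ r.Fx sBbs) : g = 1 :=
  r.chain_base (byW_mem h6) 11 sBch (by decide +kernel) (card_stab.le.trans (by decide +kernel)) g h hg

theorem base : ∀ g ∈ r.Fx (416 :: sBbs), g = 1 := fun g hg =>
  baseB g (hg p0 List.mem_cons_self) fun i hi => hg i (List.mem_cons_of_mem _ hi)

theorem wU (ws : List (List ℕ)) (h : (ws.all fun w => allLt sB.nc w && [416, 415, 0].all fun b =>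
    Nat.beq (sB.trL w b) b) = true) : ∀ w ∈ ws, evw el w ∈ U := fun w hw => by
  have := List.all_eq_true.1 h w hw
  rw [Bool.and_eq_true] at this
  have := r.word_Fx (allLt_sound this.1) this.2
  exact ⟨⟨this p0 (by decide), this b0 (by decide)⟩, this c0 (by decide)⟩

theorem hu : ∀ w ∈ sBu, evw el w ∈ U := wU _ (by decide +kernel)

theorem o36 (i : r.Pt) (h : (rowM sBA 100 0).testBit i.1 = true) : i ∈ orbit U d0 := by
  have e : sB.growL sBu 1 sB36 (Nat.shiftLeft 1 1) = rowM sBA 100 0 := Nat.eq_of_beq_eq_true (by decide +kernel)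
  obtain ⟨a, ha, e⟩ := r.orb_sub (by decide +kernel) hu d0 1 sB36 _ (e ▸ h)
  exact Subtype.ext e ▸ ha

theorem cent (x : S) (hx : x • p0 = p0) (h : ∀ u ∈ U, u * x = x * u) : x = 1 := by
  have hl := wU (sBu1 :: sBl) (by decide +kernel)
  have key : ∀ w ∈ sBu1 :: sBl, (sB.trL w (x • d0).1 = (x • d0).1 ↔ sB.trL w 1 = 1) := fun w hw => by
    have h1 := allLt_all (ws := sBu1 :: sBl) (k := sB.nc) (by decide +kernel) w hw
    rw [← r.fix_iff h1, ← mul_smul, h _ (hl w hw), mul_smul, smul_left_cancel_iff]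
    exact r.fix_iff h1 d0
  have h1 : x • d0 = d0 := by
    have := (allN_iff _ _).1 (show allN (fun i => Nat.beq i 1 || Nat.beq (sB.trL sBu1 i) i ||
      sBl.any fun w => !Nat.beq (sB.trL w i) i) sB.N = true by decide +kernel) _ (x • d0).2
    simp only [Bool.or_eq_true, Nat.beq_eq, List.any_eq_true] at this
    rcases this with (e | e) | ⟨w, hw, e⟩
    · exact Subtype.ext e
    · exact absurd ((key _ List.mem_cons_self).1 e) (by decide +kernel)
    · rw [(key w (List.mem_cons_of_mem _ hw)).2 (by clear e; revert w; decide +kernel), Nat.beq_refl] at e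
      exact absurd e (by decide)
  refine baseB x hx fun i hi => ?_
  obtain ⟨u, rfl⟩ := o36 i (List.all_eq_true.1 (show sBbs.all (fun i => (rowM sBA 100 0).testBit i) = true by
    decide +kernel) _ hi)
  change x • (u : S) • d0 = (u : S) • d0
  rw [← mul_smul, ← h _ u.2, mul_smul, h1]

theorem lam (i : r.Pt) (h : i.1 < 100) : i ∈ orbit J c0 := by
  have e : sB.growL g5 3 sB100 (Nat.shiftLeft 1 0) = Nat.pred (Nat.shiftLeft 1 100) :=
    Nat.eq_of_beq_eq_true (by decide +kernel)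
  obtain ⟨a, ha, e⟩ := r.orb_sub (by decide +kernel) h5 c0 3 sB100 i.1 (by
    change Nat.testBit (sB.growL g5 3 sB100 (Nat.shiftLeft 1 0)) _ = true
    rw [e, testBit_mask]; exact decide_eq_true h)
  exact Subtype.ext e ▸ ha

theorem delta (x : S) (hx : x • p0 = p0) : x • b0 = b0 ∨ (x • b0).1 < 100 ∨
    ∀ y ∈ J, y • x • b0 = x • b0 → y ^ 7 = 1 → y = 1 := by
  have h1 := blt1 (r.closed (fun i => Nat.blt i 416) g6 (by decide +kernel) (X_eq.ge hx) b0 rfl)
  by_cases h2 : (x • b0).1 = 415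
  · exact Or.inl (Subtype.ext h2)
  by_cases h3 : (x • b0).1 < 100
  · exact Or.inr (Or.inl h3)
  refine Or.inr (Or.inr fun y hy e h7 => ?_)
  have e1 : sB.growL g5 3 sB315 (Nat.shiftLeft 1 100) =
      Nat.xor (Nat.pred (Nat.shiftLeft 1 415)) (Nat.pred (Nat.shiftLeft 1 100)) :=
    Nat.eq_of_beq_eq_true (by decide +kernel)
  obtain ⟨a, ha, e2⟩ := r.orb_sub (by decide +kernel) h5 (r.pt 100) 3 sB315 (x • b0).1 (by
    change Nat.testBit (sB.growL g5 3 sB315 (Nat.shiftLeft 1 100)) _ = true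
    rw [e1]
    change Nat.testBit (_ ^^^ _) _ = true
    rw [Nat.testBit_xor, testBit_mask, testBit_mask, decide_eq_true (by omega), decide_eq_false h3]; rfl)
  have h4 := r.orb_ge h5 (r.pt 100) 3 sB315 315 11 (by decide +kernel)
  have h8 := r.ncard_le (fun i => Nat.ble 100 i && Nat.blt i 415) (A := orbit J (r.pt 100)) (fun i hi => by
    obtain ⟨k, rfl⟩ := hi
    exact r.closed (fun i => Nat.ble 100 i && Nat.blt i 415) g5 (by decide +kernel) (J_eq.1.ge k.2) _ rfl) 315 (by decide +kernel)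
  have h9 := card_orbit_mul J (x • b0)
  rw [← Subtype.ext e2, orbit_eq_iff.2 ha, le_antisymm h8 h4, J_eq.2, Subtype.ext e2] at h9
  by_contra hn
  have : Fact (Nat.Prime 7) := ⟨by norm_num⟩
  have := orderOf_dvd_natCard (J ⊓ stabilizer S (x • b0)) (x := y) ⟨hy, e⟩
  rw [orderOf_eq_prime h7 hn] at this
  omega

theorem presJ : J ≤ r.Pres sBA 100 := J_eq.1 ▸ gen_le (fun w hw => r.pres_word _ _ w
  (List.all_eq_true.1 (show g5.all (sB.presW sBA 100) = true by decide +kernel) w hw)) _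

noncomputable def Sw : Subgroup S :=
  subOf (fun k => (k • p0 = p0 ∧ k • b0 = b0) ∨ (k • p0 = b0 ∧ k • b0 = p0)) (by simp) fun a b ha hb => by
    rcases ha with ⟨a1, a2⟩ | ⟨a1, a2⟩ <;> rcases hb with ⟨b1, b2⟩ | ⟨b1, b2⟩ <;> simp [mul_smul, a1, a2, b1, b2]

noncomputable abbrev t0 : S := evw el sBt
noncomputable abbrev s0 : S := evw el sBs

theorem wmap (w : List ℕ) (i j : r.Pt) (h : (allLt sB.nc w && Nat.beq (sB.trL w j.1) i.1) = true) :
    evw el w • i = j := by
  rw [Bool.and_eq_true] at h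
  rw [← eq_inv_smul_iff]
  exact Subtype.ext ((r.word (allLt_sound h.1) j).trans (Nat.eq_of_beq_eq_true h.2)).symm

theorem ht : t0 • p0 = b0 ∧ t0 • b0 = p0 ∧ t0 • c0 = c0 :=
  ⟨wmap _ _ _ (by decide +kernel), wmap _ _ _ (by decide +kernel), wmap _ _ _ (by decide +kernel)⟩

theorem hs : s0 • p0 = p0 ∧ s0 • b0 = c0 ∧ s0 • c0 = b0 :=
  ⟨wmap _ _ _ (by decide +kernel), wmap _ _ _ (by decide +kernel), wmap _ _ _ (by decide +kernel)⟩

theorem kst : sB.stps sBA 100 (g5 ++ [sBt]) sBst [0] = true := by decide +kernel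

theorem aut (τ : S → S) (h1 : ∀ y ∈ J, τ y ∈ J) (hm : ∀ x ∈ J, ∀ y ∈ J, τ (x * y) = τ x * τ y)
    (h3 : ∀ x ∈ J, ∀ y ∈ J, (τ x • c0 = τ y • c0 ↔ x • c0 = y • c0)) (h4 : ∀ y ∈ J, ∃ x ∈ J, τ x = y) :
    ∃ k ∈ Sw, k • c0 = c0 ∧ ∀ y ∈ J, τ y = k * y * k⁻¹ := by
  have : ∀ i : r.Pt, ∃ j ∈ J, i.1 < 100 → j • c0 = i := fun i => by
    by_cases h : i.1 < 100
    · obtain ⟨j, hj⟩ := lam i h
      exact ⟨j, j.2, fun _ => hj⟩
    · exact ⟨1, J.one_mem, fun h' => absurd h' h⟩
  choose j hj1 hj2 using this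
  have t1 : τ 1 = 1 := by simpa using hm 1 J.one_mem 1 J.one_mem
  let σ : r.Pt → r.Pt := fun i => τ (j i) • c0
  have lt : ∀ y ∈ J, ∀ i : r.Pt, i.1 < 100 → (y • i).1 < 100 := fun y hy i hi => (presJ hy i hi).1
  have c1 : c0.1 < 100 := by decide
  have d1 : d0.1 < 100 := by decide
  have eqv : ∀ y ∈ J, ∀ i : r.Pt, i.1 < 100 → σ (y • i) = τ y • σ i := fun y hy i hi => by
    simp only [σ]
    rw [← mul_smul, ← hm _ hy _ (hj1 i), h3 _ (hj1 _) _ (J.mul_mem hy (hj1 i)), hj2 _ (lt y hy i hi), mul_smul,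
      hj2 i hi]
  have sc : σ c0 = c0 := by
    simp only [σ]
    conv_rhs => rw [← one_smul S c0, ← t1]
    rw [h3 _ (hj1 _) _ J.one_mem, hj2 _ c1, one_smul]
  have inj : ∀ i k : r.Pt, i.1 < 100 → k.1 < 100 → σ i = σ k → i = k := fun i k hi hk e => by
    rw [← hj2 i hi, ← hj2 k hk]
    exact (h3 _ (hj1 i) _ (hj1 k)).1 e
  have slt : ∀ i, (σ i).1 < 100 := fun i => lt _ (h1 _ (hj1 i)) _ c1
  have a01 : (rowM sBA 100 c0.1).testBit d0.1 = true := by decide +kernel
  obtain ⟨u, hu'⟩ : σ d0 ∈ orbit U d0 := by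
    have e : Nat.lor (Nat.lor 1 (rowM sBA 100 0)) (sB.growL sBu 1 sB63 (Nat.shiftLeft 1 37)) =
      Nat.pred (Nat.shiftLeft 1 100) := Nat.eq_of_beq_eq_true (by decide +kernel)
    have h5 := (testBit_mask 100 _).trans (decide_eq_true (slt d0))
    rw [← e] at h5
    change Nat.testBit ((_ ||| _) ||| _) _ = true at h5
    simp only [Nat.testBit_or, Bool.or_eq_true] at h5
    rcases h5 with (h5 | h5) | h5
    · exact absurd (inj _ _ d1 c1 ((Subtype.ext (bit_one (b := 0) h5).symm : σ d0 = c0).trans sc.symm))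
        fun e => absurd (congrArg Subtype.val e) (by decide)
    · exact o36 _ h5
    · exfalso
      obtain ⟨a, ha, e2⟩ := r.orb_sub (by decide +kernel) hu (r.pt 37) 1 sB63 _ h5
      have h6 := r.orb_ge hu (r.pt 37) 1 sB63 63 11 (by decide +kernel)
      have h7 := r.ncard_le (bitN (rowM sBA 100 0)) (A := orbit U d0) (fun i hi => by
        obtain ⟨k, rfl⟩ := hi
        have := (presJ k.2.1 c0 c1).2 d0 d1 a01
        simp only [show (k : S) • c0 = c0 from k.2.2] at this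
        rw [bitN_eq]; exact this) 36 (by decide +kernel)
      have h8 : orbit U (σ d0) ⊆ σ '' orbit U d0 := by
        rintro _ ⟨k, rfl⟩
        obtain ⟨x, hx, e⟩ := h4 k k.2.1
        refine ⟨x • d0, ⟨⟨x, hx, ?_⟩, rfl⟩, by rw [eqv x hx d0 d1, e]; rfl⟩
        have := (h3 x hx 1 J.one_mem).1 (by rw [e, t1, one_smul]; exact k.2.2)
        rwa [one_smul] at this
      have h9 := (Set.ncard_le_ncard h8 (Set.toFinite _)).trans (Set.ncard_image_le (Set.toFinite _))
      rw [← Subtype.ext e2, orbit_eq_iff.2 ha] at h9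
      omega
  have hu' : (u : S) • d0 = σ d0 := hu'
  have hσ : r.GHom sBA 100 σ := fun i hi => ⟨slt i, fun k hk e => by
    have h5 := (presJ (J.inv_mem (hj1 i)) i hi).2 k hk e
    simp only [show (j i)⁻¹ • i = c0 from inv_smul_eq_iff.2 (hj2 i hi).symm] at h5
    obtain ⟨v, hv⟩ := o36 _ h5
    have hv : (v : S) • d0 = (j i)⁻¹ • k := hv
    have hjv : j i * v ∈ J := J.mul_mem (hj1 i) v.2.1
    have e1 : σ i = (τ (j i * v) * u) • c0 := by
      rw [mul_smul, show (u : S) • c0 = c0 from u.2.2, ← sc, ← eqv _ hjv _ c1, mul_smul,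
        show (v : S) • c0 = c0 from v.2.2, hj2 i hi]
    have e2 : σ k = (τ (j i * v) * u) • d0 := by
      rw [mul_smul, hu', ← eqv _ hjv _ d1, mul_smul, hv, smul_inv_smul]
    rw [e1, e2]
    exact (presJ (J.mul_mem (h1 _ hjv) u.2.1) c0 c1).2 d0 d1 a01⟩
  obtain ⟨k, hk, e⟩ := r.aut_le (A := sBA) (n := 100) (by decide) (K := r.Pres sBA 100 ⊓ Sw) inf_le_left
    (g5 ++ [sBt]) (byW_mem (forall_app (fun w hw => ⟨presJ (h5 w hw), Or.inl (h5 w hw)⟩)
      (forall_cons ⟨r.pres_word _ _ _ (by decide +kernel), Or.inr ⟨ht.1, ht.2.1⟩⟩ forall_nil))) sBst [0]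
    (by decide) kst σ hσ inj fun i hi => by rw [show i = c0 from Subtype.ext (List.mem_singleton.1 hi), sc]
  refine ⟨k, hk.2, by rw [← e c0 c1, sc], fun y hy => ?_⟩
  have := baseB (k⁻¹ * τ y * k * y⁻¹) (by
    have y1 : y⁻¹ • p0 = p0 := (J.inv_mem hy).1
    have y2 : τ y • p0 = p0 := (h1 y hy).1
    have y3 : τ y • b0 = b0 := (h1 y hy).2
    rcases hk.2 with ⟨a1, -⟩ | ⟨a1, -⟩ <;> simp only [mul_smul, y1, a1, y2, y3, inv_smul_eq_iff]) fun i hi => by
      have hi' : i.1 < 100 := blt1 (List.all_eq_true.1 (show sBbs.all (fun i => Nat.blt i 100) = true by decide) _ hi)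
      have h2 := lt _ (J.inv_mem hy) i hi'
      simp only [mul_smul]
      rw [← e _ h2, ← eqv y hy _ h2, smul_inv_smul, e i hi', inv_smul_smul]
  rw [mul_inv_eq_one] at this
  conv_rhs => rw [← this]
  simp [mul_assoc]

end SuB
end CfL
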