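import Cfsg.Agent.OD.Pre
import Cfsg.Agent.L.SuB
import Cfsg.Agent.L.R3
/-! Recognition of the sporadic Suzuki group as a rank 3 group. -/
set_option autoImplicit false
set_option maxRecDepth 100000
open CfH6 MulAction Subgroup
namespace CfL
namespace SuB
variable {G Ω : Type*} [Group G] [MulAction G Ω] [Finite G] [Finite Ω] {a b c' : Ω} {Φ : S → G}

theorem hy : evw el sBy ∈ U ∧ evw el sBy ^ 7 = 1 ∧ evw el sBy ≠ 1 :=
  ⟨wU [sBy] (by decide +kernel) _ List.mem_cons_self, by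
    rw [← evw_wpow]; exact r.wone base [_] (by decide +kernel) _ List.mem_cons_self,
    r.ne_one sBy d0 (by decide +kernel)⟩

theorem fixc (M : Mdl p0 b0 a b Φ) (hΩ : Nat.card Ω = 1782) (hG : Nat.card (stabilizer G a) = 251596800)
    (hb : (orbit (stabilizer G a) b).ncard = 416) (hc : (orbit (stabilizer G a) c').ncard = 1365)
    {t : G} (h1 : t • a = b) (h2 : t • b = a) :
    ∃ t : G, t • a = b ∧ t • b = a ∧ t • Φ s0 • b = Φ s0 • b := by
  obtain ⟨τ, hτ, -⟩ := M.tau h1 h2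
  obtain ⟨⟨y1, y2⟩, y3⟩ := hτ _ hy.1.1.1 hy.1.1.2
  have hab : a ≠ b := fun e => by
    rw [← e, show orbit (stabilizer G a) a = {a} from Set.ext fun y =>
      ⟨fun ⟨g, e⟩ => e.symm.trans g.2, fun e => e ▸ mem_orbit_self _⟩, Set.ncard_singleton] at hb
    omega
  have y4 : Φ (τ (evw el sBy)) • t • Φ s0 • b = t • Φ s0 • b := by
    rw [y3, mul_smul, mul_smul, inv_smul_smul, ← mul_smul (Φ _), ← M.m _ _ hy.1.1.1 hs.1,
      (M.pt (by rw [mul_smul, hs.1]; exact hy.1.1.1) hs.1).2 (by rw [mul_smul, hs.2.1]; exact hy.1.2)]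
  have y5 : Φ (τ (evw el sBy)) ^ 7 = 1 := by
    rw [y3, conj_pow, ← M.pow hy.1.1.1, hy.2.1, M.one, mul_one, mul_inv_cancel]
  have y6 : Φ (τ (evw el sBy)) ≠ 1 := fun e => hy.2.2 (M.i _ _ hy.1.1.1 (one_smul _ _) (by
    rw [y3] at e; rw [M.one]; simpa using e))
  rcases r3_tri hb hc (by omega) (by omega) (by omega) hΩ (t • Φ s0 • b) with e | ⟨x, e⟩ | e
  · rw [← h2, smul_left_cancel_iff, M.b _ hs.1, hs.2.1] at e
    exact absurd (congrArg Subtype.val e) (by decide)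
  · obtain ⟨x, hx, e1⟩ := M.s x x.2
    have e : Φ x • b = t • Φ s0 • b := e1 ▸ e
    rcases delta x hx with h | h | h
    · rw [(M.b _ hx).2 h, ← h1, smul_left_cancel_iff, h1] at e
      exact absurd (smul_left_cancel (Φ s0) ((M.f _ hs.1).trans e)) hab
    · obtain ⟨j, hj⟩ := lam _ h
      have hj : (j : S) • c0 = x • b0 := hj
      refine ⟨(Φ j)⁻¹ * t, ?_, ?_, ?_⟩
      · rw [mul_smul, h1, inv_smul_eq_iff, (M.b _ j.2.1).2 j.2.2]
      · rw [mul_smul, h2, inv_smul_eq_iff, M.f _ j.2.1]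
      · rw [mul_smul, ← e, inv_smul_eq_iff, ← mul_smul, ← M.m _ _ j.2.1 hs.1,
          M.pt hx (by rw [mul_smul, hs.1]; exact j.2.1), mul_smul, hs.2.1, hj]
    · refine absurd ?_ y6
      rw [h _ ⟨y1, y2⟩ ?_ (M.i _ _ (pow_mem (show _ ∈ stabilizer S p0 from y1) 7) (one_smul _ _) (by
        rw [M.pow y1, y5, M.one])), M.one]
      rw [← mul_smul, ← M.pt (by rw [mul_smul, hx, y1]) hx, M.m _ _ y1 hx, mul_smul, e, y4]
  · exfalso
    have h3 := card_orbit_mul (stabilizer G a) (t • Φ s0 • b)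
    rw [orbit_eq_iff.2 e, hc, hG] at h3
    have : Fact (Nat.Prime 7) := ⟨by norm_num⟩
    have := orderOf_dvd_natCard (stabilizer G a ⊓ stabilizer G (t • Φ s0 • b)) (x := Φ (τ (evw el sBy)))
      ⟨M.f _ y1, y4⟩
    rw [orderOf_eq_prime y5 y6] at this
    omega

theorem rels1 : ∀ w ∈ wpow sBt 2 :: sGrels.map (subst (g6 ++ [sBt])), evw el w = 1 :=
  r.wone base _ (by decide +kernel)

theorem ts3 : (t0 * s0) ^ 3 = 1 := by
  rw [← evw_append, ← evw_wpow]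
  exact r.wone base [_] (by decide +kernel) _ List.mem_cons_self

omit [Finite G] [Finite Ω] in
theorem swp (M : Mdl p0 b0 a b Φ) {t : G} (h1 : t • a = b) (h2 : t • b = a) (h3 : t • Φ s0 • b = Φ s0 • b) :
    ∃ t : G, (∀ y ∈ J, t * Φ y * t⁻¹ = Φ (t0 * y * t0⁻¹)) ∧ t ^ 2 = 1 ∧ (t * Φ s0) ^ 3 = 1 := by
  obtain ⟨τ, hτ, hτ'⟩ := M.tau h1 h2
  have pc : ∀ x ∈ J, ∀ y ∈ J, (Φ x • Φ s0 • b = Φ y • Φ s0 • b ↔ x • c0 = y • c0) := fun x hx y hy => by
    rw [← mul_smul, ← mul_smul, ← M.m _ _ hx.1 hs.1, ← M.m _ _ hy.1 hs.1,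
      M.pt (by rw [mul_smul, hs.1]; exact hx.1) (by rw [mul_smul, hs.1]; exact hy.1), mul_smul, mul_smul, hs.2.1]
  have hJ : ∀ y ∈ J, τ y ∈ J := fun y hy => (hτ y hy.1 hy.2).1
  obtain ⟨k, hk, kc, e⟩ := aut τ hJ (fun x hx y hy => M.i _ _ (hJ _ (J.mul_mem hx hy)).1
      (J.mul_mem (hJ x hx) (hJ y hy)).1 (by
        rw [M.m _ _ (hJ x hx).1 (hJ y hy).1, (hτ _ (J.mul_mem hx hy).1 (J.mul_mem hx hy).2).2, (hτ x hx.1 hx.2).2,
          (hτ y hy.1 hy.2).2, M.m _ _ hx.1 hy.1]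
        simp [mul_assoc]))
    (fun x hx y hy => by
      rw [← pc _ (hJ x hx) _ (hJ y hy), ← pc x hx y hy, (hτ x hx.1 hx.2).2, (hτ y hy.1 hy.2).2]
      simp only [mul_smul, inv_smul_eq_iff.2 h3.symm, smul_left_cancel_iff]) fun y hy => hτ' y hy.1 hy.2
  have main : ∀ m : S, (∀ y ∈ J, m * y * m⁻¹ ∈ J) → m • c0 = c0 → k * m⁻¹ ∈ J → ∃ t : G, t • a = b ∧ t • b = a ∧
      (∀ y ∈ J, t * Φ y * t⁻¹ = Φ (m * y * m⁻¹)) ∧ ∃ u ∈ U, (t * Φ s0) ^ 3 = Φ u ∧
        ∀ y ∈ U, u * y * u⁻¹ = (m * s0) ^ 3 * y * ((m * s0) ^ 3)⁻¹ := fun m hm mc hj => by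
    have jc : (k * m⁻¹) • c0 = c0 := by rw [mul_smul, inv_smul_eq_iff.2 mc.symm, kc]
    let t' := (Φ (k * m⁻¹))⁻¹ * t
    have a1 : t' • a = b := by rw [mul_smul, h1, inv_smul_eq_iff, (M.b _ hj.1).2 hj.2]
    have a2 : t' • b = a := by rw [mul_smul, h2, inv_smul_eq_iff, M.f _ hj.1]
    have a3 : t' • Φ s0 • b = Φ s0 • b := by
      rw [mul_smul, h3, inv_smul_eq_iff, eq_comm]
      simpa [M.one] using (pc _ hj 1 J.one_mem).2 (by rw [jc, one_smul])
    have a4 : ∀ y ∈ J, t' * Φ y * t'⁻¹ = Φ (m * y * m⁻¹) := fun y hy => by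
      have := (hτ y hy.1 hy.2).2
      rw [e y hy, show k * y * k⁻¹ = k * m⁻¹ * (m * y * m⁻¹) * (k * m⁻¹)⁻¹ by simp [mul_assoc],
        M.m _ _ (J.mul_mem hj (hm y hy)).1 (J.inv_mem hj).1, M.m _ _ hj.1 (hm y hy).1, M.inv hj.1] at this
      simp only [t', mul_inv_rev, inv_inv]
      rw [show (Φ (k * m⁻¹))⁻¹ * t * Φ y * (t⁻¹ * Φ (k * m⁻¹)) = (Φ (k * m⁻¹))⁻¹ * (t * Φ y * t⁻¹) * Φ (k * m⁻¹) by
        simp only [mul_assoc], ← this]
      simp [mul_assoc]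
    clear_value t'
    have s2 : Φ s0 • Φ s0 • b = b := by
      rw [← mul_smul, ← M.m _ _ hs.1 hs.1, M.b _ (by rw [mul_smul, hs.1, hs.1]), mul_smul, hs.2.1, hs.2.2]
    have sa := M.f _ hs.1
    obtain ⟨u, u1, u2⟩ := M.s ((t' * Φ s0) ^ 3) (by
      simp only [pow_succ, pow_zero, one_mul, mul_smul, sa, a1, a2, a3, s2])
    have u3 : u • b0 = b0 := (M.b _ u1).1 (by
      rw [u2]; simp only [pow_succ, pow_zero, one_mul, mul_smul, sa, a1, a2, a3, s2])
    have u4 : u • c0 = c0 := by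
      simpa using (pc u ⟨u1, u3⟩ 1 J.one_mem).1 (by
        rw [u2, M.one, one_smul]
        simp only [pow_succ, pow_zero, one_mul, mul_smul, sa, a1, a2, a3, s2])
    have st : ∀ y ∈ U, (m * s0) * y * (m * s0)⁻¹ ∈ U ∧
        (t' * Φ s0) * Φ y * (t' * Φ s0)⁻¹ = Φ ((m * s0) * y * (m * s0)⁻¹) := fun y hy => by
      have i1 : s0⁻¹ • p0 = p0 := inv_smul_eq_iff.2 hs.1.symm
      have y1 : y • p0 = p0 := hy.1.1
      have y2 : y • b0 = b0 := hy.1.2
      have y3 : y • c0 = c0 := hy.2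
      have hj' : s0 * y * s0⁻¹ ∈ J := ⟨show _ • p0 = p0 by rw [mul_smul, mul_smul, i1, y1, hs.1],
        show _ • b0 = b0 by rw [mul_smul, mul_smul, inv_smul_eq_iff.2 hs.2.2.symm, y3, hs.2.2]⟩
      have e1 : (m * s0) * y * (m * s0)⁻¹ = m * (s0 * y * s0⁻¹) * m⁻¹ := by simp [mul_assoc]
      rw [e1]
      refine ⟨⟨hm _ hj', show _ • c0 = c0 from ?_⟩, ?_⟩
      · simp only [mul_smul]
        rw [inv_smul_eq_iff.2 mc.symm, inv_smul_eq_iff.2 hs.2.1.symm, y2, hs.2.1, mc]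
      · rw [← a4 _ hj', M.m _ _ (by rw [mul_smul, y1, hs.1]) i1, M.m _ _ hs.1 y1, M.inv hs.1]
        simp [mul_assoc]
    refine ⟨t', a1, a2, a4, u, ⟨⟨u1, u3⟩, u4⟩, u2.symm, fun y hy => ?_⟩
    have b1 := st y hy
    have b2 := st _ b1.1
    have b3 := st _ b2.1
    have hU : u ∈ U := ⟨⟨u1, u3⟩, u4⟩
    refine M.i _ _ (U.mul_mem (U.mul_mem hU hy) (U.inv_mem hU)).1.1 (by
      have : _ • p0 = p0 := b3.1.1.1
      simpa [pow_succ, mul_assoc] using this) ?_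
    rw [M.m _ _ (U.mul_mem hU hy).1.1 (U.inv_mem hU).1.1, M.m _ _ u1 hy.1.1, M.inv u1, u2,
      show (m * s0) ^ 3 * y * ((m * s0) ^ 3)⁻¹ = (m * s0) * ((m * s0) * ((m * s0) * y * (m * s0)⁻¹) * (m * s0)⁻¹) *
        (m * s0)⁻¹ by simp [pow_succ, mul_assoc], ← b3.2, ← b2.2, ← b1.2]
    simp [pow_succ, mul_assoc]
  rcases hk with hk | hk
  · exfalso
    obtain ⟨t, -, -, -, u, hu, -, e⟩ := main 1 (by simp) (one_smul _ _) (by rw [inv_one, mul_one]; exact hk)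
    have s3 : s0 ^ 3 • p0 = p0 := pow_mem (show s0 ∈ stabilizer S p0 from hs.1) 3
    have := cent (u⁻¹ * s0 ^ 3) (by rw [mul_smul, s3]; exact (U.inv_mem hu).1.1) fun y hy => by
      have := e y hy
      rw [one_mul] at this
      rw [mul_assoc u⁻¹, eq_inv_mul_iff_mul_eq, ← mul_assoc, ← mul_assoc, this, inv_mul_cancel_right]
    rw [inv_mul_eq_one] at this
    have h4 : u • b0 = b0 := hu.1.2
    rw [this] at h4
    simp only [pow_succ, pow_zero, one_mul, mul_smul, hs.2.1, hs.2.2] at h4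
    exact absurd (congrArg Subtype.val h4) (by decide)
  · have i1 : t0⁻¹ • p0 = b0 := inv_smul_eq_iff.2 ht.2.1.symm
    have i2 : t0⁻¹ • b0 = p0 := inv_smul_eq_iff.2 ht.1.symm
    have hm : ∀ y ∈ J, t0 * y * t0⁻¹ ∈ J := fun y hy =>
      ⟨show _ • p0 = p0 by rw [mul_smul, mul_smul, i1, show y • b0 = b0 from hy.2, ht.2.1],
        show _ • b0 = b0 by rw [mul_smul, mul_smul, i2, show y • p0 = p0 from hy.1, ht.1]⟩
    obtain ⟨t, a1, a2, a4, u, hu, e1, e⟩ := main t0 hm ht.2.2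
      ⟨show _ • p0 = p0 by rw [mul_smul, i1, hk.2], show _ • b0 = b0 by rw [mul_smul, i2, hk.1]⟩
    refine ⟨t, a4, ?_, ?_⟩
    · obtain ⟨j, j1, j2⟩ := M.s (t ^ 2) (by rw [pow_two, mul_smul, a1, a2])
      have j3 : j • b0 = b0 := (M.b _ j1).1 (by rw [j2, pow_two, mul_smul, a2, a1])
      have t2 : t0 * t0 = 1 := by
        rw [← pow_two, ← evw_wpow]; exact rels1 _ List.mem_cons_self
      rw [← j2, cent j j1 fun y hy => M.i _ _ (J.mul_mem hy.1 ⟨j1, j3⟩).1 (J.mul_mem ⟨j1, j3⟩ hy.1).1 ?_, M.one]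
      have := a4 _ (hm y hy.1)
      rw [← a4 y hy.1, show t0 * (t0 * y * t0⁻¹) * t0⁻¹ = (t0 * t0) * y * (t0 * t0)⁻¹ by simp [mul_assoc], t2] at this
      rw [M.m _ _ hy.1.1 j1, M.m _ _ j1 hy.1.1, j2, eq_comm, ← mul_inv_eq_iff_eq_mul]
      simpa [pow_two, mul_assoc] using this
    · rw [e1, cent u hu.1.1 fun y hy => by
        have := e y hy
        rw [ts3, mul_inv_eq_iff_eq_mul] at this
        simpa using this.symm, M.one]

theorem gX : gensub el 6 = stabilizer S p0 := (gensub_id el (σ := g6) (by decide)).symm.trans X_eq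
theorem gJ : gensub el 5 = J := (gensub_id el (σ := g5) (by decide)).symm.trans J_eq.1
noncomputable def e7 : ℕ → S := byW el (g6 ++ [sBt])
theorem b6 : ∀ x < 6, e7 x = el x := fun x hx => by interval_cases x <;> exact mul_one _
theorem b7 : e7 6 = t0 := rfl
theorem t2 : t0⁻¹ = t0 := inv_eq_of_mul_eq_one_right (by
  rw [← pow_two, ← evw_wpow]; exact rels1 _ List.mem_cons_self)
theorem r1 : ∀ w ∈ sGrels, evw e7 w = 1 := fun w hw => by
  rw [e7, ← evw_subst]; exact rels1 _ (List.mem_cons_of_mem _ (List.mem_map.2 ⟨w, hw, rfl⟩))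
theorem il6 : ∀ x < 7, sGil.getD x 0 = x := by decide
theorem eli : ∀ x < 6, (el x)⁻¹ = el x := fun x hx => by
  rw [← SuzB.hinv x (by omega)]; interval_cases x <;> rfl

abbrev Γ : Type := WP 7 sGil sGrels

theorem gam : Finite Γ ∧ Nat.card Γ ≤ 5346 * 251596800 := by
  have := G2O.finG.1
  obtain ⟨κ, hκ⟩ := G2B.hhom (wel 7 sGil sGrels) (fun x hx => by
    rw [← wp_inv 7 sGil sGrels x (by omega)]; interval_cases x <;> rfl)
    fun w hw => wp_rel _ _ _ w (List.mem_append_left _ hw)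
  have h := sG_cov (wel 7 sGil sGrels) κ.range (wp_inv _ _ _) (wp_rel _ _ _) fun w hw => by
    rw [range_hom hκ G2B.htop]
    exact evw_mem (fun _ => mem_gensub) (allLt_all (ws := sG_subs) (by decide) w hw)
  rw [wp_top] at h
  exact fin_top (h.card_le ⟨Finite.of_surjective _ κ.rangeRestrict_surjective,
    (Nat.card_le_card_of_surjective _ κ.rangeRestrict_surjective).trans G2G.card.le⟩)

theorem chi : ∃ χ : Γ →* S, Function.Surjective χ := by
  obtain ⟨χ, hχ⟩ := wp_hom 7 sGil sGrels (by decide +kernel) e7 (fun x hx => by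
    rw [il6 x hx]
    rcases Nat.lt_succ_iff_lt_or_eq.1 hx with hx | rfl
    · rw [b6 x hx, eli x hx]
    · rw [b7, t2]) r1
  refine ⟨χ, ?_⟩
  rw [← MonoidHom.range_eq_top, range_hom hχ (wp_top _ _ _)]
  refine (SuzA.hmax Suz.stab.1 Suz.stab.2 _ (gensub_le_of_subsIn el (by decide))).resolve_left fun h => ?_
  have : e7 6 ∈ stabilizer S p0 := X_eq.le (h.le (mem_gensub (by decide)))
  rw [b7, mem_stabilizer_iff, ht.1] at this
  exact absurd (congrArg Subtype.val this) (by decide)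

omit [Finite G] [Finite Ω] in
theorem psi (M : Mdl p0 b0 a b Φ) {t : G} (h1 : ∀ y ∈ J, t * Φ y * t⁻¹ = Φ (t0 * y * t0⁻¹)) (h2 : t ^ 2 = 1)
    (h3 : (t * Φ s0) ^ 3 = 1) : ∃ ψ : Γ →* G, stabilizer G a ≤ ψ.range ∧ ψ (wel 7 sGil sGrels 0) ≠ 1 := by
  obtain ⟨ev, h4, e6⟩ : ∃ ev : ℕ → G, (∀ x < 6, el x • p0 = p0 ∧ ev x = Φ (el x)) ∧ ev 6 = t :=
    ⟨fun x => if x < 6 then Φ (el x) else t, fun x hx => ⟨gX.le (mem_gensub hx), if_pos hx⟩, if_neg (by decide)⟩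
  have h5 := M.evw h4
  have ti : t⁻¹ = t := inv_eq_of_mul_eq_one_right (by rw [← pow_two, h2])
  have key : ∀ x < 5, ∀ w, (∀ y ∈ w, y < 6) → 6 :: x :: 6 :: w ∈ sGrels → evw ev (6 :: x :: 6 :: w) = 1 :=
    fun x hx w hw hr => by
      have := r1 _ hr
      rw [evw_cons, evw_cons, evw_cons, b6 x (by omega), evw_congr b6 hw, b7] at this
      have h6 := h1 _ (gJ.le (mem_gensub hx))
      rw [ti, t2, eq_inv_of_mul_eq_one_left (a := t0 * el x * t0) (b := evw el w) (by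
        simpa only [mul_assoc] using this), M.inv (evw_mem (K := stabilizer S p0) (fun x hx => (h4 x hx).1) hw)] at h6
      rw [evw_cons, evw_cons, evw_cons, e6, h5 w hw, (h4 x (by omega)).2, ← mul_assoc, ← mul_assoc, h6,
        inv_mul_cancel]
  obtain ⟨ψ, hψ⟩ := wp_hom 7 sGil sGrels (by decide +kernel) ev (fun x hx => by
    rw [il6 x hx]
    rcases Nat.lt_succ_iff_lt_or_eq.1 hx with hx | rfl
    · rw [(h4 x hx).2, ← M.inv (h4 x hx).1, eli x hx]
    · rw [e6, ti]) (forall_app (fun w hw => by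
      have hw' := allLt_all (ws := G2B.rels) (k := 6) (by decide +kernel) w hw
      rw [h5 w hw', ← evw_congr b6 hw', r1 w (List.mem_append_left _ hw), M.one]) <|
    forall_cons (key 0 (by decide) _ (by decide) (by decide +kernel)) <|
    forall_cons (key 1 (by decide) _ (by decide) (by decide +kernel)) <|
    forall_cons (key 2 (by decide) _ (by decide) (by decide +kernel)) <|
    forall_cons (key 3 (by decide) _ (by decide) (by decide +kernel)) <|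
    forall_cons (key 4 (by decide) _ (by decide) (by decide +kernel)) <|
    forall_cons (by
      have : evw ev (wpow (6 :: sBs) 3) = 1 := by rw [evw_wpow, evw_cons, h5 _ (by decide), e6, h3]
      exact this) forall_nil)
  refine ⟨ψ, fun g hg => ?_, ?_⟩
  · obtain ⟨x, hx, rfl⟩ := M.s g hg
    have hx' : x ∈ gensub el 6 := gX.ge hx
    clear hg hx
    suffices x • p0 = p0 ∧ Φ x ∈ ψ.range from this.2
    induction hx' using closure_induction with
    | mem x hx =>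
      obtain ⟨y, hy, rfl⟩ := hx
      exact ⟨(h4 y hy).1, _, (hψ y (Nat.lt_succ_of_lt hy)).trans (h4 y hy).2⟩
    | one => exact ⟨one_smul _ _, by rw [M.one]; exact one_mem _⟩
    | mul x y _ _ hx hy => exact ⟨by rw [mul_smul, hy.1, hx.1], by rw [M.m _ _ hx.1 hy.1]; exact mul_mem hx.2 hy.2⟩
    | inv x _ hx => exact ⟨inv_smul_eq_iff.2 hx.1.symm, by rw [M.inv hx.1]; exact inv_mem hx.2⟩
  · rw [hψ 0 (by decide), (h4 0 (by decide)).2, ← M.one]
    exact fun e => r.ne_one [0] (r.pt 2) (by decide +kernel) (by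
      simpa using M.i _ _ (h4 0 (by decide)).1 (one_smul _ _) e)

theorem main [IsPretransitive G Ω] (hΩ : Nat.card Ω = 1782) (e : stabilizer G a ≃* G2B.G)
    (hb : (orbit (stabilizer G a) b).ncard = 416) (hc : (orbit (stabilizer G a) c').ncard = 1365) :
    Nonempty (G ≃* S) := by
  have hG : Nat.card (stabilizer G a) = 251596800 := (Nat.card_congr e.toEquiv).trans G2G.card
  obtain ⟨ι, i1, i2, -⟩ := iota
  obtain ⟨Φ, b', hb', M⟩ := exists_mdl (b := b) (b0 := b0) ι i1 i2 e fun Y h1 h2 => cls Y h1 (by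
    have := card_orbit_mul (stabilizer G a) b
    rw [hb, hG] at this
    omega)
  rw [← orbit_eq_iff.2 hb'] at hb
  obtain ⟨t, h1, h2⟩ := r3_swap hb hc (by omega) (by omega) (by omega) hΩ
  obtain ⟨t, h1, h2, h3⟩ := fixc M hΩ hG hb hc h1 h2
  obtain ⟨t, h1, h2, h3⟩ := swp M h1 h2 h3
  obtain ⟨ψ, h4, h5⟩ := psi M h1 h2 h3
  obtain ⟨χ, hχ⟩ := chi
  have := gam.1
  have := G2G.simple
  have : IsSimpleGroup (stabilizer G a) := e.isSimpleGroup
  obtain ⟨ρ, hρ⟩ := r3_lift hb hc (by omega) hΩ ψ χ hχ h4 (n := 3) (gam.2.trans (by rw [Suz.card])) (by omega)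
    (by omega) (by omega) (by omega)
  have := Suz.simple
  refine ⟨(MulEquiv.ofBijective ρ (bij_of_inj ρ (inj_of_simple ρ (g := χ (wel 7 sGil sGrels 0)) (hρ _ ▸ h5))
    ⟨inferInstance, ?_⟩)).symm⟩
  rw [← (stabilizer G a).card_mul_index, index_stabilizer_of_transitive, hG, hΩ, Suz.card]

end SuB
end CfL
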