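import Cfsg.Agent.OD.Pre
import Cfsg.Agent.H7.SW3

/-! Two commuting `A₄` blocks swapped by a Sylow 2-subgroup give `S₄ ≀ 2`. -/

set_option autoImplicit false
set_option linter.unusedSectionVars false

namespace CfLq

open Subgroup Cfsg CfH7 CfH9 CfH7.SW
open scoped commutatorElement Pointwise

theorem aut_triv {A : Type*} [Group A] [Finite A] (h12 : Nat.card A = 12)
    (h4 : Nat.card (Sylow 3 A) = 4) (φ : MulAut A) (h : ∀ Q : Sylow 3 A, φ • Q = Q) : φ = 1 := by
  haveI : Fact (Nat.Prime 3) := ⟨Nat.prime_three⟩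
  have hN : ∀ Q : Sylow 3 A, Nm((Q : Subgroup A)) = Q := fun Q => by
    have h1 := Sylow.card_eq_index_normalizer Q
    have h2 := card_mul_index Nm((Q : Subgroup A))
    have h3 : Nat.card Q = 3 := by
      rw [Sylow.card_eq_multiplicity, h12]; decide +kernel
    refine (eq_of_le_of_card_ge le_normalizer ?_).symm
    have h5 : (Nm((Q : Subgroup A))).index = 4 := by rw [← h4, h1]; rfl
    rw [h5, h12] at h2
    omega
  obtain ⟨Q, Q', hne⟩ : ∃ Q Q' : Sylow 3 A, Q ≠ Q' := by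
    haveI := Finite.one_lt_card_iff_nontrivial.1 (show 1 < Nat.card (Sylow 3 A) by omega)
    exact exists_pair_ne _
  ext k
  have key : ∀ Q : Sylow 3 A, k⁻¹ * φ k ∈ (Q : Subgroup A) := fun Q => by
    rw [← hN Q]
    refine Sylow.smul_eq_iff_mem_normalizer.1 ?_
    rw [mul_smul, inv_smul_eq_iff]
    have e1 : ∀ (x : A) (R : Sylow 3 A), x • R = MulAut.conj x • R := fun _ _ => rfl
    have e2 : MulAut.conj (φ k) = φ * MulAut.conj k * φ⁻¹ := by
      ext y; simp
    have e3 : φ⁻¹ • Q = Q := by rw [inv_smul_eq_iff, h]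
    rw [e1, e1, e2, mul_smul, mul_smul, e3, h]
  by_contra hc
  have hu : k⁻¹ * φ k ≠ 1 := fun e => hc (by
    rw [inv_mul_eq_one] at e
    simpa using e.symm)
  have hz : ∀ Q : Sylow 3 A, zpowers (k⁻¹ * φ k) = Q := fun Q => by
    have h3 : Nat.card Q = 3 := by
      rw [Sylow.card_eq_multiplicity, h12]; decide +kernel
    refine eq_of_le_of_card_ge (zpowers_le.2 (key Q)) ?_
    have h5 := card_dvd_of_le (zpowers_le.2 (key Q))
    rw [h3] at h5 ⊢
    rcases (Nat.dvd_prime Nat.prime_three).1 h5 with e | e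
    · exact absurd (zpowers_eq_bot.1 (Subgroup.card_eq_one.1 e)) hu
    · exact e.ge
  exact hne (Sylow.ext ((hz Q).symm.trans (hz Q')))

variable {G : Type*} [Group G] [Finite G]

theorem card_syl4 {K : Subgroup G} (hres : pResidualOf 2 K = K) (h12 : Nat.card K = 12) :
    Nat.card (Sylow 3 K) = 4 := by
  haveI : Fact (Nat.Prime 3) := ⟨Nat.prime_three⟩
  obtain ⟨Q⟩ : Nonempty (Sylow 3 K) := inferInstance
  have h3 : Nat.card Q = 3 := by
    rw [Sylow.card_eq_multiplicity, h12]; decide +kernel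
  have h1 := Sylow.card_dvd_index Q
  have h2 := card_mul_index (Q : Subgroup K)
  rw [h3, h12] at h2
  rw [show (Q : Subgroup K).index = 4 by omega] at h1
  have h5 := card_sylow_modEq_one 3 K
  have h6 := Nat.le_of_dvd (by norm_num) h1
  have h7 : Nat.card (Sylow 3 K) ≠ 1 := fun e => by
    haveI := (Nat.card_eq_one_iff_unique.1 e).1
    have h8 : K ≤ (Q : Subgroup K).map K.subtype := by
      conv_lhs => rw [← hres]
      refine pResidualOf_le_iff.2 fun x hx ho => ⟨⟨x, hx⟩, ?_, rfl⟩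
      have h9 : orderOf x ∣ 3 * 2 ^ 2 := by
        have := orderOf_dvd_natCard (⟨x, hx⟩ : K)
        rwa [h12, orderOf_mk] at this
      have h10 := (Nat.Coprime.pow_right 2 ho).dvd_of_dvd_mul_right h9
      have h11 : IsPGroup 3 (zpowers (⟨x, hx⟩ : K)) := by
        refine isPGroup_zpowers (k := 1) ?_
        rw [pow_one, ← orderOf_dvd_iff_pow_eq_one, orderOf_mk]
        exact h10
      obtain ⟨R, hR⟩ := h11.exists_le_sylow
      rw [Subsingleton.elim R Q] at hR
      exact hR (mem_zpowers _)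
    have := card_le_of_le h8
    rw [card_map_of_injective K.subtype_injective, h12] at this
    omega
  unfold Nat.ModEq at h5
  interval_cases h : Nat.card (Sylow 3 K) <;> simp_all

theorem exists_alpha {K : Subgroup G} (hres : pResidualOf 2 K = K) (h12 : Nat.card K = 12) :
    ∃ a : G → S4, (∀ g ∈ Nm(K), ∀ k ∈ Nm(K), a (g * k) = a g * a k) ∧
      ∀ g ∈ Nm(K), a g = 1 → g ∈ Cz(K) := by
  classical
  have h4 := card_syl4 hres h12
  let e : Sylow 3 K ≃ Fin 4 := Finite.equivFinOfCardEq h4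
  let α : Nm(K) →* S4 := (e.permCongrHom.toMonoidHom.comp
    (MulAction.toPermHom (MulAut K) (Sylow 3 K))).comp K.normalizerMonoidHom
  refine ⟨fun g => if h : g ∈ Nm(K) then α ⟨g, h⟩ else 1, fun g hg k hk => ?_, fun g hg h => ?_⟩
  · simp only [dif_pos hg, dif_pos hk, dif_pos (mul_mem hg hk)]
    rw [← map_mul]; rfl
  · simp only [dif_pos hg] at h
    have h1 : MulAction.toPermHom (MulAut K) (Sylow 3 K) (K.normalizerMonoidHom ⟨g, hg⟩) = 1 :=
      e.permCongrHom.injective (h.trans (map_one _).symm)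
    have h2 := aut_triv h12 h4 _ fun Q => congrArg (· Q) h1
    have h3 : (⟨g, hg⟩ : Nm(K)) ∈ K.normalizerMonoidHom.ker := h2
    rw [normalizerMonoidHom_ker] at h3
    exact h3

theorem exists_psi {K P : Subgroup G} {t : G} (hres : pResidualOf 2 K = K) (h12 : Nat.card K = 12)
    (hne : cj t K ≠ K)
    (hP : ∀ g ∈ P, (cj g K = K ∧ cj g (cj t K) = cj t K) ∨ (cj g K = cj t K ∧ cj g (cj t K) = K))
    (hC : P ⊓ Cz(K ⊔ cj t K) = ⊥) : ∃ ψ : P →* Wm, Function.Injective ψ := by
  classical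
  obtain ⟨a, am, ak⟩ := exists_alpha hres h12
  have f1 : ∀ g ∈ P, g ∈ Nm(K) → t⁻¹ * g * t ∈ Nm(K) := fun g hg hn => by
    rcases hP g hg with h | h
    · rw [mem_normalizer_iff_cj, cj_mul, cj_mul, h.2, cj_inv_cj]
    · exact absurd (h.1.symm.trans (cj_eq_of_mem_normalizer hn)) hne
  have f2 : ∀ g ∈ P, g ∉ Nm(K) → g * t ∈ Nm(K) ∧ t⁻¹ * g ∈ Nm(K) := fun g hg hn => by
    rcases hP g hg with h | h
    · exact absurd (mem_normalizer_iff_cj.2 h.1) hn
    · rw [mem_normalizer_iff_cj, mem_normalizer_iff_cj, cj_mul, cj_mul, h.2, h.1, cj_inv_cj]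
      exact ⟨rfl, rfl⟩
  let f : P → Wm := fun g => if (g : G) ∈ Nm(K) then ⟨a g, a (t⁻¹ * g * t), false⟩
    else ⟨a (g * t), a (t⁻¹ * g), true⟩
  have fm : ∀ x y, f (x * y) = f x * f y := by
    rintro ⟨x, hx⟩ ⟨y, hy⟩
    by_cases h1 : x ∈ Nm(K) <;> by_cases h2 : y ∈ Nm(K)
    · simp only [f, MulMemClass.mk_mul_mk, if_pos h1, if_pos h2, if_pos (mul_mem h1 h2), Wr.mul_def,
        cond_false, Bool.xor_false]
      rw [← am _ h1 _ h2, ← am _ (f1 x hx h1) _ (f1 y hy h2)]
      congr 2; group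
    · have h3 : x * y ∉ Nm(K) := fun e => h2 ((mul_mem_cancel_left h1).1 e)
      simp only [f, MulMemClass.mk_mul_mk, if_pos h1, if_neg h2, if_neg h3, Wr.mul_def,
        cond_false, Bool.false_xor]
      rw [← am _ h1 _ (f2 y hy h2).1, ← am _ (f1 x hx h1) _ (f2 y hy h2).2]
      congr 2 <;> group
    · have h3 : x * y ∉ Nm(K) := fun e => h1 ((mul_mem_cancel_right h2).1 e)
      simp only [f, MulMemClass.mk_mul_mk, if_neg h1, if_pos h2, if_neg h3, Wr.mul_def,
        cond_true, Bool.xor_false]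
      rw [← am _ (f2 x hx h1).1 _ (f1 y hy h2), ← am _ (f2 x hx h1).2 _ h2]
      congr 2 <;> group
    · have h3 : x * y ∈ Nm(K) := by
        have := mul_mem (f2 x hx h1).1 (f2 y hy h2).2
        rwa [show x * t * (t⁻¹ * y) = x * y by group] at this
      simp only [f, MulMemClass.mk_mul_mk, if_neg h1, if_neg h2, if_pos h3, Wr.mul_def,
        cond_true, Bool.xor_self]
      rw [← am _ (f2 x hx h1).1 _ (f2 y hy h2).2, ← am _ (f2 x hx h1).2 _ (f2 y hy h2).1]
      congr 2 <;> group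
  refine ⟨MonoidHom.mk' f fm, (injective_iff_map_eq_one _).2 fun x hx => ?_⟩
  change f x = 1 at hx
  by_cases h1 : (x : G) ∈ Nm(K)
  · simp only [f, if_pos h1, Wr.one_def, Wr.mk.injEq] at hx
    have h2 := ak _ h1 hx.1
    have h3 := ak _ (f1 x x.2 h1) hx.2.1
    have h4 : (x : G) ∈ P ⊓ Cz(K ⊔ cj t K) := by
      refine mi x.2 ?_
      rw [Cz_sup, ← cj_centralizer]
      exact mi h2 (mem_cj.2 h3)
    rw [hC, mem_bot] at h4
    exact Subtype.ext h4
  · simp [f, if_neg h1, Wr.one_def] at hx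

theorem card_Wm : Nat.card Wm = 1152 := by
  rw [Nat.card_congr (Wr.eqv S4), Nat.card_prod, Nat.card_prod]
  simp [Fintype.card_perm, Nat.factorial]

theorem no_wm [IsSimpleGroup G] (hG : ¬ IsMulCommutative G) (hQ : IsQTKE G)
    (T : Sylow 2 G) (φ : Wm →* G) (inj : Function.Injective φ)
    (hM : (T : Subgroup G) ≤ φ.range) : False := by
  have finj : Function.Injective (ff φ) := inj.comp tau_inj
  have c1 : Nat.card (ff φ).range = 128 := by
    rw [← Nat.card_congr (MonoidHom.ofInjective finj).toEquiv, card_Tm]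
  have pg : IsPGroup 2 (ff φ).range := IsPGroup.of_card (n := 7) c1
  have syl : SylIn 2 (ff φ).range ⊤ := by
    refine (sylIn_top T).of_card_le pg le_top ?_
    obtain ⟨n, hn⟩ := T.isPGroup'.exists_card_eq
    have d1 : Nat.card T ∣ 1152 := by
      refine (card_dvd_of_le hM).trans ?_
      rw [← Nat.card_congr (MonoidHom.ofInjective inj).toEquiv, card_Wm]
    rw [c1, hn] at *
    by_contra hlt
    have : 8 ≤ n := by
      by_contra hn8
      exact hlt (Nat.pow_le_pow_right (by norm_num) (show n ≤ 7 by omega))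
    exact absurd ((pow_dvd_pow 2 this).trans d1) (by norm_num)
  have z2 : ff φ zz ^ 2 ^ 1 = 1 := by rw [← map_pow, show zz ^ 2 ^ 1 = 1 by decide, map_one]
  have z1 : ff φ zz ≠ 1 := fun e => absurd (finj (e.trans (map_one _).symm)) (by decide)
  refine Hyp.false (φ := φ) ⟨inj, syl, ?_, ?_, ?_⟩
  · rw [← Cz_zpowers]
    refine chP_Cz_of_chP_Nm (hQ.2.2 _ ⟨_, isPGroup_zpowers z2, zpowers_ne_bot' z1, rfl⟩
      ⟨syl.toSylowTop, le_trans ?_ (Cz_le_Nm _)⟩)
    rw [Cz_zpowers]
    rintro _ ⟨y, rfl⟩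
    rw [mem_Cx, ← map_mul, ← map_mul, zz_central]
  · refine (Normal.eq_bot_or_eq_top inferInstance).resolve_left fun e => hG ⟨⟨fun a b => ?_⟩⟩
    exact commutatorElement_eq_one_iff_mul_comm.1
      (mem_bot.1 (e.le (commutator_mem_commutator (mem_top a) (mem_top b))))
  · refine hQ.1 3 (by norm_num) (by norm_num) _ ⟨_, pg.to_le (map_le_range _ _), ?_, rfl⟩
    exact ne_bot_of_mem ⟨a1, mem_Vm.2 (by decide), rfl⟩
      fun e => absurd (finj (e.trans (map_one _).symm)) (by decide)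

end CfLq
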