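import Cfsg.Agent.OD.Pre
import Cfsg.Agent.L.W2
import Cfsg.Agent.H8.W0

/-! The wreath case: `K K₂ T ≅ S₄ ≀ 2`. -/

set_option autoImplicit false
set_option linter.unusedSectionVars false

namespace CfLq

open Subgroup Cfsg CfH7 CfH9 CfH7.SW CfH8 CfH8.W
open scoped commutatorElement Pointwise

universe u

theorem om_surj {g : Equiv.Perm (Fin 4 ⊕ Fin 4)} (hg : g ∈ blockStabilizerS4wr2) :
    ∃ x, om x = g := by
  have key : ∀ k : Equiv.Perm (Fin 4 ⊕ Fin 4),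
      Set.MapsTo k (Set.range Sum.inl) (Set.range Sum.inl) → ∃ l r, Equiv.sumCongr l r = k := by
    intro k hk
    obtain ⟨⟨l, r⟩, e⟩ := Equiv.Perm.mem_sumCongrHom_range_of_perm_mapsTo_inl hk
    exact ⟨l, r, e⟩
  unfold blockStabilizerS4wr2 at hg
  rw [MulAction.mem_stabilizer_iff, Set.smul_set_insert, Set.smul_set_singleton] at hg
  have h1 : Set.range (Sum.inl : Fin 4 → Fin 4 ⊕ Fin 4) ∈
      ({g • Set.range (Sum.inl : Fin 4 → Fin 4 ⊕ Fin 4), g • Set.range Sum.inr} :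
        Set (Set (Fin 4 ⊕ Fin 4))) := by
    rw [hg]; exact Set.mem_insert _ _
  rcases h1 with e | e
  · obtain ⟨l, r, e'⟩ := key g fun y hy => e ▸ Set.smul_mem_smul_set hy
    exact ⟨⟨l, r, false⟩, by simpa [om] using e'⟩
  · obtain ⟨l, r, e'⟩ := key (g * Equiv.sumComm (Fin 4) (Fin 4)) (by
      rintro _ ⟨y, rfl⟩
      rw [Set.mem_singleton_iff.1 e]
      exact Set.smul_mem_smul_set (a := g) ⟨y, rfl⟩)
    refine ⟨⟨l, r, true⟩, ?_⟩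
    change Equiv.sumCongr l r * Equiv.sumComm (Fin 4) (Fin 4) = g
    rw [e']
    ext (x | x) <;> simp

theorem two_mul_le {G : Type*} [Group G] [Finite G] {A B : Subgroup G} (h : A ≤ B) {x : G}
    (hx : x ∈ B) (hA : x ∉ A) : 2 * Nat.card A ≤ Nat.card B := by
  have h1 := CfH9.card_lt_of_lt (lt_of_le_of_ne h fun e => hA (e ▸ hx))
  obtain ⟨k, hk⟩ := card_dvd_of_le h
  rw [hk] at h1 ⊢
  have : 2 ≤ k := by
    by_contra hc
    have : k ≤ 1 := by omega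
    nlinarith
  nlinarith

theorem exists_sep {G : Type*} [Group G] [Finite G] {T K K₂ : Subgroup G} (hT : IsPGroup 2 T)
    (h : JC (JJ 2 T) K) (h₂ : JC (JJ 2 T) K₂) (hW : wOf K ≤ T) (hc : wOf K ≤ Cz(wOf K₂))
    (hi : wOf K ⊓ wOf K₂ = ⊥) : ∃ a ∈ JJ 2 T, a ∉ Cz(wOf K) ∧ a ∈ Cz(wOf K₂) := by
  by_contra hn
  push Not at hn
  apply h.not_le_Cz_J
  rw [J_le_iff]
  intro A hA
  by_cases hA2 : A ≤ Cz(wOf K₂)
  · exact fun a ha => by_contra fun e => hn a (hA.le_J ha) e (hA2 ha)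
  have h1 := maxEl_J_iff.1 (h₂.maxEl_sup hT hA hA2)
  have h2 : A ⊓ Cz(wOf K₂) ≤ Cz(wOf K) := fun a ha =>
    by_contra fun e => hn a (hA.le_J ha.1) e ha.2
  have h3 := h1.le_of_le_Cz hW (elemAb_wOf K)
    (CfH7.le_Cz_comm (sup_le h2 (CfH7.le_Cz_comm hc)))
  rw [← CfH7.comm_eq_bot_right, ← le_bot_iff, ← hi]
  refine le_inf (CfH7.comm_le_left (hA.le_J.trans h.le_Nm_wOf))
    ((Subgroup.commutator_mono h3 le_rfl).trans (CfH7.commutator_sup_left_le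
      (inf_le_left.trans (hA.le_J.trans h₂.le_Nm_wOf)) le_normalizer ?_
      (CfH7.comm_le_left (hA.le_J.trans h₂.le_Nm_wOf))))
  exact (CfH7.comm_eq_bot_left.2 (inf_le_left.trans (CfH7.elemAb_le_Cz hA.el))).le.trans bot_le

theorem p6 : P6.{u} := by
  intro G _ _ T K K₂ g o hne hW hC
  haveI : Fact (Nat.Prime 2) := ⟨Nat.prime_two⟩
  have ll := o.ll g
  have j1 := o.jc
  have j2 := o.jc₂
  obtain ⟨t, ht, e⟩ := o.ex
  have eW : wOf K₂ = cj t (wOf K) := by rw [cj_wOf, e]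
  have hW₂ : pCoreOf 2 K₂ = wOf K₂ := by rw [eW, ← hW, CfH7.cj_pCoreOf, e]
  have n1 : K₂ ≤ Nm(K) := W.comp_le_Nm ll j1 o.le₁ j2 o.le₂
  have n2 : K ≤ Nm(K₂) := W.comp_le_Nm ll j2 o.le₂ j1 o.le₁
  have hi : wOf K ⊓ wOf K₂ = ⊥ := W.comp_wOf_inf ll j1 o.le₁ j2 o.le₂ hne
  have hc : K₂ ≤ Cz(K) := by
    have h1 := W.comp_commutator_le ll j1 o.le₁ j2 o.le₂ hne
    rw [← CfH7.comm_eq_bot_right, ← le_bot_iff, ← hi, ← hW, ← hW₂,
      ← W.comp_inf_Q ll j1 o.le₁, ← W.comp_inf_Q ll j2 o.le₂]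
    exact le_inf (le_inf (CfH7.comm_le_left n1) h1) (le_inf (CfH7.comm_le_right n2) h1)
  have hc' := CfH7.le_Cz_comm hc
  have hi2 : K ⊓ K₂ = ⊥ := by
    rw [← le_bot_iff, ← hi, ← hW, ← hW₂, ← j1.inf_Cz_wOf, ← j2.inf_Cz_wOf]
    exact le_inf (inf_le_inf_left _ (hc.trans (Cz_anti (wOf_le K))))
      (le_inf inf_le_right (inf_le_left.trans (hc'.trans (Cz_anti (wOf_le K₂)))))
  have c12 : Nat.card K = 12 := by
    have := card_mul_relIndex (CfH7.pCoreOf_le (p := 2) K)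
    rw [j1.idx, hW, j1.cardW] at this
    omega
  have c12' : Nat.card K₂ = 12 := by rw [← e, card_cj, c12]
  have oT : ∀ s ∈ T, (cj s K = K ∧ cj s K₂ = K₂) ∨ (cj s K = K₂ ∧ cj s K₂ = K) := fun s hs => by
    rcases o.orb s hs with a | a <;> rcases o.swap.orb s hs with b | b
    exacts [Or.inl ⟨a, b⟩, absurd (cj_inj.1 (a.trans b.symm)) hne,
      absurd (cj_inj.1 (a.trans b.symm)) hne, Or.inr ⟨a, b⟩]
  have et : cj t K₂ = K := ((oT t ht).resolve_left fun h => hne (h.1.symm.trans e)).2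
  have hP : ∀ x ∈ K ⊔ K₂ ⊔ T,
      (cj x K = K ∧ cj x K₂ = K₂) ∨ (cj x K = K₂ ∧ cj x K₂ = K) := fun x hx => by
    obtain ⟨y, hy, s, hs, rfl⟩ := (mem_sup_of_le_Nm' o.T_le_Nm).1 hx
    have y1 := cj_eq_of_mem_normalizer ((sup_le le_normalizer n1 : K ⊔ K₂ ≤ Nm(K)) hy)
    have y2 := cj_eq_of_mem_normalizer ((sup_le n2 le_normalizer : K ⊔ K₂ ≤ Nm(K₂)) hy)
    rcases oT s hs with h | h
    · exact Or.inl ⟨by rw [cj_mul, h.1, y1], by rw [cj_mul, h.2, y2]⟩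
    · exact Or.inr ⟨by rw [cj_mul, h.1, y2], by rw [cj_mul, h.2, y1]⟩
  have hXN : K ⊔ K₂ ⊔ T ≤ Nm(K ⊔ K₂) := sup_le le_normalizer o.T_le_Nm
  have hCP : (K ⊔ K₂ ⊔ T) ⊓ Cz(K ⊔ K₂) = ⊥ := by
    rw [← le_bot_iff, ← hC]
    refine le_inf (ll.syl.le_of_le_Nm ?_ inf_le_left (le_sup_right.trans
      (CfH7.le_normalizer_inf le_normalizer (hXN.trans (Nm_le_Nm_Cz _))))) inf_le_right
    refine CfH7.isPGroup_of_forall_coprime fun x hx ho => ?_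
    have h1 := CfH7.mem_pResidualOf hx.1 ho
    rw [CfH7.pResidualOf_sup_of_isPGroup g.pgrp o.T_le_Nm] at h1
    obtain ⟨y, hy, z, hz, rfl⟩ := (mem_sup_of_le_Nm n2).1 (CfH7.pResidualOf_le _ h1)
    have h2 := hx.2
    rw [Cz_sup] at h2
    have h3 : y ∈ K ⊓ Cz(wOf K) := mi hy (Cz_anti (wOf_le K)
      ((mul_mem_cancel_right (hc hz)).1 h2.1))
    have h4 : z ∈ K₂ ⊓ Cz(wOf K₂) := mi hz (Cz_anti (wOf_le K₂)
      ((mul_mem_cancel_left (hc' hy)).1 h2.2))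
    rw [j1.inf_Cz_wOf] at h3
    rw [j2.inf_Cz_wOf] at h4
    exact CfH7.eq_one_of_mem_of_coprime (CfH7.isPGroup_pCoreOf (K ⊔ K₂ ⊔ T))
      (mul_mem (W.comp_pCoreOf_le ll j1 o.le₁ h3) (W.comp_pCoreOf_le ll j2 o.le₂ h4)) ho
  obtain ⟨ψ, hψ⟩ := exists_psi (P := K ⊔ K₂ ⊔ T) (t := t) j1.res c12 (by rw [e]; exact hne.symm)
    (by rw [e]; exact hP) (by rw [e]; exact hCP)
  have wT : wOf K ≤ T := (W.comp_wOf_le ll j1 o.le₁).trans ll.Z_le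
  have wT₂ : wOf K₂ ≤ T := (W.comp_wOf_le ll j2 o.le₂).trans ll.Z_le
  have ww : wOf K ≤ Cz(wOf K₂) := (wOf_le K).trans (hc'.trans (Cz_anti (wOf_le K₂)))
  obtain ⟨a, ha, a1, a2⟩ := exists_sep g.pgrp j1 j2 wT ww hi
  obtain ⟨b, hb, b1, -⟩ := exists_sep g.pgrp j2 j1 wT₂ (CfH7.le_Cz_comm ww) (by rw [inf_comm]; exact hi)
  have s0 : Nat.card (wOf K ⊔ wOf K₂ : Subgroup G) = 16 := by
    have := card_sup_mul_card_inf (A := wOf K) (B := wOf K₂) (ww.trans (Cz_le_Nm _))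
    rwa [hi, card_bot, mul_one, j1.cardW, j2.cardW] at this
  have s1 := card_le_of_le (show wOf K ⊔ wOf K₂ ≤ T ⊓ Nm(K) ⊓ Cz(wOf K₂) ⊓ Cz(wOf K) from
    sup_le (le_inf (le_inf (le_inf wT ((wOf_le K).trans le_normalizer)) ww)
      (CfH7.elemAb_le_Cz (elemAb_wOf K)))
      (le_inf (le_inf (le_inf wT₂ ((wOf_le K₂).trans n1)) (CfH7.elemAb_le_Cz (elemAb_wOf K₂)))
        (CfH7.le_Cz_comm ww)))
  have s2 := two_mul_le (inf_le_left : T ⊓ Nm(K) ⊓ Cz(wOf K₂) ⊓ Cz(wOf K) ≤ _)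
    (mi (mi (J_le T ha) (j1.le_Nm ha)) a2) fun h => a1 h.2
  have s3 := two_mul_le (inf_le_left : T ⊓ Nm(K) ⊓ Cz(wOf K₂) ≤ _)
    (mi (J_le T hb) (j1.le_Nm hb)) fun h => b1 h.2
  have s4 := two_mul_le (inf_le_left : T ⊓ Nm(K) ≤ _) ht
    fun h => hne ((cj_eq_of_mem_normalizer h.2).symm.trans e)
  have d1 : 128 ∣ Nat.card (K ⊔ K₂ ⊔ T : Subgroup G) := by
    refine dvd_trans ?_ (card_dvd_of_le (le_sup_right : T ≤ _))
    obtain ⟨n, hn⟩ := g.pgrp.exists_card_eq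
    rw [hn] at s4 ⊢
    have : 7 ≤ n := by
      by_contra hlt
      have := Nat.pow_le_pow_right (show 0 < 2 by norm_num) (show n ≤ 6 by omega)
      omega
    exact pow_dvd_pow 2 this
  have d2 : 9 ∣ Nat.card (K ⊔ K₂ ⊔ T : Subgroup G) := by
    refine dvd_trans ?_ (card_dvd_of_le (le_sup_left : K ⊔ K₂ ≤ _))
    have := card_sup_mul_card_inf (A := K) (B := K₂) n2
    rw [hi2, card_bot, mul_one, c12, c12'] at this
    rw [this]; norm_num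
  have d3 := Nat.le_of_dvd Nat.card_pos (Nat.Coprime.mul_dvd_of_dvd_of_dvd (by norm_num) d1 d2)
  have hb := hψ.bijective_of_nat_card_le (by rw [card_Wm]; omega)
  exact ⟨(MulEquiv.ofBijective ψ hb).trans (MulEquiv.ofBijective (om.codRestrict _ om_mem)
    ⟨fun x y h => om_inj (congrArg Subtype.val h), fun y => by
      obtain ⟨x, hx⟩ := om_surj y.2
      exact ⟨x, Subtype.ext hx⟩⟩)⟩

end CfLq
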