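import Cfsg.Agent.OD.Pre
import Cfsg.Agent.L.ZB
import Cfsg.Agent.L.SuB
/-! The centraliser of a 2-central involution in the presented sporadic Suzuki group. -/
set_option autoImplicit false
set_option maxRecDepth 100000
open CfH6 MulAction Subgroup CfH9 CfH4
namespace CfL

theorem ex_word {G : Type*} [Group G] {ev : ℕ → G} {k : ℕ} (h : ∀ x < k, ev x * ev x = 1) {g : G}
    (hg : g ∈ gensub ev k) : ∃ w, (∀ x ∈ w, x < k) ∧ evw ev w = g := by
  induction hg using closure_induction with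
  | mem x hx => obtain ⟨y, hy, rfl⟩ := hx; exact ⟨[y], by simpa using hy, mul_one _⟩
  | one => exact ⟨[], by simp, rfl⟩
  | mul x y _ _ hx hy =>
    obtain ⟨u, h1, rfl⟩ := hx
    obtain ⟨v, h2, rfl⟩ := hy
    exact ⟨u ++ v, forall_app h1 h2, evw_append _ _ _⟩
  | inv x _ hx =>
    obtain ⟨u, h1, rfl⟩ := hx
    exact ⟨u.reverse, fun x hx => h1 x (List.mem_reverse.1 hx), evw_rev h h1⟩

namespace Rep
variable {T : Tab} {G : Type*} [Group G] {ev : ℕ → G} (r : Rep T ev) [Finite G] {k : ℕ} (hk : k ≤ T.nc)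
include hk

theorem lv_tail {s : ℕ × List (List ℕ)} {l : Lv} {bs : List ℕ} (h : T.lvOk k (s :: l) bs = true)
    (hc : Nat.card (gensub ev k ⊓ r.Fx bs : Subgroup G) ≤ lvN (s :: l)) : T.lvOk k l (s.1 :: bs) = true ∧
      Nat.card (gensub ev k ⊓ r.Fx (s.1 :: bs) : Subgroup G) ≤ lvN l := by
  obtain ⟨p, hp, h1, -, B, b1, b2, -⟩ := r.lv_step hk h
  have h3 := r.lv_ge hk l _ h1
  have h4 := Set.ncard_le_ncard b1
  rw [card_orbit_mul _ p, r.Fx_cons, lvN, List.map_cons, List.prod_cons, ← lvN, ← b2] at hc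
  have h5 : 0 < (orbit (gensub ev k ⊓ r.Fx bs : Subgroup G) p).ncard :=
    (Set.ncard_pos (Set.toFinite _)).2 ⟨p, mem_orbit_self p⟩
  rw [← hp]
  exact ⟨h1, by nlinarith⟩
end Rep

namespace Sz
open SuB (S)

noncomputable def eZ : ℕ → S := byW SuB.el zSig

theorem kZ : (zSig.all (allLt sB.nc) && allN (fun x => allN (fun i => Nat.beq (sB.trL (zSig.getD x []) i) (sZ.R x i))
    1782) 11) = true := by decide +kernel

noncomputable def r : Rep sZ eZ := ⟨SuB.r.ρ, fun x hx i => by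
  have := kZ
  rw [Bool.and_eq_true] at this
  exact (SuB.r.word (getD_lt (allLt_all this.1) x) i).trans
    (Nat.eq_of_beq_eq_true ((allN_iff _ _).1 ((allN_iff _ _).1 this.2 x hx) i.1 i.2))⟩

def bs : List ℕ := [1, 3, 5, 16, 8, 416]

theorem base : ∀ g ∈ r.Fx bs, g = 1 := fun g hg => SuB.base g fun i hi => hg i (by
  have : ∀ i ∈ 416 :: sBbs, i ∈ bs := by decide
  exact this _ hi)

noncomputable def eqW (u w : List ℕ) : Bool := allLt 11 u && allLt 11 w && sZ.same bs u w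

theorem weq (u w : List ℕ) (h : eqW u w = true := by decide +kernel) : evw eZ u = evw eZ w := by
  simp only [eqW, Bool.and_eq_true] at h
  exact r.of_same base (allLt_sound h.1.1) (allLt_sound h.1.2) h.2

theorem wne (u w : List ℕ) (h : (allLt 11 u && allLt 11 w && !sZ.same bs u w) = true := by decide +kernel) :
    evw eZ u ≠ evw eZ w := fun e => by
  simp only [Bool.and_eq_true] at h
  rw [r.same_of (by decide +kernel) (allLt_sound h.1.1) (allLt_sound h.1.2) e] at h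
  exact absurd h.2 (by decide)

theorem sq (x : ℕ) (hx : x < 11) : eZ x * eZ x = 1 := by
  have : ∀ x < 11, eqW [x, x] [] = true := by decide +kernel
  simpa using weq _ _ (this x hx)

theorem rev {w : List ℕ} (hw : ∀ x ∈ w, x < 11) : evw eZ w.reverse = (evw eZ w)⁻¹ := evw_rev sq hw

noncomputable def qw (t : ℕ) : List ℕ := subst zQW (zqm.wl t)

theorem exQ : ∃ ι : Tm →* S, (∀ t, ι t = evw eZ (qw t.1)) ∧
    ∀ (x : ℕ) (a : Tm), x < 7 → zqm.R x 0 = a.1 → ι a = evw eZ (zQW.getD x []) := by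
  obtain ⟨ι, h1, h2⟩ := TE.exists_hom zqm_g (byW eZ zQW) (fun x hx => by
    have : ∀ x < 7, eqW (zQW.getD (zqmil.getD x 0) []) (zQW.getD x []).reverse = true := by decide +kernel
    exact (weq _ _ (this x hx)).trans (rev (getD_lt (allLt_all (by decide)) x))) fun w hw => by
    have : ∀ w ∈ zqmrels, eqW (subst zQW w) [] = true := by decide +kernel
    rw [← evw_subst, weq _ _ (this w hw), evw_nil]
  exact ⟨ι, fun t => (h1 t).trans (evw_subst _ _ _).symm, h2⟩

noncomputable def ι0 : Tm →* S := exQ.choose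
theorem ι0_eq (t : Tm) : ι0 t = evw eZ (qw t.1) := exQ.choose_spec.1 t
theorem ι0_Z : ι0 Zm = eZ 0 := (exQ.choose_spec.2 0 Zm (by decide) (by decide +kernel)).trans (mul_one _)
theorem a_ne : eZ 0 ≠ 1 := by simpa using wne [0] []
theorem ι0_inj : Function.Injective ι0 := inj_es hZm ι0 (ι0_Z ▸ a_ne)
theorem qw_lt : ∀ t : Tm, allLt 9 (qw t.1) = true := by decide +kernel

noncomputable def inQ (w : List ℕ) : Bool := !allN (fun t => !eqW w (qw t)) 128

theorem mem_Q (w : List ℕ) (h : inQ w = true := by decide +kernel) : evw eZ w ∈ ι0.range := by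
  by_contra hn
  rw [inQ, (allN_iff _ _).2 fun t ht => ?_] at h
  · exact absurd h (by decide)
  · cases e : eqW w (qw t)
    · rfl
    · exact absurd ⟨⟨t, ht⟩, (ι0_eq _).trans (weq _ _ e).symm⟩ hn

noncomputable abbrev H0 : Subgroup S := gensub eZ 9
theorem wH {w : List ℕ} (h : ∀ x ∈ w, x < 9) : evw eZ w ∈ H0 := evw_mem (fun _ => mem_gensub) h
theorem Q_le : ι0.range ≤ H0 := by
  rintro _ ⟨t, rfl⟩; rw [ι0_eq]; exact wH (allLt_sound (qw_lt t))

theorem normQ : ∀ h ∈ H0, ∀ t, h * ι0 t * h⁻¹ ∈ ι0.range := fun h hh t => by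
  have : H0 ≤ normalizer (ι0.range : Set S) := gensub_le fun x hx => mem_normalizer_fintype (by
    rintro _ ⟨t, rfl⟩
    refine TE.top_of ((ι0.range.comap (MulAut.conj (eZ x)).toMonoidHom).comap ι0) (fun y hy a e => ?_) t
    have k : ∀ x < 9, ∀ y < 7, inQ (x :: zQW.getD y [] ++ [x]) = true := by decide +kernel
    have := mem_Q _ (k x hx y hy)
    rw [List.cons_append, evw_cons, evw_append, ← exQ.choose_spec.2 y a hy e, evw_cons, evw_nil, mul_one,
      ← mul_assoc] at this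
    change eZ x * ι0 a * (eZ x)⁻¹ ∈ ι0.range
    rwa [inv_eq_of_mul_eq_one_right (sq x (by omega))])
  exact (mem_normalizer_iff.1 (this hh) _).1 ⟨t, rfl⟩

theorem cardQ : Nat.card ι0.range = 128 := by
  rw [← Nat.card_congr (MonoidHom.ofInjective ι0_inj).toEquiv, TE.card]; rfl

theorem xw_lt (x : ℕ) : ∀ y ∈ zXW.getD x [], y < 9 := getD_lt (allLt_all (by decide)) x

/-- `H0` is generated by `Q` and four elements of order 3 -/
theorem H0_le {D : Subgroup S} (h1 : ι0.range ≤ D) (h2 : ∀ x < 8, byW eZ zXW x ∈ D) : H0 ≤ D := gensub_le fun x hx => by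
  have k : ∀ x < 9, (allLt 8 (zLW.getD x []) && inQ (subst zXW (zLW.getD x []) ++ [x])) = true := by decide +kernel
  have := k x hx
  rw [Bool.and_eq_true] at this
  have h3 := h1 (mem_Q _ this.2)
  rw [evw_append, evw_subst, evw_cons, evw_nil, mul_one] at h3
  exact (mul_mem_cancel_left (evw_mem h2 (allLt_sound this.1))).1 h3

theorem xinv : ∀ x < 8, byW eZ zXW (zg4_il.getD x 0) = (byW eZ zXW x)⁻¹ := fun x hx => by
  have : ∀ x < 8, eqW (zXW.getD (zg4_il.getD x 0) []) (zXW.getD x []).reverse = true := by decide +kernel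
  exact (weq _ _ (this x hx)).trans (rev fun y hy => (xw_lt x y hy).trans (by decide))

theorem k1 : sZ.lvOk 9 zc1 [] = true := by decide +kernel
theorem k2 : sZ.lvOk 7 zc2 [416] = true := by decide +kernel

theorem cardH : Nat.card H0 = 3317760 := by
  refine le_antisymm ?_ (le_trans (by decide +kernel) ((r.lv_ge (by decide) _ _ k1).trans (card_le_of_le inf_le_left)))
  obtain ⟨D, h1, h2, -, h3, h4⟩ := g32q Q_le (fun p hp _ ⟨t, e⟩ => e ▸ normQ p hp t) (byW eZ zXW)
    (fun x => wH (xw_lt x)) xinv fun w hw => by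
      have : ∀ w ∈ zg4_rels, inQ (subst zXW w) = true := by decide +kernel
      exact evw_subst eZ zXW w ▸ mem_Q _ (this w hw)
  rw [cardQ] at h4
  exact (card_le_of_le (H0_le h1 h2)).trans h4

theorem tail : sZ.lvOk 9 zc2 [416] = true ∧ Nat.card (H0 ⊓ r.Fx [416] : Subgroup S) ≤ lvN zc2 :=
  r.lv_tail (by decide) k1 ((card_le_of_le inf_le_left).trans (cardH.le.trans (by decide +kernel)))

theorem K1_eq : gensub eZ 7 = H0 ⊓ r.Fx [416] :=
  eq_of_le_of_card_ge (gensub_le fun x hx => ⟨mem_gensub (by omega), by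
    have : ∀ x < 7, ([416].all fun b => Nat.beq (sZ.trL [x] b) b) = true := by decide +kernel
    simpa using r.word_Fx (w := [x]) (by simpa using hx.trans (show 7 < sZ.nc by decide)) (this x hx)⟩)
    (tail.2.trans ((r.lv_ge (by decide) _ _ k2).trans (card_le_of_le inf_le_left)))

theorem t54 (t : Tm) (h : t * t = 1 ∧ t ≠ 1 ∧ t ≠ Zm) : ∃ h ∈ H0, h * eZ 5 * h⁻¹ = ι0 t := by
  have : ∀ t : Tm, t * t = 1 ∧ t ≠ 1 ∧ t ≠ Zm → (z54.any fun w => allLt 9 w && eqW (w.reverse ++ 5 :: w) (qw t.1)) = true := by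
    decide +kernel
  obtain ⟨w, -, hw⟩ := List.any_eq_true.1 (this t h)
  rw [Bool.and_eq_true] at hw
  have h1 := allLt_sound hw.1
  refine ⟨(evw eZ w)⁻¹, inv_mem (wH h1), ?_⟩
  rw [ι0_eq, ← weq _ _ hw.2, evw_append, evw_cons, rev fun x hx => (h1 x hx).trans (by decide), inv_inv, mul_assoc]

theorem K1_eq' : gensub eZ 7 = H0 ⊓ Cx(eZ 5) := by
  refine eq_of_le_of_card_ge (gensub_le fun x hx => ⟨mem_gensub (by omega), mem_Cx.2 ?_⟩) ?_
  · have : ∀ x < 7, eqW [x, 5] [5, x] = true := by decide +kernel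
    simpa using weq _ _ (this x hx)
  have h1 := ncard_conj_mul H0 (eZ 5)
  have h2 : 54 ≤ {b | ∃ g ∈ H0, g * eZ 5 * g⁻¹ = b}.ncard := by
    rw [← show TE.cnt (fun t : Tm => t * t = 1 ∧ t ≠ 1 ∧ t ≠ Zm) = 54 by decide +kernel, ← TE.cnt_eq,
      ← Set.ncard_image_of_injective _ ι0_inj]
    exact Set.ncard_le_ncard (by rintro _ ⟨t, ht, rfl⟩; exact t54 t ht)
  have h3 : 61440 ≤ Nat.card (gensub eZ 7) :=
    le_trans (by decide +kernel) ((r.lv_ge (by decide) _ _ k2).trans (card_le_of_le inf_le_left))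
  rw [cardH] at h1
  nlinarith

theorem fixq {w : List ℕ} (hw : ∀ x ∈ w, x < 9) {g : S} (hg : g ∈ H0)
    (h : evw eZ (w.reverse ++ 5 :: w) * g = g * evw eZ (w.reverse ++ 5 :: w)) (i : r.Pt) (hi : i.1 = sZ.trL w 416) :
    g⁻¹ • i = i := by
  have hw' : ∀ x ∈ w, x < 11 := fun x hx => (hw x hx).trans (by decide)
  rw [evw_append, evw_cons, rev hw'] at h
  have : evw eZ w * g * (evw eZ w)⁻¹ ∈ H0 ⊓ r.Fx [416] := K1_eq.le <| K1_eq'.ge ⟨H0.mul_mem (H0.mul_mem (wH hw) hg) (H0.inv_mem (wH hw)),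
    mem_Cx.2 (by
      calc _ = evw eZ w * (g * ((evw eZ w)⁻¹ * (eZ 5 * evw eZ w))) * (evw eZ w)⁻¹ := by group
        _ = _ := by rw [← h]; group)⟩
  have h2 := this.2 (r.pt 416) List.mem_cons_self
  rw [show i = (evw eZ w)⁻¹ • r.pt 416 from Subtype.ext (hi.trans (r.word hw' (r.pt 416)).symm), inv_smul_eq_iff]
  rw [mul_smul, mul_smul, ← eq_inv_smul_iff] at h2
  exact h2.symm

noncomputable def fxs (fq : List (List ℕ × List ℕ)) : List (ℕ × ℕ) :=
  fq.map fun w => (sZ.trL w.1 416, Nat.shiftLeft 1 (sZ.trL w.1 416))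

noncomputable def enumOk (rs : List (List Rul)) (ys : List (List ℕ)) (fq : List (List ℕ × List ℕ)) (fm : List (ℕ × ℕ))
    (fin : List ℕ → Bool) : Bool :=
  (fq.all fun w => allLt 9 w.1 && eqW (w.1.reverse ++ 5 :: w.1) w.2) && rulOk zc1 rs [] &&
    (rs.flatten.all fun ρ => allLt sZ.nc ρ.y && (ys.contains ρ.y && Nat.beq (sZ.trL ρ.y ρ.b) ρ.b' && Nat.beq ρ.S 0 ||
    ρ.y.isEmpty && (fxs fq ++ fm).contains (ρ.b, ρ.S))) && sZ.dfs fin zc1 rs []

theorem enum {rs : List (List Rul)} {ys : List (List ℕ)} {fq : List (List ℕ × List ℕ)} {fm : List (ℕ × ℕ)}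
    {fin : List ℕ → Bool} (h : enumOk rs ys fq fm fin = true) {g : S} (hg : g ∈ H0)
    (hy : ∀ y ∈ ys, evw eZ y * g = g * evw eZ y) (hf : ∀ s ∈ fq, evw eZ s.2 * g = g * evw eZ s.2)
    (hm : ∀ s ∈ fm, ∀ i : r.Pt, i.1 = s.1 → s.2.testBit (g⁻¹ • i).1 = true) :
    ∃ u, (∀ x ∈ u, x < 11) ∧ evw eZ u = g ∧ fin u = true := by
  simp only [enumOk, Bool.and_eq_true] at h
  suffices ∃ u, (∀ x ∈ u, x < 11) ∧ evw eZ u = g * evw eZ [] ∧ fin u = true by simpa using this
  exact r.lv_enum (k := 9) (by decide) fin zc1 [] rs [] (by simp) k1 h.1.1.2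
    ((card_le_of_le inf_le_left).trans (cardH.le.trans (by decide +kernel))) (by simp) h.2
    g ⟨hg, fun _ h => absurd h List.not_mem_nil⟩ (by
      rw [evw_nil, mul_one]
      refine r.ok_of hy (forall_app (fun s hs i hi => ?_) hm) _ h.1.2
      obtain ⟨w, hw, rfl⟩ := List.mem_map.1 hs
      have := List.all_eq_true.1 h.1.1.1 w hw
      rw [Bool.and_eq_true] at this
      rw [fixq (allLt_sound this.1) hg (by rw [weq _ _ this.2]; exact hf w hw) i hi, hi]
      exact (congrArg (Nat.testBit · _) (Nat.one_shiftLeft _)).trans Nat.testBit_two_pow_self)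

theorem hbs : ∀ b ∈ bs, b < sZ.N := by decide +kernel

theorem slv_fin {ys ts cs : List (List ℕ)} (h : (ys.all (allLt 11) && ts.all (allLt 12) && cs.all (allLt 11)) = true)
    {u : List ℕ} (u1 : ∀ x ∈ u, x < 11) (u3 : sZ.slv bs ys ts cs u = true)
    (hy : ∀ y ∈ ys, evw eZ y * evw eZ u = evw eZ u * evw eZ y) (ht : ∀ t ∈ ts, evw (upd eZ 11 (evw eZ u)) t = 1) :
    ∃ c ∈ cs, evw eZ u = evw eZ c := by
  simp only [Bool.and_eq_true] at h
  obtain ⟨⟨h2, h3⟩, h4⟩ := h
  simp only [Tab.slv, Bool.or_eq_true, List.any_eq_true] at u3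
  rcases u3 with (⟨y, a, e⟩ | ⟨t, a, e⟩) | ⟨c, a, e⟩
  · rw [r.same_of hbs (forall_app (allLt_all h2 y a) u1) (forall_app u1 (allLt_all h2 y a)) (by simpa using hy y a)] at e
    exact absurd e (by decide)
  · rw [r.same_of hbs (u := plug sZ.nc u t) (w := []) (plug_lt u1 t (allLt_all h3 t a)) (by simp)
      (by rw [evw_plug, evw_nil]; exact ht t a)] at e
    exact absurd e (by decide)
  · exact ⟨c, a, r.of_same base u1 (allLt_all h4 c a) e⟩

noncomputable def slvOk (rs : List (List Rul)) (ys : List (List ℕ)) (fq : List (List ℕ × List ℕ))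
    (ts cs : List (List ℕ)) : Bool :=
  ys.all (allLt 11) && ts.all (allLt 12) && cs.all (allLt 11) && enumOk rs ys fq [] (sZ.slv bs ys ts cs)

theorem slv {rs : List (List Rul)} {ys ts cs : List (List ℕ)} {fq : List (List ℕ × List ℕ)}
    (h : slvOk rs ys fq ts cs = true) {g : S} (hg : g ∈ H0) (hy : ∀ y ∈ ys, evw eZ y * g = g * evw eZ y)
    (hf : ∀ s ∈ fq, evw eZ s.2 * g = g * evw eZ s.2)
    (ht : ∀ t ∈ ts, evw (upd eZ 11 g) t = 1) : ∃ c ∈ cs, g = evw eZ c := by
  rw [slvOk, Bool.and_eq_true] at h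
  obtain ⟨u, u1, rfl, u3⟩ := enum h.2 hg hy hf forall_nil
  exact slv_fin h.1 u1 u3 hy ht

/-- a quick test that discards most words that are not involutions -/
noncomputable def invp (fin : List ℕ → Bool) (w : List ℕ) : Bool := !Nat.beq (sZ.trL w (sZ.trL w 1)) 1 || fin w

theorem invp_fin {fin : List ℕ → Bool} {u : List ℕ} (u1 : ∀ x ∈ u, x < 11) (h : invp fin u = true)
    (h2 : evw eZ u * evw eZ u = 1) : fin u = true := by
  have e : sZ.trL u (sZ.trL u 1) = 1 := by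
    have := r.word u1 ((evw eZ u)⁻¹ • r.pt 1)
    rw [← mul_smul, ← mul_inv_rev, h2, inv_one, one_smul, r.word u1] at this
    exact this.symm
  rw [invp, e] at h
  exact h

/-- cut the points into intervals -/
theorem cut (l : List ℕ) : ∀ a, (∀ i, a ≤ i → i < a + l.sum → ∃ s ∈ l.zip (l.scanl (· + ·) a), (ivl s.2 s.1).testBit i = true) := by
  induction l with
  | nil => intro a i h1 h2; simp at h2; omega
  | cons c l ih =>
    intro a i h1 h2
    rw [List.scanl_cons, List.zip_cons_cons]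
    by_cases h : i < a + c
    · exact ⟨_, List.mem_cons_self, by rw [testBit_ivl]; exact decide_eq_true ⟨h1, h⟩⟩
    · obtain ⟨s, hs, e⟩ := ih (a + c) i (by omega) (by rw [List.sum_cons] at h2; omega)
      exact ⟨s, List.mem_cons_of_mem _ hs, e⟩

theorem Ha : ∀ h ∈ H0, h * eZ 0 = eZ 0 * h := fun h hh => mem_Cx.1 (gensub_le (K := Cx(eZ 0)) (fun x hx => mem_Cx.2 (by
  have : ∀ x < 9, eqW [x, 0] [0, x] = true := by decide +kernel
  simpa using weq _ _ (this x hx))) hh)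

end Sz
end CfL
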