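import Cfsg.Agent.OD.Pre
import Cfsg.Agent.L.ZT2
import Cfsg.Agent.H7.FStar
/-! The centraliser of the involution is isomorphic to the one in the sporadic Suzuki group. -/
set_option autoImplicit false
set_option maxRecDepth 100000
open CfH6 MulAction Subgroup CfH9 CfH4
namespace CfL

section
variable {G : Type*} [Group G]

theorem rng_ge {A : Type*} [Group A] [Finite G] (θ : G →* A) {a : G} (h : ∀ k, θ k = 1 → k = 1 ∨ k = a) :
    Nat.card G ≤ 2 * Nat.card θ.range := by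
  rw [← θ.ker.card_mul_index, index_ker]
  refine Nat.mul_le_mul_right _ ?_
  change Nat.card (θ.ker : Set G) ≤ 2
  rw [Nat.card_coe_set_eq]
  exact (Set.ncard_le_ncard (t := {1, a}) h).trans ((Set.ncard_insert_le _ _).trans (by simp))

theorem rng_le {A : Type*} [Group A] [Finite G] (θ : G →* A) {a : G} (h : θ a = 1) (h1 : a ≠ 1) :
    2 * Nat.card θ.range ≤ Nat.card G := by
  rw [← θ.ker.card_mul_index, index_ker]
  exact Nat.mul_le_mul_right _ ((one_lt_card_iff_ne_bot _).2 fun e => h1 (e.le h))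

theorem odd_z {z x y : G} {n : ℕ} (z2 : z * z = 1) (c : y * z = z * y) (e : x = y ∨ x = z * y) (hx : x ^ (2 * n + 1) = 1)
    (hy : y ^ (2 * n + 1) = 1) : x = y := e.elim id fun e => by
  rw [e, (show Commute z y from c.symm).mul_pow, hy, pow_succ, pow_mul, pow_two, z2, one_pow, one_mul, mul_one] at hx
  rw [e, hx, one_mul]

theorem exn [Finite G] {z f x : G} (h : IsConj z f) (c1 : x * z = z * x) (c2 : x * f = f * x) (h5 : orderOf x = 5)
    (hc : Nat.card Cx(z) = 3317760) : ∃ n, n * z * n⁻¹ = f ∧ n * x * n⁻¹ ∈ zpowers x ∧ x ∈ zpowers (n * x * n⁻¹) := by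
  obtain ⟨n, rfl⟩ := isConj_iff.1 h
  have : Fact (Nat.Prime 5) := ⟨by norm_num⟩
  have hc' : Nat.card Cx(n * z * n⁻¹) = 5 * 663552 := by
    have a := ncard_class_mul z
    have b := ncard_class_mul (n * z * n⁻¹)
    rw [show {b | IsConj (n * z * n⁻¹) b} = {b | IsConj z b} from Set.ext fun _ => ⟨h.trans, h.symm.trans⟩, ← a, hc] at b
    exact Nat.eq_of_mul_eq_mul_left ((Set.ncard_pos (Set.toFinite _)).2 ⟨z, IsConj.refl z⟩) b
  obtain ⟨c, h1, h2⟩ := conj_into (p := 5) (n := 1) (g := n * x * n⁻¹) (zpowers_le.2 (mem_Cx.2 c2))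
    (not_dvd_relIndex (zpowers_le.2 (mem_Cx.2 c2)) hc' (by rw [Nat.card_zpowers, h5]) (by norm_num))
    (mem_Cx.2 (by calc _ = n * (x * z) * n⁻¹ := by group
      _ = _ := by rw [c1]; group)) (by rw [conj_pow, pow_one, ← h5, pow_orderOf_eq_one]; group)
  have e : c * n * x * (c * n)⁻¹ = c * (n * x * n⁻¹) * c⁻¹ := by group
  refine ⟨c * n, by rw [← mem_Cx'.1 h1]; group, e ▸ h2, ?_⟩
  rw [eq_of_le_of_card_ge (zpowers_le.2 (e ▸ h2)) (by
    rw [Nat.card_zpowers, Nat.card_zpowers, ← MulAut.conj_apply, MulEquiv.orderOf_eq])]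
  exact mem_zpowers x
end

namespace Sz
open SuB (S)
variable {G : Type*} [Group G] [Finite G]

/-- the letters `0, …, 8` give an isomorphism of `H0` onto the centraliser of `z` -/
structure Mod (z : G) (ev : ℕ → G) : Prop where
  rel : ∀ w : List ℕ, (∀ x ∈ w, x < 9) → (evw eZ w = 1 ↔ evw ev w = 1)
  z0 : ev 0 = z
  top : ∀ h, h * z = z * h → h ∈ gensub ev 9
  cj : IsConj z (ev 5)
  card : Nat.card Cx(z) = 3317760

structure St (z : G) (ι : Tm →* G) : Prop where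
  inj : Function.Injective ι
  z0 : ι Zm = z
  nm : ∀ h, h * z = z * h → ∀ t, h * ι t * h⁻¹ ∈ ι.range
  ct : ∀ h, (∀ t, h * ι t = ι t * h) → h = 1 ∨ h = z
  card : Nat.card Cx(z) = 3317760
  cj : ∃ t ≠ Zm, IsConj z (ι t)

noncomputable def Dl (ι : Tm →* G) : Subgroup (S × G) := (ι0.prod ι).range
noncomputable def Pp (ι : Tm →* G) : Subgroup (S × G) := normalizer (Dl ι : Set (S × G)) ⊓ H0.comap (MonoidHom.fst S G)

theorem upd_lt {α : Type*} {ev : ℕ → α} {v x : ℕ} {h : α} (e : x ≠ v := by decide) : upd ev v h x = ev x := if_neg e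
theorem upd_eq {α : Type*} {ev : ℕ → α} {v : ℕ} {h : α} : upd ev v h v = h := if_pos rfl

noncomputable def tg (x : ℕ) : Tm := [Zm, .mk _ 2, .mk _ 3, .mk _ 4, .mk _ 5, .mk _ 6, .mk _ 7].getD x 1
theorem ι0_tg (x : ℕ) (hx : x < 7) : ι0 (tg x) = evw eZ (zQW.getD x []) :=
  exQ.choose_spec.2 x _ hx (by revert x; decide +kernel)

theorem cQ {h : S} (hh : h ∈ H0) (hc : ∀ t, h * ι0 t = ι0 t * h) : h = 1 ∨ h = eZ 0 := by
  have k : ∀ x < 7, evw eZ (zQW.getD x []) * h = h * evw eZ (zQW.getD x []) := fun x hx => by rw [← ι0_tg x hx, hc]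
  simpa using slv s4 hh (forall_cons (k 2 (by decide)) <| forall_cons (k 4 (by decide)) <| forall_cons (k 5 (by decide)) <|
    forall_cons (k 6 (by decide)) forall_nil) (forall_cons (k 1 (by decide)) <| forall_cons (k 3 (by decide)) forall_nil)
    forall_nil

namespace St
variable {z : G} {ι : Tm →* G} (h : St z ι)

omit [Finite G] in
theorem Pc {π : S × G} (hπ : π ∈ Pp ι) (t : Tm) :
    ∃ s, π.1 * ι0 t * π.1⁻¹ = ι0 s ∧ π.2 * ι t * π.2⁻¹ = ι s := by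
  obtain ⟨s, hs⟩ := (mem_normalizer_iff.1 hπ.1 _).1 ⟨t, rfl⟩
  exact ⟨s, (congrArg Prod.fst hs).symm, (congrArg Prod.snd hs).symm⟩

theorem P_of {π : S × G} (h0 : π.1 ∈ H0) (h1 : ∀ t, ∃ s, π.1 * ι0 t * π.1⁻¹ = ι0 s ∧ π.2 * ι t * π.2⁻¹ = ι s) :
    π ∈ Pp ι := ⟨mem_normalizer_fintype (by
  rintro _ ⟨t, rfl⟩
  obtain ⟨s, e1, e2⟩ := h1 t
  exact ⟨s, Prod.ext e1.symm e2.symm⟩), h0⟩

omit [Finite G] in
theorem DP : Dl ι ≤ Pp ι := le_inf le_normalizer (by rintro _ ⟨t, rfl⟩; exact Q_le ⟨t, rfl⟩)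

omit [Finite G] in
theorem cm {π : S × G} (hπ : π ∈ Pp ι) {t : Tm} (e : π.1 * ι0 t = ι0 t * π.1) : π.2 * ι t = ι t * π.2 := by
  obtain ⟨s, e1, e2⟩ := Pc hπ t
  rw [e, mul_inv_cancel_right] at e1
  rw [← ι0_inj e1] at e2
  exact mul_inv_eq_iff_eq_mul.1 e2

include h

omit [Finite G] in
theorem z2 : z * z = 1 := by rw [← h.z0, ← map_mul, show Zm * Zm = 1 by decide +kernel, map_one]
omit [Finite G] in
theorem z1 : z ≠ 1 := fun e => absurd (h.inj (h.z0.trans (e.trans (map_one ι).symm))) (by decide +kernel)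
omit [Finite G] in
theorem zc (t : Tm) : ι t * z = z * ι t := by rw [← h.z0, ← map_mul, ← map_mul, ((cZm Zm).2 rfl).1]

omit [Finite G] in
theorem P3 {π : S × G} (hπ : π ∈ Pp ι) : π.2 * z = z * π.2 := h.z0 ▸ cm hπ (ι0_Z ▸ Ha _ hπ.2)

omit [Finite G] in
theorem P1 {π ρ : S × G} (hπ : π ∈ Pp ι) (hρ : ρ ∈ Pp ι) (e : π.1 = ρ.1) : π.2 = ρ.2 ∨ π.2 = z * ρ.2 :=
  (h.ct _ fun t => cm (mul_mem hπ (inv_mem hρ)) (by simp [e])).imp mul_inv_eq_one.1 mul_inv_eq_iff_eq_mul.1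

omit [Finite G] in
theorem P2 {π ρ : S × G} (hπ : π ∈ Pp ι) (hρ : ρ ∈ Pp ι) (e : π.2 = ρ.2) : π.1 = ρ.1 ∨ π.1 = eZ 0 * ρ.1 :=
  (cQ (mul_mem hπ (inv_mem hρ)).2 fun t => by
    obtain ⟨s, e1, e2⟩ := Pc (mul_mem hπ (inv_mem hρ)) t
    rw [← h.inj (a₁ := t) (a₂ := s) (by simpa [e] using e2)] at e1
    exact mul_inv_eq_iff_eq_mul.1 e1).imp mul_inv_eq_one.1 mul_inv_eq_iff_eq_mul.1

theorem Pz : ((1, z) : S × G) ∈ Pp ι := P_of (one_mem _) fun t => ⟨t, by simp, by rw [← h.zc]; simp⟩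

theorem lift : (∀ a ∈ H0, ∃ b, (a, b) ∈ Pp ι) ∧ ∀ b, b * z = z * b → ∃ a, (a, b) ∈ Pp ι := by
  obtain ⟨θ0, e0⟩ := exists_theta ι0_inj H0 normQ
  obtain ⟨θ, e⟩ := exists_theta h.inj Cx(z) fun k hk => h.nm k (mem_Cx.1 hk)
  have key : ∀ a b, θ0 a = θ b → ((a : S), (b : G)) ∈ Pp ι := fun a b hab =>
    P_of a.2 fun t => ⟨θ b t, by rw [← hab, e0], (e b t).symm⟩
  have c1 := rng_ge θ (a := ⟨z, mem_Cx.2 rfl⟩) fun k hk => (h.ct k fun t => by
    have := e k t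
    rw [hk] at this
    exact mul_inv_eq_iff_eq_mul.1 this.symm).imp Subtype.ext Subtype.ext
  have c2 := rng_le θ (a := ⟨z, mem_Cx.2 rfl⟩) (MulEquiv.ext fun t => h.inj (by rw [e, ← h.zc]; simp))
    fun e => h.z1 (congrArg Subtype.val e)
  have c3 := rng_ge θ0 (a := ⟨eZ 0, mem_gensub (by decide)⟩) fun k hk => (cQ k.2 fun t => by
    have := e0 k t
    rw [hk] at this
    exact mul_inv_eq_iff_eq_mul.1 this.symm).imp Subtype.ext Subtype.ext
  rw [h.card] at c1 c2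
  rw [cardH] at c3
  have l1 : H0 ≤ (Pp ι).map (MonoidHom.fst S G) := H0_le (by rintro _ ⟨t, rfl⟩; exact ⟨_, DP ⟨t, rfl⟩, rfl⟩) fun x hx => by
    let a : H0 := ⟨_, wH (xw_lt x)⟩
    obtain ⟨b, hb⟩ := sq_mem_of_card (R := θ.range) (autm.trans (by omega)) (θ0 (a * a))
    have k : ∀ x < 8, eqW (wpow (zXW.getD x []) 4) (zXW.getD x []) = true := by decide +kernel
    refine ⟨_, key (a * a * (a * a)) b (by rw [map_mul, hb]), ?_⟩
    have := weq _ _ (k x hx)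
    rw [evw_wpow] at this
    exact (by simp [a, pow_succ, mul_assoc] : _ = _).trans this
  have l2 : θ0.range = θ.range := eq_of_le_of_card_ge (by
    rintro _ ⟨a, rfl⟩
    obtain ⟨π, h1, h2⟩ := l1 a.2
    refine ⟨⟨π.2, mem_Cx.2 (h.P3 h1)⟩, MulEquiv.ext fun t => ?_⟩
    obtain ⟨s, e1, e2⟩ := Pc h1 t
    rw [h.inj ((e _ t).trans e2), ι0_inj ((e0 a t).trans (by rw [← e1, ← h2]; rfl))]) (by omega)
  refine ⟨fun a ha => ?_, fun b hb => ?_⟩
  · obtain ⟨π, h1, rfl⟩ := l1 ha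
    exact ⟨π.2, h1⟩
  · obtain ⟨a, ha⟩ := l2.ge ⟨⟨b, mem_Cx.2 hb⟩, rfl⟩
    exact ⟨a, key _ _ ha⟩

theorem lift_odd {a : S} (ha : a ∈ H0) {n : ℕ} (hn : a ^ (2 * n + 1) = 1) :
    ∃ b, (a, b) ∈ Pp ι ∧ b ^ (2 * n + 1) = 1 := by
  obtain ⟨b, hb⟩ := h.lift.1 a ha
  rcases h.P1 (pow_mem hb (2 * n + 1)) (one_mem _) hn with e | e
  · exact ⟨b, hb, e⟩
  · refine ⟨z * b, by simpa using mul_mem h.Pz hb, ?_⟩
    rw [(show Commute z b from (h.P3 hb).symm).mul_pow, show b ^ (2 * n + 1) = z * 1 from e, pow_succ, pow_mul, pow_two, h.z2,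
      one_pow, one_mul, mul_one, h.z2]

theorem cjf : IsConj z (ι (tg 1)) := by
  obtain ⟨t, t1, ht⟩ := h.cj
  obtain ⟨a, ha, e⟩ := t54 t ⟨h.inj (by rw [map_mul, map_one, sq_of_isConj ht h.z2]),
    fun e => ne_one_of_isConj ht h.z1 (by rw [e, map_one]), t1⟩
  obtain ⟨b, hb⟩ := h.lift.1 a ha
  obtain ⟨s, e1, e2⟩ := Pc hb (tg 1)
  rw [ι0_tg 1 (by decide)] at e1
  rw [← ι0_inj (a₂ := s) (e.symm.trans (by rw [← e1]; exact congrArg (a * · * a⁻¹) (mul_one _).symm))] at e2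
  exact ht.trans (isConj_iff.2 ⟨b, e2⟩).symm

theorem exE : ∃ t, (eZ 3, t) ∈ Pp ι ∧ t * t = 1 := by
  obtain ⟨t, ht⟩ := h.lift.1 (eZ 3) (mem_gensub (by decide))
  refine ⟨t, ht, (h.P1 (mul_mem ht ht) (one_mem _) (sq 3 (by decide))).resolve_right fun t2 => ?_⟩
  replace t2 : t * t = z := t2.trans (mul_one z)
  have : Fact (Nat.Prime 5) := ⟨by norm_num⟩
  have x5 : evw eZ [3, 4] ^ (2 * 2 + 1) = 1 := by rw [← evw_wpow, weq _ [], evw_nil]
  have xa : evw eZ [3, 4] * eZ 0 = eZ 0 * evw eZ [3, 4] := Ha _ (wH (by decide))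
  obtain ⟨x, hx, x5'⟩ := h.lift_odd (wH (w := [3, 4]) (by decide)) x5
  have f0 : ι0 (tg 1) = eZ 5 := (ι0_tg 1 (by decide)).trans (mul_one _)
  obtain ⟨n, n1, n2, n3⟩ := exn h.cjf (h.P3 hx) (cm hx (by rw [f0]; simpa [mul_assoc] using weq [3, 4, 5] [5, 3, 4]))
    (orderOf_eq_prime x5' fun e => by
      rcases h.P2 hx (one_mem _) e with e | e
      · exact wne _ [] (by decide +kernel) e
      · exact wne _ [0] (by decide +kernel) e) h.card
  -- conjugation of the 5-element passes between the two groups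
  have up : ∀ {π : S × G} {ρ : S × G}, π ∈ Pp ι → ρ ∈ Pp ι → ρ.1 ^ (2 * 2 + 1) = 1 → ρ.1 * eZ 0 = eZ 0 * ρ.1 →
      π.2 * x * π.2⁻¹ = ρ.2 → π.1 * evw eZ [3, 4] * π.1⁻¹ = ρ.1 := fun hπ hρ r5 ra e =>
    odd_z (sq 0 (by decide)) ra (h.P2 (mul_mem (mul_mem hπ hx) (inv_mem hπ)) hρ e) (by rw [conj_pow, x5]; simp) r5
  have tx : t * x * t⁻¹ = x⁻¹ := odd_z (n := 2) h.z2 (h.P3 (inv_mem hx)) (h.P1 (mul_mem (mul_mem ht hx) (inv_mem ht))
    (inv_mem hx) (by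
      change eZ 3 * evw eZ [3, 4] * (eZ 3)⁻¹ = (evw eZ [3, 4])⁻¹
      rw [← rev (by decide), mul_inv_eq_iff_eq_mul]; simpa [mul_assoc] using weq [3, 3, 4] [4, 3, 3]))
    (by rw [conj_pow, x5']; simp) (by rw [inv_pow, x5', inv_one])
  obtain ⟨j, hj⟩ := n2
  obtain ⟨a, ha⟩ := h.lift.2 (n⁻¹ * z * n) (by
    calc _ = n⁻¹ * (z * (n * z * n⁻¹)) * n := by group
      _ = n⁻¹ * ((n * z * n⁻¹) * z) * n := by rw [n1, h.zc]
      _ = _ := by group)
  have a1 := up ha hx x5 xa (by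
    have : z * x ^ j = x ^ j * z := ((show Commute x z from h.P3 hx).zpow_left j).symm
    calc _ = n⁻¹ * (z * (n * x * n⁻¹) * z⁻¹) * n := by group
      _ = _ := by rw [← show x ^ j = _ from hj, this, mul_inv_cancel_right, show x ^ j = _ from hj]; group)
  have a2 : a * a * (a * a) = 1 := by
    rcases h.P2 (mul_mem ha ha) (one_mem _) (show n⁻¹ * z * n * (n⁻¹ * z * n) = 1 by
      calc _ = n⁻¹ * (z * z) * n := by group
        _ = 1 := by rw [h.z2]; group) with e | e <;> rw [show a * a = _ from e] <;> simp [sq]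
  obtain ⟨c, hc, rfl⟩ := slv sD ha.2 (by simpa using (mul_inv_eq_iff_eq_mul.1 a1).symm) forall_nil
    (by simpa [upd_eq, mul_assoc] using a2)
  have k : ∀ c ∈ [[], [0], [5], [7], [0, 5], [0, 7], [5, 7], [7, 5]], (inQ c && eqW (3 :: c) (c ++ [3])) = true := by
    decide +kernel
  have k := k c hc
  rw [Bool.and_eq_true] at k
  obtain ⟨s, hs⟩ := mem_Q c k.1
  have ts := cm ht (t := s) (by rw [hs]; simpa using weq _ _ k.2)
  have tf : t * (n⁻¹ * z * n) = n⁻¹ * z * n * t := by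
    rcases h.P1 ha (DP ⟨s, rfl⟩) hs.symm with e | e <;> rw [show n⁻¹ * z * n = _ from e]
    · exact ts
    · change t * (z * ι s) = z * ι s * t
      rw [← mul_assoc, h.P3 ht, mul_assoc, ts, mul_assoc]
  obtain ⟨b, hb⟩ := h.lift.2 (n * t * n⁻¹) (by
    calc _ = n * (t * (n⁻¹ * z * n)) * n⁻¹ := by group
      _ = _ := by rw [tf]; group)
  obtain ⟨i, hi⟩ := n3
  have b1 := up hb (inv_mem hx) (by change _⁻¹ ^ _ = 1; rw [inv_pow, x5, inv_one]) (Ha _ (inv_mem hx).2) (by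
    change n * t * n⁻¹ * x * (n * t * n⁻¹)⁻¹ = x⁻¹
    have : n * t * n⁻¹ * (n * x * n⁻¹) * (n * t * n⁻¹)⁻¹ = (n * x * n⁻¹)⁻¹ := by
      calc _ = n * (t * x * t⁻¹) * n⁻¹ := by group
        _ = _ := by rw [tx]; group
    rw [← show (n * x * n⁻¹) ^ i = x from hi, ← conj_zpow, this, inv_zpow])
  have b2 := h.P2 (mul_mem hb hb) (DP ⟨tg 1, rfl⟩) (show n * t * n⁻¹ * (n * t * n⁻¹) = ι (tg 1) by
    rw [← n1, ← t2]; group)
  have e3 : ∀ y, eZ 3 * (eZ 3 * y) = y := fun y => by rw [← mul_assoc, sq 3 (by decide), one_mul]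
  obtain ⟨c, hc, -⟩ := slv sT (g := eZ 3 * b) (mul_mem (mem_gensub (by decide)) hb.2) (forall_cons (by
    change b * evw eZ [3, 4] * b⁻¹ = (evw eZ [3, 4])⁻¹ at b1
    rw [mul_assoc, mul_inv_eq_iff_eq_mul.1 b1, ← rev (by decide), ← mul_assoc, ← mul_assoc]
    exact congrArg (· * b) (by simp [mul_assoc])) forall_nil) forall_nil (forall_cons (by
    simp only [evw_cons, evw_nil, upd_eq, upd_lt (show 3 ≠ 11 by decide), upd_lt (show 7 ≠ 11 by decide),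
      upd_lt (show 0 ≠ 11 by decide), mul_assoc, e3]
    rcases b2 with e | e <;> rw [← mul_assoc b b, ← mul_assoc b b, show b * b = _ from e]
    · simpa [f0] using weq [5, 7, 5, 7, 0] []
    · simpa [f0, mul_assoc] using weq [0, 5, 7, 0, 5, 7, 0] []) forall_nil)
  exact List.not_mem_nil hc

omit [Finite G] in
theorem qD {π : S × G} (hπ : π ∈ Pp ι) (hq : π.1 ∈ ι0.range) : π ∈ Dl ι ∨ (1, z) * π ∈ Dl ι := by
  obtain ⟨t, ht⟩ := hq
  rcases h.P1 hπ (DP ⟨t, rfl⟩) ht.symm with e | e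
  · exact Or.inl ⟨t, Prod.ext ht e.symm⟩
  · exact Or.inr ⟨t, Prod.ext (ht.trans (one_mul _).symm) (by
      change _ = z * π.2
      rw [e, ← mul_assoc, h.z2, one_mul])⟩

omit [Finite G] in
theorem zeta {π : S × G} (hπ : π ∈ Pp ι) : π * (1, z) = (1, z) * π ∧ ((1, z) : S × G) * (1, z) = 1 :=
  ⟨Prod.ext (by simp) (h.P3 hπ), Prod.ext (by simp) h.z2⟩

omit [Finite G] in
theorem cj3 {g s t : S × G} (hg : g ∈ Pp ι) (hs : s ∈ Pp ι) (ht : t ∈ Pp ι) (s3 : s ^ 3 = 1) (t3 : t ^ 3 = 1)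
    (e : (g * s * g⁻¹ * t⁻¹).1 ∈ ι0.range) : g * s * g⁻¹ * t⁻¹ ∈ Dl ι := by
  have hp := mul_mem (mul_mem hg hs) (inv_mem hg)
  refine (h.qD (mul_mem hp (inv_mem ht)) e).elim id fun e => absurd ?_ h.z1
  have a : (g * s * g⁻¹) ^ 3 = 1 := by rw [conj_pow, s3]; simp
  generalize g * s * g⁻¹ = u at *
  have n := mem_normalizer_iff.1 ht.1
  have b := mul_mem (mul_mem e ((n _).1 e)) ((n _).1 ((n _).1 e))
  have c' : ∀ y, u * ((1, z) * y) = (1, z) * (u * y) := fun y => by rw [← mul_assoc, (h.zeta hp).1, mul_assoc]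
  have d : ∀ y : S × G, (1, z) * ((1, z) * y) = y := fun y => by rw [← mul_assoc, (h.zeta hp).2, one_mul]
  simp only [mul_assoc, inv_mul_cancel_left, c', d] at b
  rw [show u * (u * (u * (t⁻¹ * (t⁻¹ * t⁻¹)))) = u ^ 3 * (t ^ 3)⁻¹ by simp [pow_three, mul_assoc], a, t3, inv_one, mul_one, mul_one] at b
  obtain ⟨r, hr⟩ := b
  rw [← show ι r = z from congrArg Prod.snd hr, ι0_inj (a₂ := 1) ((congrArg Prod.fst hr).trans (map_one ι0).symm), map_one]

omit [Finite G] in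
theorem sqE {π E : S × G} (hπ : π ∈ Pp ι) (hE : E ∈ Pp ι) (E2 : E * E = 1) (e : (π * E).1 ∈ ι0.range) :
    π * π ∈ Dl ι := by
  have n := mem_normalizer_iff.1 hE.1
  have Ei := inv_eq_of_mul_eq_one_right E2
  have e2 : ∀ y, E * (E * y) = y := fun y => by rw [← mul_assoc, E2, one_mul]
  rcases h.qD (mul_mem hπ hE) e with e | e <;> have b := mul_mem e ((n _).1 e)
  · simpa only [Ei, mul_assoc, e2, E2, mul_one] using b
  · simp only [Ei, mul_assoc, e2, E2, mul_one] at b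
    rwa [← mul_assoc π, (h.zeta hπ).1, mul_assoc, ← mul_assoc, (h.zeta hπ).2, one_mul] at b

theorem exD : ∃ D, Dl ι ≤ D ∧ D ≤ Pp ι ∧ H0 ≤ D.map (MonoidHom.fst S G) ∧ ∀ π ∈ D, π.1 = 1 → π.2 = 1 := by
  have k : ∀ x < 8, byW eZ zXW x ^ (2 * 1 + 1) = 1 := fun x hx => by
    have : ∀ x < 8, eqW (wpow (zXW.getD x []) 3) [] = true := by decide +kernel
    rw [byW, ← evw_wpow, weq _ _ (this x hx), evw_nil]
  have k2 : ∀ x < 8, ∃ π ∈ Pp ι, π.1 = byW eZ zXW x ∧ π ^ 3 = 1 := fun x hx => by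
    obtain ⟨b, h1, h2⟩ := h.lift_odd (wH (xw_lt x)) (k x hx)
    exact ⟨_, h1, rfl, Prod.ext (k x hx) h2⟩
  obtain ⟨x, x1, x2, x3⟩ := k2 0 (by decide)
  obtain ⟨y, y1, y2, y3⟩ := k2 2 (by decide)
  obtain ⟨u, u1, u2, u3⟩ := k2 4 (by decide)
  obtain ⟨w, w1, w2, w3⟩ := k2 6 (by decide)
  obtain ⟨t, ht, t2⟩ := h.exE
  let X : ℕ → S × G := fun i => [x, x⁻¹, y, y⁻¹, u, u⁻¹, w, w⁻¹].getD i 1
  have hX : ∀ i, X i ∈ Pp ι := fun i => by
    rcases Nat.lt_or_ge i 8 with hi | hi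
    · interval_cases i
      exacts [x1, inv_mem x1, y1, inv_mem y1, u1, inv_mem u1, w1, inv_mem w1]
    · rw [show X i = 1 from List.getD_eq_default _ _ hi]; exact one_mem _
  have X1 : ∀ i < 8, (X i).1 = byW eZ zXW i := fun i hi => by
    interval_cases i
    exacts [x2, (congrArg _ x2).trans (xinv 0 (by decide)).symm, y2, (congrArg _ y2).trans (xinv 2 (by decide)).symm,
      u2, (congrArg _ u2).trans (xinv 4 (by decide)).symm, w2, (congrArg _ w2).trans (xinv 6 (by decide)).symm]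
  have XQ : ∀ (v e : List ℕ), (allLt 8 v && inQ (subst zXW v ++ e)) = true → (evw X v).1 * evw eZ e ∈ ι0.range :=
    fun v e hv => by
      rw [Bool.and_eq_true] at hv
      have := mem_Q _ hv.2
      rwa [evw_append, evw_subst, ← hom_evw (ρ := MonoidHom.fst S G) X1 v (allLt_sound hv.1)] at this
  have XP : ∀ v, evw X v ∈ Pp ι := fun v => evw_mem (k := v.sum + 1) (fun x _ => hX x)
    fun x hx => Nat.lt_succ_of_le (List.le_sum_of_mem hx)
  have cu : ∀ {x : S × G}, x ^ 3 = 1 → x * (x * (x * 1)) ∈ Dl ι := fun e => by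
    rw [mul_one, ← pow_three, e]; exact one_mem _
  have br : ∀ {a b : S × G}, a ∈ Pp ι → b ∈ Pp ι → a ^ 3 = 1 → b ^ 3 = 1 →
      (a * (b * (a * (b⁻¹ * (a⁻¹ * (b⁻¹ * 1)))))).1 * 1 ∈ ι0.range → a * (b * (a * (b⁻¹ * (a⁻¹ * (b⁻¹ * 1))))) ∈ Dl ι :=
    fun ha hb a3 b3 e => by
      simpa only [mul_assoc, mul_inv_rev, mul_one] using h.cj3 (mul_mem ha hb) ha hb a3 b3
        (by simpa only [mul_assoc, mul_inv_rev, mul_one] using e)
  have co : ∀ {a b : S × G}, a ∈ Pp ι → b ∈ Pp ι → b ^ 3 = 1 →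
      (a * (b * (a⁻¹ * (b⁻¹ * 1)))).1 * 1 ∈ ι0.range → a * (b * (a⁻¹ * (b⁻¹ * 1))) ∈ Dl ι := fun ha hb b3 e => by
    simpa only [mul_assoc, mul_one] using h.cj3 ha hb hb b3 b3 (by simpa only [mul_assoc, mul_one] using e)
  have : Finite (Dl ι) := Finite.of_surjective _ (ι0.prod ι).rangeRestrict_surjective
  obtain ⟨D, d1, d2, d3, d4, d5⟩ := g32q DP (fun p hp n hn => (mem_normalizer_iff.1 hp.1 n).1 hn) X hX
    (fun i hi => by interval_cases i <;> first | rfl | exact (inv_inv _).symm)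
    (forall_cons (cu x3) <| forall_cons (cu y3) <| forall_cons (br x1 y1 x3 y3 (XQ [0, 2, 0, 3, 1, 3] [] (by decide +kernel))) <|
    forall_cons (cu u3) <| forall_cons (br y1 u1 y3 u3 (XQ [2, 4, 2, 5, 3, 5] [] (by decide +kernel))) <|
    forall_cons (co x1 u1 u3 (XQ [0, 4, 1, 5] [] (by decide +kernel))) <| forall_cons (cu w3) <|
    forall_cons (br u1 w1 u3 w3 (XQ [4, 6, 4, 7, 5, 7] [] (by decide +kernel))) <|
    forall_cons (co x1 w1 w3 (XQ [0, 6, 1, 7] [] (by decide +kernel))) <|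
    forall_cons (co y1 w1 w3 (XQ [2, 6, 3, 7] [] (by decide +kernel))) <|
    forall_cons ((evw_append X (wpow [0, 2, 4, 6] 5) _).symm ▸ h.sqE (XP _) (one_mem _) (one_mul _)
      (XQ (wpow [0, 2, 4, 6] 5) [] (by decide +kernel))) <|
    forall_cons ((evw_append X [6, 4, 3, 1, 4, 3, 4, 6] _).symm ▸ h.sqE (XP _) ht (Prod.ext (sq 3 (by decide)) t2)
      (by simpa using XQ [6, 4, 3, 1, 4, 3, 4, 6] [3] (by decide +kernel))) forall_nil)
  have l1 : H0 ≤ D.map (MonoidHom.fst S G) := H0_le (by rintro _ ⟨t, rfl⟩; exact ⟨_, d1 ⟨t, rfl⟩, rfl⟩)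
    fun i hi => ⟨_, d2 i hi, X1 i hi⟩
  have : Finite (D.map (MonoidHom.fst S G)) := inferInstance
  refine ⟨D, d1, d3, l1, fun π hπ => graph_one (n := 3317760) ⟨d4, d5.trans ?_⟩ (cardH.ge.trans (card_le_of_le l1)) hπ⟩
  have := Nat.card_le_card_of_surjective _ (ι0.prod ι).rangeRestrict_surjective
  rw [TE.card] at this
  exact Nat.mul_le_mul_left 25920 this

theorem exMod : ∃ ev, Mod z ev ∧ ∀ t, ι t = evw ev (qw t.1) := by
  obtain ⟨D, d1, d2, d3, d4⟩ := h.exD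
  have : ∀ x, ∃ b, x < 9 → (eZ x, b) ∈ D := fun x => by
    by_cases hx : x < 9
    · obtain ⟨π, h1, h2⟩ := d3 (mem_gensub hx)
      exact ⟨π.2, fun _ => h2 ▸ h1⟩
    · exact ⟨1, fun h => absurd h hx⟩
  choose ev hev using this
  have w1 : ∀ w : List ℕ, (∀ x ∈ w, x < 9) → (evw eZ w, evw ev w) ∈ D := fun w hw => by
    have := evw_mem (el := fun x => (eZ x, ev x)) hev hw
    rwa [show evw (fun x => (eZ x, ev x)) w = (evw eZ w, evw ev w) from
      Prod.ext (map_evw (MonoidHom.fst S G) _ w) (map_evw (MonoidHom.snd S G) _ w)] at this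
  have u : ∀ π ∈ D, ∀ ρ ∈ D, π.1 = ρ.1 → π.2 = ρ.2 := fun π h1 ρ h2 e =>
    mul_inv_eq_one.1 (d4 _ (mul_mem h1 (inv_mem h2)) (mul_inv_eq_one.2 e))
  have q : ∀ t, ι t = evw ev (qw t.1) := fun t => u _ (d1 ⟨t, rfl⟩) _ (w1 _ (allLt_sound (qw_lt t))) (ι0_eq t)
  have z0 : ev 0 = z := (u _ (hev 0 (by decide)) _ (d1 ⟨Zm, rfl⟩) ι0_Z.symm).trans h.z0
  refine ⟨ev, ⟨fun w hw => ⟨d4 _ (w1 w hw), fun e => (h.P2 (d2 (w1 w hw)) (one_mem _) e).resolve_right fun e' => h.z1 ?_⟩,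
    z0, fun b hb => ?_, ?_, h.card⟩, q⟩
  · exact z0.symm.trans ((u _ (hev 0 (by decide)) _ (w1 w hw) (e'.trans (mul_one _)).symm).trans e)
  · obtain ⟨a, ha⟩ := h.lift.2 b hb
    obtain ⟨w, hw, rfl⟩ := ex_word (fun x hx => sq x (by omega)) ha.2
    have := evw_mem (fun _ => mem_gensub) hw (el := ev)
    rcases h.P1 ha (d2 (w1 w hw)) rfl with e | e <;> rw [show b = _ from e]
    · exact this
    · exact mul_mem (z0 ▸ mem_gensub (by decide)) this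
  · exact (show ι (tg 1) = ev 5 from u _ (d1 ⟨tg 1, rfl⟩) _ (hev 5 (by decide))
      ((ι0_tg 1 (by decide)).trans (mul_one _))) ▸ h.cjf

end St

theorem exSt (z : G) (hz : orderOf z = 2) (Q : Subgroup Cx(z)) [Q.Normal] (hF : Cfsg.generalizedFittingSubgroup Cx(z) = Q)
    (hQ : Cfsg.IsExtraspecial 2 Q) (hc : Nat.card Q = 2 ^ 7) (hq : Nat.card (Cx(z) ⧸ Q) = 25920)
    (hw : ∃ g : G, (∃ hq : g * z * g⁻¹ ∈ Cx(z), (⟨g * z * g⁻¹, hq⟩ : Cx(z)) ∈ Q) ∧ g * z * g⁻¹ ≠ z) :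
    ∃ ι, St z ι ∧ ι.range = Q.map (Cx(z)).subtype := by
  obtain ⟨z0, h0⟩ := exists_es2 hQ
  have cz : ∀ g : Cx(z), (∀ q : Q, g * q = q * g) → g = 1 ∨ g = z0 := fun g hg => by
    have : g ∈ Q := hF ▸ CfH7.centralizer_fstar_le fun q hq => (hg ⟨q, hF ▸ hq⟩).symm
    exact (h0.center ⟨g, this⟩ fun y => Subtype.ext (hg y)).imp (congrArg Subtype.val) (congrArg Subtype.val)
  have z1 : z ≠ 1 := fun e => by rw [e, orderOf_one] at hz; omega
  have e0 : z = z0 := congrArg Subtype.val ((cz ⟨z, mem_Cx.2 rfl⟩ fun q => Subtype.ext (mem_Cx.1 q.1.2).symm).resolve_left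
    fun e => z1 (congrArg Subtype.val e))
  have hH : Nat.card Cx(z) = 3317760 := by rw [card_eq_card_quotient_mul_card_subgroup Q, hq, hc]; rfl
  rcases es128 h0 hc with ⟨ι, i1, i2⟩ | ⟨ι, i1, i2⟩
  · have rg : ((Cx(z)).subtype.comp (Q.subtype.comp ι)).range = Q.map (Cx(z)).subtype := by
      rw [MonoidHom.range_comp, MonoidHom.range_comp, MonoidHom.range_eq_top.2 i1.2, ← MonoidHom.range_eq_map, range_subtype]
    have e1 : ((ι Zm : Cx(z)) : G) = z := by rw [i2, ← e0]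
    refine ⟨_, ⟨(subtype_injective _).comp ((subtype_injective _).comp i1.1), e1, fun g hg t => ?_,
      fun g hg => ?_, hH, ?_⟩, rg⟩
    · exact rg.ge ⟨_, ‹Q.Normal›.conj_mem _ (ι t).2 ⟨g, mem_Cx.2 hg⟩, rfl⟩
    · refine (cz ⟨g, mem_Cx.2 ((congrArg (g * ·) e1.symm).trans ((hg Zm).trans (congrArg (· * g) e1)))⟩ fun q => ?_).imp (congrArg Subtype.val)
        fun e => (congrArg Subtype.val e).trans e0.symm
      obtain ⟨t, rfl⟩ := i1.2 q
      exact Subtype.ext (hg t)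
    · obtain ⟨g, ⟨h1, h2⟩, h3⟩ := hw
      obtain ⟨t, ht⟩ := i1.2 ⟨_, h2⟩
      have : g * z * g⁻¹ = ι t := by rw [ht]
      exact ⟨t, fun e => h3 (by rw [this, e, i2, ← e0]), isConj_iff.2 ⟨g, this⟩⟩
  · exfalso
    obtain ⟨θ, e⟩ := exists_theta (ι := Q.subtype.comp ι) ((subtype_injective _).comp i1.1) ⊤ fun k _ t => by
      obtain ⟨s, hs⟩ := i1.2 ⟨_, ‹Q.Normal›.conj_mem _ (ι t).2 k⟩
      exact ⟨s, congrArg Subtype.val hs⟩
    have c1 := rng_ge θ (a := ⟨z0, trivial⟩) fun k hk => (cz k fun q => by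
      obtain ⟨t, rfl⟩ := i1.2 q
      have := e k t
      rw [hk] at this
      exact mul_inv_eq_iff_eq_mul.1 this.symm).imp Subtype.ext Subtype.ext
    have c2 : Nat.card θ.range ∣ 3317760 := by rw [← hH, ← index_ker, ← card_top (G := Cx(z))]; exact index_dvd_card _
    have c3 := θ.range.card_mul_index
    have c4 := autp
    rw [card_top, hH] at c1
    have c5 : θ.range.index = 1 := by
      have := index_ne_zero_of_finite (H := θ.range)
      by_contra c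
      have : Nat.card θ.range * 2 ≤ Nat.card θ.range * θ.range.index := Nat.mul_le_mul_left _ (by omega)
      omega
    rw [c5, mul_one] at c3
    exact absurd (c4.2.trans (c3 ▸ c2)) (by decide)

end Sz
end CfL
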