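import Cfsg.Agent.OD.Pre
import Cfsg.Agent.L.ZC
/-! Systems of equations in the centraliser of a 2-central involution of the Suzuki group. -/
set_option autoImplicit false
set_option maxRecDepth 100000
open CfH6
namespace CfL.Sz

set_option Elab.async false
noncomputable def finR : List ℕ → Bool := invp (sZ.slv bs [] [[11, 11], [3, 4, 11, 3, 4, 11, 3, 4, 11]]
    [[2], [3, 2, 4, 3, 4, 2], [2, 4, 2], [3, 2, 3], [3, 2, 4, 3, 3, 2, 3]])
noncomputable def okR (s : ℕ × ℕ) : Bool := enumOk [[⟨[], 416, 416, Nat.shiftLeft 1 416⟩], [⟨[], 483, 483, ivl s.2 s.1⟩]]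
  [] [([], [5])] [(483, ivl s.2 s.1)] finR
theorem sR0 : okR (446, 0) = true := by decide +kernel
theorem sR1 : okR (21, 446) = true := by decide +kernel
theorem sR2 : okR (29, 467) = true := by decide +kernel
theorem sR3 : okR (66, 496) = true := by decide +kernel
theorem sR4 : okR (63, 562) = true := by decide +kernel
theorem sR5 : okR (1018, 625) = true := by decide +kernel
theorem sR6 : okR (120, 1643) = true := by decide +kernel
theorem sR7 : okR (4, 1763) = true := by decide +kernel
theorem sR8 : okR (12, 1767) = true := by decide +kernel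
theorem sR9 : okR (3, 1779) = true := by decide +kernel
theorem sR : ∀ s ∈ [446, 21, 29, 66, 63, 1018, 120, 4, 12, 3].zip ([446, 21, 29, 66, 63, 1018, 120, 4, 12, 3].scanl (· + ·) 0), okR s = true :=
  forall_cons sR0 <| forall_cons sR1 <| forall_cons sR2 <| forall_cons sR3 <| forall_cons sR4 <| forall_cons sR5 <| forall_cons sR6 <| forall_cons sR7 <| forall_cons sR8 <| forall_cons sR9 forall_nil
end CfL.Sz
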