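import Cfsg.Agent.OD.Pre
import Cfsg.Agent.L.ZD
import Cfsg.Agent.L.ZT3
import Cfsg.Agent.L.ZP
import Cfsg.Agent.OD.Leadxb2617a90ca
/-! Two new involutions in the centraliser of an `A5`. -/
set_option autoImplicit false
set_option maxRecDepth 100000
open CfH6 MulAction Subgroup CfH9 CfH4
namespace CfL

theorem plug_lt' {n v : ℕ} {w : List ℕ} (hw : ∀ x ∈ w, x < n) (t : List ℕ) (ht : ∀ x ∈ t, x < n ∨ x = v) :
    ∀ x ∈ plug v w t, x < n := by
  induction t with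
  | nil => exact fun _ h => absurd h List.not_mem_nil
  | cons y t ih =>
    have ih := ih fun x hx => ht x (List.mem_cons_of_mem _ hx)
    change ∀ x ∈ (Bool.rec (y :: plug v w t) (w ++ plug v w t) (Nat.beq y v) : List ℕ), x < n
    by_cases h : y = v
    · rw [h, Nat.beq_refl]; exact forall_app hw ih
    · rw [beq_ne h]; exact forall_cons ((ht y List.mem_cons_self).resolve_right h) ih

namespace Sz
open SuB (S)

def sg (x : ℕ) : ℕ := [0, 1, 2, 3, 4, 7, 8, 5, 6, 10, 9].getD x x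

theorem exτ : ∃ τ : S →* S, Function.Injective τ ∧ ∀ x < 11, τ (eZ x) = eZ (sg x) := by
  have w := SuB.r.wone SuB.base
  obtain ⟨τ, h⟩ := SuzB.hhom (byW SuB.el [[0], [1], [2], [3], [4], [6], [5]]) (fun x hx => by
    refine eq_inv_of_mul_eq_one_right ?_
    have := w ((List.range 7).map fun x => subst [[0], [1], [2], [3], [4], [6], [5]] [x, SuzB.il.getD x 0])
      (by decide +kernel) _ (List.mem_map.2 ⟨x, List.mem_range.2 hx, rfl⟩)
    rwa [evw_subst, evw_cons, evw_cons, evw_nil, mul_one] at this) fun u hu => by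
    rw [← evw_subst]
    exact w (SuzB.rels.map (subst _)) (by decide +kernel) _ (List.mem_map.2 ⟨u, hu, rfl⟩)
  have k : ∀ x < 11, τ (eZ x) = eZ (sg x) := fun x hx => by
    have : ∀ x < 11, subst [[0], [1], [2], [3], [4], [6], [5]] (zSig.getD x []) = zSig.getD (sg x) [] := by decide +kernel
    rw [eZ, byW, hom_evw h _ (getD_lt (allLt_all (by decide)) x), ← evw_subst, this x hx]; rfl
  have := Suz.simple
  exact ⟨τ, inj_of_simple τ (g := eZ 0) (by rw [k 0 (by decide)]; exact a_ne), k⟩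

variable {G : Type*} [Group G] {z : G} {ev : ℕ → G}

theorem evw_map (ev : ℕ → G) (f : ℕ → ℕ) (w : List ℕ) : evw (fun x => ev (f x)) w = evw ev (w.map f) := by
  rw [evw, evw, List.map_map]; rfl

noncomputable def pr (ev : ℕ → G) (x : ℕ) : S × G := (eZ x, ev x)
theorem evw_pr (ev : ℕ → G) (w : List ℕ) : evw (pr ev) w = (evw eZ w, evw ev w) :=
  Prod.ext (map_evw (MonoidHom.fst S G) _ w) (map_evw (MonoidHom.snd S G) _ w)

noncomputable def eq9 (u w : List ℕ) : Bool := allLt 9 u && allLt 9 w && eqW u w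
theorem lt11 {w : List ℕ} (h : ∀ x ∈ w, x < 9) : ∀ x ∈ w, x < 11 := fun x hx => (h x hx).trans (by decide)

namespace Mod
variable (M : Mod z ev)
include M

theorem sq (x : ℕ) (hx : x < 9 := by decide) : ev x * ev x = 1 := by
  simpa using (M.rel [x, x] (by simpa using hx)).1 (by simpa using Sz.sq x (by omega))

theorem rev {w : List ℕ} (hw : ∀ x ∈ w, x < 9) : evw ev w.reverse = (evw ev w)⁻¹ := evw_rev (fun x hx => M.sq x hx) hw

theorem iff {u w : List ℕ} (hu : ∀ x ∈ u, x < 9) (hw : ∀ x ∈ w, x < 9) : evw eZ u = evw eZ w ↔ evw ev u = evw ev w := by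
  have := M.rel (u ++ w.reverse) (forall_app hu fun x hx => hw x (List.mem_reverse.1 hx))
  rwa [evw_append, evw_append, Sz.rev (lt11 hw), M.rev hw, mul_inv_eq_one, mul_inv_eq_one] at this

theorem weq (u w : List ℕ) (h : eq9 u w = true := by decide +kernel) : evw ev u = evw ev w := by
  simp only [eq9, Bool.and_eq_true] at h
  exact (M.iff (allLt_sound h.1.1) (allLt_sound h.1.2)).1 (Sz.weq u w h.2)

theorem wne (u w : List ℕ) (h : (allLt 9 u && allLt 9 w && (allLt 11 u && allLt 11 w && !sZ.same bs u w)) = true := by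
    decide +kernel) : evw ev u ≠ evw ev w := fun e => by
  simp only [Bool.and_eq_true (_ && _) (_ && _), Bool.and_eq_true (allLt 9 u)] at h
  exact Sz.wne u w h.2 ((M.iff (allLt_sound h.1.1) (allLt_sound h.1.2)).2 e)

theorem com (x y : ℕ) (h : eq9 [x, y] [y, x] = true := by decide +kernel) : ev x * ev y = ev y * ev x := by
  simpa using M.weq _ _ h

theorem ex {h : G} (hh : h * z = z * h) : ∃ w, (∀ x ∈ w, x < 9) ∧ evw ev w = h := ex_word (fun x hx => M.sq x hx) (M.top h hh)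

theorem cz {w : List ℕ} (hw : ∀ x ∈ w, x < 9) : evw ev w * z = z * evw ev w := by
  have := (M.iff (u := w ++ [0]) (w := 0 :: w) (forall_app hw (by decide)) (forall_cons (by decide) hw)).1 (by
    simpa using Ha _ (wH hw))
  simpa [M.z0] using this

theorem cm {y w : List ℕ} (hy : ∀ x ∈ y, x < 9) (hw : ∀ x ∈ w, x < 9) :
    evw eZ y * evw eZ w = evw eZ w * evw eZ y ↔ evw ev y * evw ev w = evw ev w * evw ev y := by
  simpa using M.iff (forall_app hy hw) (forall_app hw hy)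

theorem tm {w t : List ℕ} (hw : ∀ x ∈ w, x < 9) (ht : ∀ x ∈ t, x < 9 ∨ x = 11)
    (h : evw (upd ev 11 (evw ev w)) t = 1) : evw (upd eZ 11 (evw eZ w)) t = 1 := by
  rw [← evw_plug] at h ⊢
  exact (M.rel _ (plug_lt' hw t ht)).2 h

theorem slv {rs : List (List Rul)} {ys ts cs : List (List ℕ)} {fq : List (List ℕ × List ℕ)}
    (h : slvOk rs ys fq ts cs = true) {g : G} (hg : g * z = z * g) (hy : ∀ y ∈ ys, evw ev y * g = g * evw ev y)
    (hf : ∀ s ∈ fq, evw ev s.2 * g = g * evw ev s.2) (ht : ∀ t ∈ ts, evw (upd ev 11 g) t = 1)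
    (k : (∀ y ∈ ys, ∀ x ∈ y, x < 9) ∧ (∀ s ∈ fq, ∀ x ∈ s.2, x < 9) ∧ (∀ t ∈ ts, ∀ x ∈ t, x < 9 ∨ x = 11) ∧
      ∀ c ∈ cs, ∀ x ∈ c, x < 9 := by decide) : ∃ c ∈ cs, g = evw ev c := by
  obtain ⟨w, hw, rfl⟩ := M.ex hg
  obtain ⟨c, hc, e⟩ := Sz.slv h (wH hw) (fun y a => (M.cm (k.1 y a) hw).2 (hy y a))
    (fun s a => (M.cm (k.2.1 s a) hw).2 (hf s a)) fun t a => M.tm hw (k.2.2.1 t a) (ht t a)
  exact ⟨c, hc, (M.iff hw (k.2.2.2 c hc)).1 e⟩

theorem congr {ev' : ℕ → G} (h : ∀ x < 9, ev x = ev' x) : Mod z ev' :=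
  ⟨fun w hw => evw_congr h hw ▸ M.rel w hw, h 0 (by decide) ▸ M.z0, fun g hg => gensub_le (fun x hx => by
    rw [h x hx]; exact mem_gensub hx) (M.top g hg), h 5 (by decide) ▸ M.cj, M.card⟩

theorem symm : Mod z fun x => ev (sg x) := by
  obtain ⟨τ, h1, h2⟩ := exτ
  have s : ∀ x < 9, sg x < 9 ∧ sg (sg x) = x := by decide
  refine ⟨fun w hw => ?_, M.z0, fun g hg => gensub_le (fun x hx => ?_) (M.top g hg), M.cj.trans (isConj_iff.2
    ⟨evw ev [6, 2, 8, 6, 2, 8], ?_⟩), M.card⟩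
  · rw [evw_map ev sg, ← M.rel _ (List.forall_mem_map.2 fun x hx => (s x (hw x hx)).1), ← evw_map eZ sg, ← hom_evw h2 w (lt11 hw),
      map_eq_one_iff τ h1]
  · have := mem_gensub (el := fun x => ev (sg x)) (s x hx).1
    rwa [(s x hx).2] at this
  · rw [mul_inv_eq_iff_eq_mul]
    simpa [sg, mul_assoc] using M.weq [6, 2, 8, 6, 2, 8, 5] [7, 6, 2, 8, 6, 2, 8]

variable [Finite G]

theorem exm : ∃ n, (∀ x ∈ [2, 3, 4], n * ev x = ev x * n) ∧ n * z * n⁻¹ = ev 5 := by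
  have : Fact (Nat.Prime 5) := ⟨by norm_num⟩
  have z2 : z * z = 1 := M.z0 ▸ M.sq 0
  have xz := M.cz (w := [3, 4]) (by decide)
  obtain ⟨n, n1, ⟨j, hj⟩, i, hi⟩ := exn M.cj xz (by simpa [mul_assoc] using M.weq [3, 4, 5] [5, 3, 4])
    (orderOf_eq_prime (by rw [← evw_wpow, M.weq _ [], evw_nil]) (M.wne _ [])) M.card
  set x := evw ev [3, 4] with hx
  obtain ⟨c, hc, e⟩ := M.slv sD (g := n⁻¹ * z * n) (by
    calc _ = n⁻¹ * (z * (n * z * n⁻¹)) * n := by group
      _ = n⁻¹ * ((n * z * n⁻¹) * z) * n := by rw [n1, ← M.z0, M.com 0 5]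
      _ = _ := by group) (forall_cons (by
    have : z * x ^ j = x ^ j * z := ((show Commute x z from xz).zpow_left j).symm
    calc x * _ = n⁻¹ * ((n * x * n⁻¹) * z) * n := by group
      _ = _ * x := by rw [← show x ^ j = _ from hj, ← this, show x ^ j = _ from hj]; group) forall_nil) forall_nil
    (forall_cons (by
      simp only [evw_cons, evw_nil, upd_eq]
      calc _ = n⁻¹ * (z * z * (z * z)) * n := by group
        _ = 1 := by rw [z2]; group) forall_nil)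
  have k : ∀ c ∈ [[], [0], [5], [7], [0, 5], [0, 7], [5, 7], [7, 5]], c = [] ∨ c = [0] ∨
      ∃ y ∈ [5, 7], (eq9 (y :: c) (0 :: c ++ [y]) && eq9 [y, 3, 4] [3, 4, y] && eq9 [y, 0] [0, y]) = true := by
    decide +kernel
  rcases k c hc with rfl | rfl | ⟨y, -, k⟩
  · exact absurd (by simpa [← M.z0, mul_assoc] using congrArg (n * · * n⁻¹) e) (M.wne [0] [])
  · exact absurd (by rw [evw_cons, evw_cons, M.z0, ← n1]; simpa [mul_assoc, M.z0] using congrArg (n * · * n⁻¹) e)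
      (M.wne [0] [5])
  simp only [Bool.and_eq_true] at k
  have k1 : ev y * (n⁻¹ * z * n) = z * (n⁻¹ * z * n) * ev y := by simpa [← e, M.z0, mul_assoc] using M.weq _ _ k.1.1
  have k2 : ev y * x = x * ev y := by simpa [hx, mul_assoc] using M.weq _ _ k.1.2
  have k3 : ev y * z = z * ev y := by simpa [M.z0] using M.weq _ _ k.2
  have m1 : n * ev y * n⁻¹ * z * (n * ev y * n⁻¹)⁻¹ = ev 5 * z := by
    calc _ = n * (ev y * (n⁻¹ * z * n) * (ev y)⁻¹) * n⁻¹ := by group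
      _ = _ := by rw [k1, ← n1]; group
  have m2 : n * ev y * n⁻¹ * ev 5 * (n * ev y * n⁻¹)⁻¹ = ev 5 := by
    rw [← n1]
    calc _ = n * (ev y * z * (ev y)⁻¹) * n⁻¹ := by group
      _ = _ := by rw [k3]; group
  have m3 : n * ev y * n⁻¹ * x = x * (n * ev y * n⁻¹) := by
    rw [← show (n * x * n⁻¹) ^ i = x from hi]
    exact ((show Commute (ev y) x from k2).conj n).zpow_right i
  generalize n * ev y * n⁻¹ = m at m1 m2 m3
  have c5 : ev 5 * (m * ev 2 * m⁻¹) = m * ev 2 * m⁻¹ * ev 5 := by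
    rw [← m2]; exact (show Commute (ev 5) (ev 2) from M.com 5 2).conj m
  obtain ⟨w, hw, e2⟩ := M.ex (h := m * ev 2 * m⁻¹) (by
    have : Commute (m * z * m⁻¹) (m * ev 2 * m⁻¹) := (show Commute z (ev 2) from M.z0 ▸ M.com 0 2).conj m
    rw [m1] at this
    exact mul_left_cancel (a := ev 5) (by rw [← mul_assoc, c5, mul_assoc, ← this.eq, mul_assoc]))
  have t1 : evw eZ w * evw eZ w = 1 := by
    simpa using (M.rel _ (forall_app hw hw)).2 (by rw [evw_append, e2, conj_mul, M.sq 2]; simp)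
  obtain ⟨s, hs, h1⟩ := cut [446, 21, 29, 66, 63, 1018, 120, 4, 12, 3] 0 ((evw eZ w)⁻¹ • r.pt 483).1 (Nat.zero_le _)
    ((evw eZ w)⁻¹ • r.pt 483).2
  obtain ⟨u, u1, u2, u3⟩ := enum (sR s hs) (wH hw) forall_nil
    (forall_cons ((M.cm (by decide) hw).2 (by simpa [e2] using c5)) forall_nil)
    (forall_cons (fun i hi => by rwa [show i = r.pt 483 from Subtype.ext hi]) forall_nil)
  obtain ⟨c, hc, e3⟩ := slv_fin (by decide) u1 (invp_fin u1 u3 (u2 ▸ t1)) forall_nil (u2 ▸ forall_cons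
    (by simpa [upd_eq] using t1) (forall_cons (M.tm hw (by decide) (by
      have : (m * (x * ev 2) * m⁻¹) ^ 3 = 1 := by
        rw [conj_pow, show (x * ev 2) ^ 3 = 1 by simpa [hx, pow_succ, mul_assoc] using M.weq [3, 4, 2, 3, 4, 2, 3, 4, 2] []]; simp
      rw [← mul_assoc m, m3] at this
      simpa [upd, e2, hx, pow_succ, mul_assoc] using this)) forall_nil))
  have k : ∀ c ∈ [[2], [3, 2, 4, 3, 4, 2], [2, 4, 2], [3, 2, 3], [3, 2, 4, 3, 3, 2, 3]], allLt 9 c = true ∧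
      ∃ j < 5, eq9 (c ++ wpow [3, 4] j) (wpow [3, 4] j ++ [2]) = true := by decide +kernel
  obtain ⟨k1, l, -, k2⟩ := k c hc
  have e4 := M.weq _ _ k2
  rw [evw_append, evw_append, evw_wpow, ← (M.iff hw (allLt_sound k1)).1 (u2.symm.trans e3), e2, ← hx, evw_cons, evw_nil,
    mul_one] at e4
  have c0 : Commute m x := m3
  have c1 : ∀ w ∈ [[2], [3, 4], [4, 3]], evw ev w ∈ Cx((x ^ l)⁻¹ * m) := forall_cons (mem_Cx.2 (by
      rw [evw_cons, evw_nil, mul_one, eq_comm, mul_assoc, inv_mul_eq_iff_eq_mul, ← mul_assoc, ← mul_assoc, ← e4]; group)) <|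
    have : x ∈ Cx((x ^ l)⁻¹ * m) := mem_Cx.2 (((Commute.refl x).pow_right l).inv_right.mul_right c0.symm)
    forall_cons this <| forall_cons (by rw [show evw ev [4, 3] = x⁻¹ from M.rev (w := [3, 4]) (by decide)]; exact inv_mem this)
      forall_nil
  have c2 : ∀ y ∈ [2, 3, 4], ev y ∈ Cx((x ^ l)⁻¹ * m) := forall_cons (by simpa using c1 _ List.mem_cons_self) <|
    forall_cons (by have := evw_sub (byW_mem c1) [0, 2, 2, 0, 1, 1, 0]; rw [M.weq _ [3]] at this; simpa using this) <|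
    forall_cons (by have := evw_sub (byW_mem c1) [0, 1, 1, 0, 2, 2, 0]; rw [M.weq _ [4]] at this; simpa using this) forall_nil
  have c3 : ∀ y ∈ [2, 3, 4], eq9 [7, y] [y, 7] = true := by decide +kernel
  refine ⟨ev 7 * ((x ^ l)⁻¹ * m), fun y hy => by
    rw [mul_assoc, ← mem_Cx.1 (c2 y hy), ← mul_assoc, M.com 7 y (c3 y hy), mul_assoc], ?_⟩
  have c4 : Commute x (ev 5 * z) := Commute.mul_right (show x * _ = _ * x by
    simpa [hx, mul_assoc] using M.weq [3, 4, 5] [5, 3, 4]) xz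
  calc _ = ev 7 * ((x ^ l)⁻¹ * (m * z * m⁻¹) * x ^ l) * (ev 7)⁻¹ := by group
    _ = _ := by
      rw [m1, mul_assoc (x ^ l)⁻¹, ← (c4.pow_left l).eq, inv_mul_cancel_left, mul_inv_eq_iff_eq_mul]
      simpa [M.z0, mul_assoc] using M.weq [7, 5, 0] [5, 7]

end Mod

def R0 : List (List ℕ) := [[9, 9], [9, 2, 9, 2], [9, 3, 9, 3], [9, 4, 9, 4], [9, 5, 9, 5], [9, 0, 9, 0, 5], [7, 9, 7, 9, 7, 9],
  [5, 7, 9, 5, 7, 9, 5, 7, 9]]

def dw : D4 → List ℕ | .r i => wpow [5, 7] i.val | .sr i => 5 :: wpow [5, 7] i.val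

theorem Mod.exPQ [Finite G] (M : Mod z ev) : ∃ p q, (∀ w ∈ R0, evw (upd ev 9 p) w = 1) ∧
    (∀ w ∈ R0, evw (upd (fun x => ev (sg x)) 9 q) w = 1) ∧
    ∀ c ∈ [[], [0]], (p * (evw ev c * q * evw ev c)) ^ 3 = 1 ∨ (p * (evw ev c * q * evw ev c)) ^ 4 = 1 ∨
      (p * (evw ev c * q * evw ev c)) ^ 5 = 1 := by
  let C : Subgroup G := Cx(ev 2) ⊓ Cx(ev 3) ⊓ Cx(ev 4)
  have hC : ∀ {n}, (∀ x ∈ [2, 3, 4], n * ev x = ev x * n) → n ∈ C := fun h =>
    ⟨⟨mem_Cx.2 (h 2 (by decide)), mem_Cx.2 (h 3 (by decide))⟩, mem_Cx.2 (h 4 (by decide))⟩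
  let φ : D4 →* C := MonoidHom.mk' (fun u => ⟨evw ev (dw u), hC fun x hx => by
    have : ∀ u, ∀ x ∈ [2, 3, 4], eq9 (dw u ++ [x]) (x :: dw u) = true := by decide +kernel
    simpa using M.weq _ _ (this u x hx)⟩) fun u v => Subtype.ext (by
    have : ∀ u v, eq9 (dw (u * v)) (dw u ++ dw v) = true := by decide +kernel
    exact (M.weq _ _ (this u v)).trans (evw_append _ _ _))
  have e0 : (φ (.r 2) : G) = z := (M.weq (dw (.r 2)) [0]).trans ((mul_one _).trans M.z0)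
  have e5 : (φ (.sr 0) : G) = ev 5 := (M.weq (dw (.sr 0)) [5]).trans (mul_one _)
  have e7 : (φ (.sr 1) : G) = ev 7 := (M.weq (dw (.sr 1)) [7]).trans (mul_one _)
  have h : CM φ (.r 2) := ⟨(injective_iff_map_eq_one φ).2 fun u hu => by
      have : ∀ u : D4, u = 1 ∨ (allLt 9 (dw u) && allLt 9 [] && (allLt 11 (dw u) && allLt 11 [] &&
        !sZ.same bs (dw u) [])) = true := by decide +kernel
      exact (this u).resolve_right fun k => M.wne _ _ k (congrArg Subtype.val hu), by decide, fun g hg => by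
      have g2 := (mem_Cx.1 g.2.1.1).symm
      have g3 := (mem_Cx.1 g.2.1.2).symm
      have g4 := (mem_Cx.1 g.2.2).symm
      obtain ⟨c, hc, e⟩ := M.slv sC (g := g) (e0 ▸ congrArg Subtype.val hg) (by
        simpa [g2, g3, g4] using ((show Commute (ev 3) g from g3).mul_left g4).eq) forall_nil forall_nil
      have : ∀ c ∈ [[], [0], [5], [7], [0, 5], [0, 7], [5, 7], [7, 5]], ∃ u, eq9 (dw u) c = true := by decide +kernel
      obtain ⟨u, hu⟩ := this c hc
      exact ⟨u, Subtype.ext ((M.weq _ _ hu).trans e.symm)⟩⟩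
  obtain ⟨n, n1, n2⟩ := M.exm
  obtain ⟨m, m1, m2⟩ := M.symm.exm
  have ha : IsConj (φ (.r 2)) (φ (.sr 0)) := isConj_iff.2 ⟨⟨n, hC n1⟩, Subtype.ext (by simpa [e0, e5] using n2)⟩
  have hb : IsConj (φ (.r 2)) (φ (.sr 1)) := isConj_iff.2 ⟨⟨m, hC fun x hx => by
    have := m1 x hx
    rwa [(by decide : ∀ x ∈ [2, 3, 4], sg x = x) x hx] at this⟩, Subtype.ext (by simpa [e0, e7, sg] using m2)⟩
  obtain ⟨p, q, R, r1, r2⟩ := h.d8_R ha hb
  have key : ∀ {ev : ℕ → G} (M : Mod z ev) {p : G}, p * p = 1 → p * ev 2 = ev 2 * p → p * ev 3 = ev 3 * p →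
      p * ev 4 = ev 4 * p → ev 5 * (p * (ev 5 * p)) = 1 → ev 7 * p * z * (ev 7 * p)⁻¹ = ev 5 →
      ev 7 * (p * (ev 7 * (p * (ev 7 * p)))) = 1 →
      ev 5 * (ev 7 * (p * (ev 5 * (ev 7 * (p * (ev 5 * (ev 7 * p))))))) = 1 → ∀ w ∈ R0, evw (upd ev 9 p) w = 1 :=
    fun {ev} M {p} p2 c2 c3 c4 c5 c6 c7 c8 => by
      have k : ∀ x < 9, p * ev x = ev x * p → p * (ev x * (p * ev x)) = 1 := fun x hx e => by
        rw [e, ← mul_assoc (ev x), M.sq x hx, one_mul, p2]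
      have pi := inv_eq_of_mul_eq_one_right p2
      simp only [R0, List.forall_mem_cons, evw_cons, evw_nil, upd, mul_one]
      refine ⟨p2, k 2 (by decide) c2, k 3 (by decide) c3, k 4 (by decide) c4, ?_, ?_, c7, c8, forall_nil⟩
      · calc _ = p * (ev 5 * (p * (ev 5 * p))) * p⁻¹ := by simp [mul_assoc]
          _ = 1 := by rw [c5]; simp
      · have : p * z * p = (ev 7)⁻¹ * ev 5 * ev 7 := by rw [← c6, mul_inv_rev, pi]; group
        simpa [← mul_assoc, M.z0, this, inv_eq_of_mul_eq_one_right (M.sq 7)] using M.weq [7, 5, 7, 0, 5] []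
  have v := fun {a b : C} (e : a = b) => congrArg Subtype.val e
  refine ⟨p, q, key M (v R.c2) (mem_Cx.1 p.2.1.1) (mem_Cx.1 p.2.1.2) (mem_Cx.1 p.2.2) (by simpa [e5] using v R.ac)
    (by simpa [e0, e5, e7] using v r1) (by simpa [e7] using v R.bc) (by simpa [e5, e7] using v R.abc),
    key M.symm (v R.d2) (mem_Cx.1 q.2.1.1) (mem_Cx.1 q.2.1.2) (mem_Cx.1 q.2.2) (by simpa [e7, sg] using v R.bd)
    (by simpa [e0, e5, e7, sg] using v r2) (by simpa [e5, sg] using v R.ad) (by simpa [e5, e7, sg] using v R.bad),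
    forall_cons ?_ (forall_cons ?_ forall_nil)⟩
  · simpa [Subtype.ext_iff] using d8_pow (h.d8_both ha hb) R.c2 R.d2
  · simpa [Subtype.ext_iff, e0, M.z0] using d8_pow (h.d8_both ha hb) R.c2 (d := φ (.r 2) * q * φ (.r 2)) (by
      have := CM.d8_sq (φ := φ) (u := .r 2)
      rw [mul_assoc, ← mul_assoc (φ _), ← mul_assoc (φ _), this, one_mul, mul_assoc, ← mul_assoc q, R.d2, one_mul, this])

end Sz
end CfL
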