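import Cfsg.Agent.OD.Pre
import Cfsg.Agent.L.ZE
import Cfsg.Agent.L.ZT4
import Cfsg.Agent.OD.Leadxd098959af8
/-! An embedding of the sporadic Suzuki group. -/
set_option autoImplicit false
set_option maxRecDepth 100000
open CfH6 MulAction Subgroup CfH9 CfH4
namespace CfL

section
variable {Γ : Type*} [Group Γ]

theorem evw_in {ev : ℕ → Γ} {K : Subgroup Γ} {w : List ℕ} (h : ∀ x ∈ w, ev x ∈ K) : evw ev w ∈ K :=
  list_prod_mem (List.forall_mem_map.2 h)

theorem sub_in (ev : ℕ → Γ) {σ τ subs : List (List ℕ)} {k : ℕ}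
    (h : ∀ s ∈ subs, ∃ i < k, subst σ s = τ.getD i [] := by decide) :
    ∀ s ∈ subs, evw (byW ev σ) s ∈ gensub (byW ev τ) k := fun s hs => by
  obtain ⟨i, hi, e⟩ := h s hs
  rw [← evw_subst, e]; exact mem_gensub hi

theorem inv_ok {ev : ℕ → Γ} {m k : ℕ} (hs : ∀ y < m, ev y * ev y = 1) {σ : List (List ℕ)} {il : List ℕ}
    (h : ∀ x < k, allLt m (σ.getD x []) = true ∧ σ.getD (il.getD x 0) [] = (σ.getD x []).reverse := by decide) :
    ∀ x < k, byW ev σ (il.getD x 0) = (byW ev σ x)⁻¹ := fun x hx => by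
  rw [byW, (h x hx).2, evw_rev hs (allLt_sound (h x hx).1), byW]

theorem inv_id {ev : ℕ → Γ} {m k : ℕ} (hs : ∀ y < m, ev y * ev y = 1) {il : List ℕ}
    (h : ∀ x < k, x < m ∧ il.getD x 0 = x := by decide) : ∀ x < k, ev (il.getD x 0) = (ev x)⁻¹ := fun x hx => by
  rw [(h x hx).2, inv_eq_of_mul_eq_one_right (hs x (h x hx).1)]

theorem sub_lt (ev : ℕ → Γ) {subs : List (List ℕ)} {k : ℕ} (h : subs.all (allLt k) = true := by decide) :
    ∀ s ∈ subs, evw ev s ∈ gensub ev k := fun s hs => evw_mem (fun _ => mem_gensub) (allLt_all h s hs)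

namespace Sz
variable (Y : ℕ → Γ)

theorem cardT (hs : ∀ y < 6, Y y * Y y = 1) (hr : ∀ w ∈ yt3_rels, evw Y w = 1) :
    Finite (gensub Y 6) ∧ Nat.card (gensub Y 6) ≤ 64 :=
  (yt3_cov Y ⊥ (inv_id hs) hr forall_nil).card_le bot_fin

theorem cardP (hs : ∀ y < 7, Y y * Y y = 1) (hr : ∀ w ∈ yp1_rels, evw Y w = 1) :
    Finite (gensub Y 7) ∧ Nat.card (gensub Y 7) ≤ 960 :=
  (yp1_cov Y _ (inv_id hs) hr (sub_lt Y)).card_le (cardT Y (fun y hy => hs y (by omega)) fun w hw => hr w (by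
    revert w; decide))

theorem cardL (hs : ∀ y < 8, Y y * Y y = 1) (hr : ∀ w ∈ yl2_rels, evw Y w = 1) :
    Finite (gensub Y 8) ∧ Nat.card (gensub Y 8) ≤ 20160 :=
  (yl2_cov Y _ (inv_id hs) hr (sub_lt Y)).card_le (cardP Y (fun y hy => hs y (by omega)) fun w hw => hr w (by
    revert w; decide))

def σy : List (List ℕ) := [[0], [1], [2], [3], [4], [5], [6], [7], [8, 9], [9, 8]]

theorem cardU (hs : ∀ y < 10, Y y * Y y = 1) (hr : ∀ w ∈ yu_rels ++ yly_rels.map (subst σy), evw Y w = 1) :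
    Finite (gensub Y 10) ∧ Nat.card (gensub Y 10) ≤ 19595520 :=
  (yu_cov Y (gensub (byW Y σy) 10) (inv_id hs) (fun w hw => hr w (List.mem_append_left _ hw)) fun s h => by
    obtain ⟨i, hi, rfl⟩ := (by decide : ∀ s ∈ yu_subs, ∃ i < 10, s = σy.getD i []) s h
    exact mem_gensub hi).card_le ((yly_cov (byW Y σy) (gensub Y 8) (inv_ok hs) (fun w hw => by
      rw [← evw_subst]; exact hr _ (List.mem_append_right _ (List.mem_map_of_mem hw))) fun s h => by
      rw [← evw_subst]; exact evw_mem (fun _ => mem_gensub) ((by decide : ∀ s ∈ yly_subs, ∀ x ∈ subst σy s, x < 8) s h)).card_le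
    (cardL Y (fun y hy => hs y (by omega)) fun w hw => hr w (by revert w; decide)))
end Sz
end

namespace Sz
open SuB (S)
variable {G : Type*} [Group G] {z : G} {ev : ℕ → G}

/-- relations among the listed letters pass from the Suzuki group to `G` -/
def Gr (ev : ℕ → G) (A : List ℕ) : Prop :=
  ∀ u w : List ℕ, (∀ x ∈ u, x ∈ A) → (∀ x ∈ w, x ∈ A) → evw eZ u = evw eZ w → evw ev u = evw ev w

theorem Gr.eq {A : List ℕ} (h : Gr ev A) (u w : List ℕ)
    (k : ((u ++ w).all A.contains && eqW u w) = true := by decide +kernel) : evw ev u = evw ev w := by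
  simp only [Bool.and_eq_true, List.all_eq_true, List.contains_iff_mem, List.forall_mem_append] at k
  exact h u w k.1.1 k.1.2 (weq u w k.2)

theorem Gr.symm {A : List ℕ} (h : Gr (fun x => ev (sg x)) A) (hA : ∀ x ∈ A, x < 11 ∧ sg (sg x) = x) : Gr ev (A.map sg) := by
  obtain ⟨τ, -, h2⟩ := exτ
  have k : ∀ u : List ℕ, (∀ x ∈ u, x ∈ A.map sg) → ∃ v : List ℕ, (∀ x ∈ v, x ∈ A) ∧ u = v.map sg ∧
      evw eZ v = τ (evw eZ u) := fun u hu => by
    have a : ∀ x ∈ u, sg x ∈ A ∧ sg (sg x) = x ∧ x < 11 := fun x hx => by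
      obtain ⟨y, hy, rfl⟩ := List.mem_map.1 (hu x hx)
      rw [(hA y hy).2]
      exact ⟨hy, rfl, (by decide : ∀ y < 11, sg y < 11) y (hA y hy).1⟩
    refine ⟨u.map sg, List.forall_mem_map.2 fun x hx => (a x hx).1, ?_, by
      rw [hom_evw h2 u fun x hx => (a x hx).2.2, evw_map eZ sg]⟩
    rw [List.map_map, List.map_congr_left (f := sg ∘ sg) (g := id) fun x hx => (a x hx).2.1, List.map_id]
  intro u w hu hw e
  obtain ⟨u, u1, rfl, u2⟩ := k u hu
  obtain ⟨w, w1, rfl, w2⟩ := k w hw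
  rw [← evw_map, ← evw_map]
  exact h u w u1 w1 (by rw [u2, w2, e])

theorem graph {A : List ℕ} {n : ℕ} (h : Finite (gensub (byW (pr ev) (A.map fun x => [x])) A.length) ∧
    Nat.card (gensub (byW (pr ev) (A.map fun x => [x])) A.length) ≤ n) {l : List (Stp × ℕ)}
    (hl : sZ.chn (A.map fun x => [x]) 11 l [] = true) (hn : n ≤ (l.map Prod.snd).prod) : Gr ev A := fun u w hu hw e => by
  have hK : ∀ x ∈ A, pr ev x ∈ gensub (byW (pr ev) (A.map fun x => [x])) A.length := fun x hx => by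
    obtain ⟨i, hi, rfl⟩ := List.getElem_of_mem hx
    have := mem_gensub (el := byW (pr ev) (A.map fun x => [x])) hi
    rwa [byW, List.getD_eq_getElem _ _ (by simpa using hi), List.getElem_map, evw_cons, evw_nil, mul_one] at this
  have := graph_one h (hn.trans (r.chain_ge (byW_mem (List.forall_mem_map.2 fun x hx =>
    mem_map.2 ⟨_, hK x hx, (mul_one _).symm⟩)) 11 l hl))
    (mul_mem (evw_in fun x hx => hK x (hu x hx)) (inv_mem (evw_in fun x hx => hK x (hw x hx)))) (by simp [evw_pr, e])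
  simpa [evw_pr, mul_inv_eq_one] using this

theorem pr_sq {k : ℕ} (hk : k ≤ 11) (h : ∀ x < k, ev x * ev x = 1) : ∀ x < k, pr ev x * pr ev x = 1 := fun x hx =>
  Prod.ext (sq x (by omega)) (h x hx)

noncomputable def kn (L : List (List ℕ)) (w : List ℕ) : Bool := L.any (leqb w) || eq9 w []

theorem Mod.relG (M : Mod z ev) {L : List (List ℕ)} (hL : ∀ w ∈ L, evw ev w = 1) {σ rs : List (List ℕ)}
    (h : (rs.all fun w => kn L (subst σ w)) = true) : ∀ w ∈ rs, evw (byW ev σ) w = 1 := fun w hw => by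
  have := List.all_eq_true.1 h w hw
  rw [kn, Bool.or_eq_true, List.any_eq_true] at this
  rw [← evw_subst]
  rcases this with ⟨v, hv, e⟩ | e
  · rw [leqb_sound _ _ e, hL v hv]
  · exact M.weq _ _ e

theorem Mod.relP (M : Mod z ev) {L : List (List ℕ)} (hL : ∀ w ∈ L, evw ev w = 1) {σ rs : List (List ℕ)}
    (h : ((rs.all fun w => kn L (subst σ w)) && rs.all fun w => eqW (subst σ w) []) = true) :
    ∀ w ∈ rs, evw (byW (pr ev) σ) w = 1 := fun w hw => by
  rw [Bool.and_eq_true] at h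
  rw [← evw_subst, evw_pr, Sz.weq _ _ (List.all_eq_true.1 h.2 w hw), evw_subst, M.relG hL h.1 w hw]; rfl

theorem Mod.D1 (M : Mod z ev) {π ρ : S × G} (hπ : π ∈ gensub (pr ev) 9) (hρ : ρ ∈ gensub (pr ev) 9)
    (e : π.1 = ρ.1 ∨ π.2 = ρ.2) : π = ρ := by
  obtain ⟨u, hu, rfl⟩ := ex_word (pr_sq (by decide) fun x hx => M.sq x hx) hπ
  obtain ⟨w, hw, rfl⟩ := ex_word (pr_sq (by decide) fun x hx => M.sq x hx) hρ
  simp only [evw_pr] at e ⊢
  exact e.elim (fun e => Prod.ext e ((M.iff hu hw).1 e)) fun e => Prod.ext ((M.iff hu hw).2 e) e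

structure M9 (z : G) (ev : ℕ → G) : Prop extends Mod z ev where
  r0 : ∀ w ∈ R0, evw ev w = 1

noncomputable def CE : Subgroup S := Cx(eZ 5) ⊓ Cx(eZ 1) ⊓ Cx(eZ 6) ⊓ Cx(eZ 0)
theorem mem_CE {g : S} : g ∈ CE ↔ ∀ x ∈ [5, 1, 6, 0], eZ x ∈ Cx(g) := by
  simp only [CE, mem_inf, mem_Cx, List.forall_mem_cons, and_assoc, eq_comm (a := g * _)]
  simp

theorem CE_conj (w : List ℕ) (h : (allLt 11 w && [5, 1, 6, 0].all fun x => [5, 1, 6, 0].sublists.any fun v =>
    eqW (x :: w) (w ++ v)) = true) {g : S} (hg : g ∈ CE) : evw eZ w * g * (evw eZ w)⁻¹ ∈ CE := mem_CE.2 fun x hx => by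
  rw [Bool.and_eq_true] at h
  obtain ⟨v, hv, e⟩ := List.any_eq_true.1 (List.all_eq_true.1 h.2 x hx)
  have e := weq _ _ e
  have c := mem_Cx.1 (evw_in (w := v) fun y hy => mem_CE.1 hg y ((List.mem_sublists.1 hv).subset hy))
  rw [evw_cons, evw_append] at e
  rw [mem_Cx, eq_mul_inv_of_mul_eq e]
  calc _ = evw eZ w * (evw eZ v * g) * (evw eZ w)⁻¹ := by group
    _ = _ := by rw [c]; group

noncomputable def DE (ev : ℕ → G) : Subgroup (S × G) := gensub (pr ev) 9 ⊓ CE.comap (MonoidHom.fst S G)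

def R1 : List (List ℕ) := [[9, 6, 9, 6], [9, 1, 9, 6, 1, 5], [2, 4, 9, 4, 2, 9], wpow [8, 9] 5, wpow [7, 8, 9] 5,
  wpow [8, 2, 1, 2, 9, 8, 9] 5 ++ [4, 2]]

namespace M9
variable (M : M9 z ev)
include M

theorem sq (x : ℕ) (hx : x < 10) : ev x * ev x = 1 := by
  rcases Nat.lt_succ_iff_lt_or_eq.1 hx with h | rfl
  · exact M.toMod.sq x h
  · simpa using M.r0 [9, 9] (by decide)

theorem pi : (ev 9)⁻¹ = ev 9 := inv_eq_of_mul_eq_one_right (M.sq 9 (by decide))

theorem pc : ∀ x ∈ [2, 3, 4, 5], ev 9 * ev x = ev x * ev 9 := fun x hx => by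
  have := M.r0 [9, x, 9, x] (by revert x; decide)
  simp only [evw_cons, evw_nil, mul_one] at this
  rw [← mul_assoc, mul_eq_one_iff_eq_inv, mul_inv_rev, M.pi,
    inv_eq_of_mul_eq_one_right (M.sq x ((by decide : ∀ x ∈ [2, 3, 4, 5], x < 10) x hx))] at this
  exact this

theorem pa : ev 9 * ev 0 * (ev 9)⁻¹ = ev 0 * ev 5 := by
  have := M.r0 [9, 0, 9, 0, 5] (by decide)
  simp only [evw_cons, evw_nil, mul_one] at this
  rw [← mul_assoc, ← mul_assoc, mul_eq_one_iff_eq_inv] at this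
  rw [M.pi, this, inv_eq_iff_mul_eq_one]
  simpa [mul_assoc] using M.toMod.weq [0, 5, 0, 5] []

theorem cjw (g : G) {t : List ℕ} (ht : ∀ x ∈ t, x ∈ [2, 3, 4, 5] ∨ x = 11) :
    evw (upd ev 11 (ev 9 * g * (ev 9)⁻¹)) t = ev 9 * evw (upd ev 11 g) t * (ev 9)⁻¹ := by
  refine Eq.trans ?_ (map_evw (MulAut.conj (ev 9)).toMonoidHom _ t).symm
  refine congrArg List.prod (List.map_congr_left fun x hx => ?_)
  rcases ht x hx with h | rfl
  · have : x ≠ 11 := (by decide : ∀ x ∈ [2, 3, 4, 5], x ≠ 11) x h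
    simp [upd_lt this, M.pc x h]
  · simp [upd_eq]

theorem pcp : ev 9 * ev 1 * (ev 9)⁻¹ = evw ev [5, 1, 6] := by
  have cm : ∀ w : List ℕ, (∀ x ∈ w, x ∈ [2, 3, 4, 5]) → eq9 (1 :: w) (w ++ [1]) = true →
      evw ev w * (ev 9 * ev 1 * (ev 9)⁻¹) = ev 9 * ev 1 * (ev 9)⁻¹ * evw ev w := fun w hw e => by
    have a : Commute (evw ev w) (ev 9) := mem_Cx.1 (evw_in fun x hx => mem_Cx.2 (M.pc x (hw x hx)).symm)
    have b : Commute (evw ev w) (ev 1) := show _ * _ = _ * _ by simpa using (M.toMod.weq _ _ e).symm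
    exact (a.mul_right b).mul_right a.inv_right
  simpa using M.toMod.slv sP (g := ev 9 * ev 1 * (ev 9)⁻¹) (by
      have a : Commute (ev 9 * ev 1 * (ev 9)⁻¹) (ev 9 * ev 0 * (ev 9)⁻¹) :=
        (show Commute (ev 1) (ev 0) from M.toMod.com 1 0).conj _
      have b : Commute (ev 9 * ev 1 * (ev 9)⁻¹) (ev 5) :=
        show _ * _ = _ * _ by simpa using (cm [5] (by decide) (by decide +kernel)).symm
      have := a.mul_right b
      rwa [M.pa, mul_assoc (ev 0), M.sq 5 (by decide), mul_one, M.z0] at this)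
    (forall_cons (cm _ (by decide) (by decide +kernel)) <| forall_cons (cm _ (by decide) (by decide +kernel)) forall_nil)
    (forall_cons (cm _ (by decide) (by decide +kernel)) forall_nil) (forall_cons (by
      change evw (upd ev 11 _) ([11, 2, 11, 2, 11, 2, 11, 2] ++ [0, 5]) = 1
      rw [evw_append, M.cjw _ (by decide), show evw (upd ev 11 (ev 1)) [11, 2, 11, 2, 11, 2, 11, 2] = ev 0 by
        simpa [upd] using M.toMod.weq [1, 2, 1, 2, 1, 2, 1, 2] [0], M.pa]
      simpa [upd, mul_assoc] using M.toMod.weq [0, 5, 0, 5] []) <| forall_cons (by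
      rw [M.cjw _ (by decide), show evw (upd ev 11 (ev 1)) _ = 1 by
        simpa [upd] using M.toMod.weq [1, 2, 1, 2, 3, 4, 1, 3, 4, 3, 1, 4, 3, 1, 4, 3, 4] []]
      simp) forall_nil)

theorem pup : ev 9 * ev 6 = ev 6 * ev 9 := by
  have a := M.pcp
  have b : ev 9 * evw ev [5, 1, 6] * (ev 9)⁻¹ = ev 1 := by
    rw [← a, M.pi, ← mul_assoc, ← mul_assoc, M.sq 9 (by decide), one_mul, mul_assoc, M.sq 9 (by decide), mul_one]
  have c : ev 5 * evw ev [5, 1, 6] * ev 6 = ev 1 := by simpa [mul_assoc] using M.toMod.weq [5, 5, 1, 6, 6] [1]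
  rw [← mul_inv_eq_iff_eq_mul]
  refine mul_left_cancel (a := ev 5 * evw ev [5, 1, 6]) ?_
  rw [c, ← b]
  nth_rewrite 1 [← a, ← mul_inv_eq_iff_eq_mul.2 (M.pc 5 (by decide))]
  simp [mul_assoc]

variable [Finite G]

omit M in
theorem N_of (w : List ℕ) (h : (allLt 11 w && [5, 1, 6, 0].all fun x => [5, 1, 6, 0].sublists.any fun v =>
    eqW (x :: w) (w ++ v)) = true) (h1 : ∀ ρ ∈ DE ev, evw (pr ev) w * ρ * (evw (pr ev) w)⁻¹ ∈ gensub (pr ev) 9) :
    evw (pr ev) w ∈ normalizer (DE ev : Set (S × G)) := mem_normalizer_fintype fun ρ hρ => ⟨h1 ρ hρ, by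
  have := CE_conj w h hρ.2
  rw [evw_pr]; exact this⟩

theorem N1 : ∀ w ∈ [[8], [7], [2, 1, 2], [4, 2], [9]], evw (pr ev) w ∈ normalizer (DE ev : Set (S × G)) := by
  have k : ∀ w ∈ [[8], [7], [2, 1, 2], [4, 2], [9]], (allLt 11 w && [5, 1, 6, 0].all fun x =>
    [5, 1, 6, 0].sublists.any fun v => eqW (x :: w) (w ++ v)) = true := by decide +kernel
  intro w hw
  refine N_of w (k w hw) fun ρ hρ => ?_
  rcases (by decide : ∀ w ∈ [[8], [7], [2, 1, 2], [4, 2], [9]], (∀ x ∈ w, x < 9) ∨ w = [9]) w hw with h | rfl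
  · have := evw_mem (K := gensub (pr ev) 9) (fun _ => mem_gensub) h
    exact mul_mem (mul_mem this hρ.1) (inv_mem this)
  obtain ⟨u, hu, e⟩ := ex_word (fun x hx => Sz.sq x (by omega)) (K1_eq'.ge ⟨by
    rw [H0, ← show (fun x => MonoidHom.fst S G (pr ev x)) = eZ from rfl, ← map_gensub]
    exact mem_map_of_mem _ hρ.1, hρ.2.1.1.1⟩)
  rw [M.toMod.D1 hρ.1 (evw_mem (fun _ => mem_gensub) fun x hx => (hu x hx).trans (by decide))
    (Or.inl (by rw [evw_pr, e]; rfl))]
  refine conj_gensub (k := 7) (fun x hx => ?_) _ (evw_mem (fun _ => mem_gensub) hu)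
  have k : ∀ x < 7, (allLt 9 ([[0, 5], [5, 1, 6], [2], [3], [4], [5], [6]].getD x []) &&
    eqW [9, x] ([[0, 5], [5, 1, 6], [2], [3], [4], [5], [6]].getD x [] ++ [9])) = true := by decide +kernel
  have k := k x hx
  rw [Bool.and_eq_true] at k
  convert evw_mem (K := gensub (pr ev) 9) (fun _ => mem_gensub) (allLt_sound k.1) using 1
  rw [evw_pr, evw_pr]
  refine Prod.ext (mul_inv_eq_iff_eq_mul.2 (by simpa [pr] using weq _ _ k.2)) ?_
  have := fun x hx => mul_inv_eq_iff_eq_mul.2 (M.pc x hx)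
  interval_cases x <;> simp [pr, M.pa, M.pcp, this, M.pup]

theorem relW {rs : List (List Rul)} {w0 : List ℕ}
    (h : slvOk rs [[3], [2, 4], w0] [([], [5]), ([8, 2, 6, 2], [1])] [] [[]] = true)
    (hw : evw (pr ev) w0 ∈ normalizer (DE ev : Set (S × G))) {t : List ℕ} (ht : evw (pr ev) t ∈ normalizer (DE ev : Set (S × G)))
    (h1 : evw eZ t = 1) (hc : evw ev w0 * evw ev t = evw ev t * evw ev w0) : evw ev t = 1 := by
  have cen : ∀ y ∈ [[5], [1], [6], [0], [3], [2, 4]], evw ev y * evw ev t = evw ev t * evw ev y := fun y hy => by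
    have k : ∀ y ∈ [[5], [1], [6], [0], [3], [2, 4]], allLt 9 y = true ∧ ∀ x ∈ [5, 1, 6, 0], eqW (x :: y) (y ++ [x]) = true := by
      decide +kernel
    have a : evw (pr ev) y ∈ DE ev := ⟨evw_mem (fun _ => mem_gensub) (allLt_sound (k y hy).1), mem_CE.2 fun x hx =>
      mem_Cx.2 (by simpa [evw_pr] using weq _ _ ((k y hy).2 x hx))⟩
    have := congrArg Prod.snd (M.toMod.D1 ((mem_normalizer_iff.1 ht _).1 a).1 a.1 (Or.inl (by simp [evw_pr, h1])))
    simp only [evw_pr] at this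
    exact (mul_inv_eq_iff_eq_mul.1 this).symm
  obtain ⟨w, w9, e⟩ := M.toMod.ex (h := evw ev t) (by simpa [M.z0] using (cen [0] (by decide)).symm)
  rw [← e] at cen hc ⊢
  have cen' : ∀ y ∈ [[5], [1], [6], [0], [3], [2, 4]], evw eZ y * evw eZ w = evw eZ w * evw eZ y := fun y hy =>
    (M.toMod.cm (by revert y; decide) w9).2 (cen y hy)
  have a : evw (pr ev) w ∈ DE ev := ⟨evw_mem (fun _ => mem_gensub) w9, mem_CE.2 fun x hx =>
    mem_Cx.2 (by simpa [evw_pr] using cen' [x] (by revert x; decide))⟩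
  have := congrArg Prod.fst (M.toMod.D1 ((mem_normalizer_iff.1 hw _).1 a).1 a.1 (Or.inr (by simp [evw_pr, hc])))
  simp only [evw_pr] at this
  obtain ⟨c, hc, e⟩ := Sz.slv h (wH w9) (forall_cons (cen' _ (by decide)) <| forall_cons (cen' _ (by decide)) <|
    forall_cons (mul_inv_eq_iff_eq_mul.1 this) forall_nil) (forall_cons (cen' _ (by decide)) <|
    forall_cons (cen' _ (by decide)) forall_nil) forall_nil
  rw [List.mem_singleton.1 hc] at e
  exact (M.rel w w9).1 e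

theorem r1 : ∀ w ∈ R1, evw ev w = 1 := by
  have n : ∀ v, evw (pr ev) (subst [[8], [7], [2, 1, 2], [4, 2], [9]] v) ∈ normalizer (DE ev : Set (S × G)) :=
    evw_sub (byW_mem M.N1)
  have p2 := M.sq 9 (by decide)
  have kd : ∀ w ∈ [[8], [2, 1, 2], [9]], evw ev w ∈ Cx(evw ev [4, 2]) :=
    forall_cons (mem_Cx.2 (by simpa [mul_assoc] using M.toMod.weq [8, 4, 2] [4, 2, 8])) <|
    forall_cons (mem_Cx.2 (by simpa [mul_assoc] using M.toMod.weq [2, 1, 2, 4, 2] [4, 2, 2, 1, 2])) <|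
    forall_cons (mem_Cx.2 (by
      simpa using ((show Commute (ev 9) (ev 4) from M.pc 4 (by decide)).mul_right (M.pc 2 (by decide))).eq)) forall_nil
  refine forall_cons ?_ <| forall_cons ?_ <| forall_cons ?_ <| forall_cons ?_ <| forall_cons ?_ <| forall_cons ?_ forall_nil
  · simp only [evw_cons, evw_nil, mul_one]
    rw [M.pup, ← mul_assoc (ev 6), M.sq 6 (by decide), one_mul, p2]
  · have := M.pcp
    rw [M.pi] at this
    simpa [← mul_assoc, this] using M.toMod.weq [5, 1, 6, 6, 1, 5] []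
  · have : ev 9 * (ev 4 * (ev 2 * ev 9)) = ev 4 * ev 2 := by
      rw [← M.pc 2 (by decide), ← mul_assoc (ev 4), ← M.pc 4 (by decide), ← mul_assoc, ← mul_assoc, p2, one_mul]
    simpa [this] using M.toMod.weq [2, 4, 4, 2] []
  · exact M.relW sW0 (n [0, 4]) (evw_wpow (pr ev) _ 5 ▸ pow_mem (n [0, 4]) 5) (weq _ [])
      (by rw [evw_wpow]; exact (Commute.refl _).pow_right 5)
  · exact M.relW sW1 (n [1, 0, 4]) (evw_wpow (pr ev) _ 5 ▸ pow_mem (n [1, 0, 4]) 5) (weq _ [])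
      (by rw [evw_wpow]; exact (Commute.refl _).pow_right 5)
  · exact M.relW sW2 (n [0, 2, 4, 0, 4]) (by
      rw [evw_append, evw_wpow]; exact mul_mem (pow_mem (n [0, 2, 4, 0, 4]) 5) (M.N1 _ (by decide))) (weq _ []) (by
      rw [evw_append, evw_wpow]
      exact ((Commute.refl _).pow_right 5).mul_right (mem_Cx.1 (evw_sub (byW_mem kd) [0, 1, 2, 0, 2])))

theorem grP : Gr ev [0, 1, 5, 7, 6, 8, 9] :=
  graph (cardP _ (fun y hy => by
    have := pr_sq (by decide) M.sq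
    interval_cases y <;> simpa [byW] using this _ (by decide))
    (M.toMod.relP (forall_app M.r0 M.r1) (by decide +kernel))) kP (by decide +kernel)


omit [Finite G] in
theorem flip : M9 z (upd ev 9 (ev 0 * ev 9 * ev 0)) := by
  refine ⟨M.toMod.congr fun x hx => (upd_lt hx.ne).symm, fun w hw => ?_⟩
  have := congrArg (MulAut.conj (ev 0)).toMonoidHom (M.r0 w hw)
  rw [map_evw, map_one] at this
  refine Eq.trans (congrArg List.prod (List.map_congr_left fun x hx => ?_)) this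
  rcases (by decide +kernel : ∀ w ∈ R0, ∀ x ∈ w, x = 9 ∨ x ≠ 9 ∧ eq9 [0, x] [x, 0] = true) w hw x hx with rfl | h
  · simp [upd_eq, inv_eq_of_mul_eq_one_right (M.sq 0 (by decide))]
  · simp [upd_lt h.1, M.toMod.com 0 x h.2]
end M9

structure M11 (z : G) (ev : ℕ → G) : Prop extends M9 z ev where
  q : M9 z fun x => ev (sg x)

def tW : List ℕ := [9, 8, 9, 7, 8, 9, 10, 6, 5, 10, 6, 10]
def σU : List (List ℕ) := [[0], [1], [5], [7], [6], [8], [9], [10], [2], [4]]
def R2 : List (List ℕ) := R0 ++ R1 ++ (R0 ++ R1).map (List.map sg)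

namespace M11
variable [Finite G] (M : M11 z ev)
include M

omit [Finite G] in
theorem sq (x : ℕ) (hx : x < 11) : ev x * ev x = 1 := by
  rcases Nat.lt_succ_iff_lt_or_eq.1 hx with h | rfl
  · exact M.toM9.sq x h
  · exact M.q.sq 9 (by decide)

theorem r2 : ∀ w ∈ R2, evw ev w = 1 := forall_app (forall_app M.r0 M.toM9.r1) <| List.forall_mem_map.2 fun w hw => by
  rw [← evw_map]; exact forall_app M.q.r0 M.q.r1 w hw

theorem grQ : Gr ev [0, 1, 7, 5, 8, 6, 10] := M.q.grP.symm (by decide)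

omit [Finite G] in
theorem ce : ∀ y ∈ [[3], [2, 4]], ∀ x ∈ [0, 1, 5, 7, 6, 8, 9, 10], ev x ∈ Cx(evw ev y) := fun y hy x hx => by
  have k : ∀ {ev : ℕ → G}, M9 z ev → ev 9 ∈ Cx(evw ev y) := fun M => mem_Cx.2 (mem_Cx.1 (evw_in fun x hx =>
    mem_Cx.2 (M.pc x ((by decide : ∀ y ∈ [[3], [2, 4]], ∀ x ∈ y, x ∈ [2, 3, 4, 5]) y hy x hx)).symm)).symm
  rcases (by decide +kernel : ∀ y ∈ [[3], [2, 4]], y.map sg = y ∧ ∀ x ∈ [0, 1, 5, 7, 6, 8, 9, 10], x = 9 ∨ x = 10 ∨
    eq9 (x :: y) (y ++ [x]) = true) y hy with ⟨e, h⟩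
  rcases h x hx with rfl | rfl | h
  · exact k M.toM9
  · have := k M.q
    rwa [evw_map, e] at this
  · exact mem_Cx.2 (by simpa using M.toMod.weq _ _ h)

theorem tor : ∃ c ∈ [[], [0], [1], [0, 1]], evw ev (tW ++ [1]) = evw ev c := by
  have k : ∀ s ∈ [(0, [0, 1]), (5, [5, 6]), (1, [0]), (7, [7, 8])],
      evw ev [s.1] * evw ev (tW ++ [1]) = evw ev (tW ++ [1]) * evw ev [s.1] := fun s hs => by
    have a := M.toM9.grP.eq ([9, 8, 9, 7, 8, 9] ++ s.2) ([s.1] ++ [9, 8, 9, 7, 8, 9]) (by revert s; decide +kernel)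
    have b := M.grQ.eq ([10, 6, 5, 10, 6, 10, 1] ++ [s.1]) (s.2 ++ [10, 6, 5, 10, 6, 10, 1])
      (by clear a; revert s; decide +kernel)
    rw [show tW ++ [1] = [9, 8, 9, 7, 8, 9] ++ [10, 6, 5, 10, 6, 10, 1] from rfl]
    simp only [evw_append] at a b ⊢
    rw [mul_assoc (evw ev [9, 8, 9, 7, 8, 9]), b, ← mul_assoc, ← mul_assoc, a]
  exact M.toMod.slv sO (by simpa [M.z0] using (k (0, [0, 1]) (by decide)).symm)
    (fun y hy => (mem_Cx.1 (evw_in fun x hx => M.ce y hy x (by revert x; decide))).symm)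
    (forall_cons (k (5, [5, 6]) (by decide)) <| forall_cons (k (1, [0]) (by decide)) <|
      forall_cons (k (7, [7, 8]) (by decide)) forall_nil) forall_nil

omit [Finite G] in
theorem sqU : ∀ y < 10, byW ev σU y * byW ev σU y = 1 := fun y hy => by
  interval_cases y <;> simpa [byW, σU] using M.sq _ (by decide)

theorem bad (h : ∀ K, (∀ s ∈ yu_subs, evw (byW ev σU) s ∈ K) → Covers K (gensub (byW ev σU) 10) 2) :
    False := by
  have v : ∀ w ∈ [[3], [2, 4, 3, 4, 2]], evw ev w ∈ Cx(ev 3) := forall_cons (mem_Cx.2 (by simp)) <|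
    forall_cons (mem_Cx.2 (by simpa [mul_assoc] using M.toMod.weq [2, 4, 3, 4, 2, 3] [3, 2, 4, 3, 4, 2])) forall_nil
  have := covers_two (h (normalizer (gensub (byW ev [[3], [2, 4, 3, 4, 2]]) 2 : Set G)) fun s hs =>
    mem_normalizer_fintype (conj_gensub fun x hx => ?_)) (sub_lt _ (subs := [[1, 8]]) (by decide) _ List.mem_cons_self)
  · have := gen_le v 2 ((mem_normalizer_iff.1 this _).1 (mem_gensub (show 0 < 2 by decide)))
    rw [mem_Cx, ← evw_subst, ← evw_append, ← M.toMod.rev (by decide)] at this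
    exact M.toMod.wne [1, 2, 1, 2, 3, 2, 1, 2, 1, 3] [3, 1, 2, 1, 2, 3, 2, 1, 2, 1] (by decide +kernel)
      (by simpa [byW, subst, σU, mul_assoc] using this)
  rw [← evw_subst]
  rcases (by decide : ∀ s ∈ yu_subs, (∃ y ∈ [0, 1, 5, 7, 6, 8, 9, 10], subst σU s = [y]) ∨ subst σU s = [2, 4]) s hs with
    ⟨y, hy, e⟩ | e <;> rw [e]
  · have a := mem_Cx.1 (M.ce [3] (by decide) y hy)
    have b : Commute (ev y) (evw ev [2, 4]) := mem_Cx.1 (M.ce [2, 4] (by decide) y hy)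
    have c : ev y * byW ev [[3], [2, 4, 3, 4, 2]] x = byW ev [[3], [2, 4, 3, 4, 2]] x * ev y := by
      interval_cases x
      · exact a
      · have := ((b.mul_right a).mul_right b.inv_right).eq
        rw [← M.toMod.rev (by decide)] at this
        simpa [byW, mul_assoc] using this
    rw [evw_cons, evw_nil, mul_one, c, mul_inv_cancel_right]
    exact mem_gensub hx
  · obtain ⟨v, hv, e⟩ := (by decide +kernel : ∀ x < 2, ∃ v ∈ [[1], [0, 1]], allLt 2 v = true ∧
      eq9 ([2, 4] ++ [[3], [2, 4, 3, 4, 2]].getD x []) (subst [[3], [2, 4, 3, 4, 2]] v ++ [2, 4]) = true) x hx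
    have := M.toMod.weq _ _ e.2
    rw [evw_append, evw_append, evw_subst] at this
    rw [byW, this, mul_inv_cancel_right]
    exact evw_mem (fun _ => mem_gensub) (allLt_sound e.1)

theorem grU (h1 : evw ev (tW ++ [1]) = 1 ∨ evw ev tW = 1)
    (h2 : evw ev (wpow [9, 10] 3) = 1 ∨ evw ev (wpow [9, 10] 4) = 1 ∨ evw ev (wpow [9, 10] 5) = 1) :
    Gr ev [0, 1, 5, 7, 6, 8, 9, 10, 2, 4] := by
  have i := inv_id M.sqU (k := 10) (il := [0, 1, 2, 3, 4, 5, 6, 7, 8, 9])
  rcases h1 with h1 | h1 <;> rcases h2 with h2 | h2 | h2 <;> have k := forall_cons h1 (forall_cons h2 M.r2)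
  · exact (M.bad fun K => yb13_cov _ K i (M.toMod.relG k (by decide +kernel))).elim
  · exact (M.bad fun K => yb14_cov _ K i (M.toMod.relG k (by decide +kernel))).elim
  · exact graph (cardU _ (fun y hy => by
      have := pr_sq le_rfl M.sq
      interval_cases y <;> simpa [byW] using this _ (by decide)) (M.toMod.relP k (by decide +kernel))) kU (by decide +kernel)
  · exact (M.bad fun K => ybc3_cov _ K i (M.toMod.relG k (by decide +kernel))).elim
  · exact (M.bad fun K => ybc4_cov _ K i (M.toMod.relG k (by decide +kernel))).elim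
  · exact (M.bad fun K => ybc5_cov _ K i (M.toMod.relG k (by decide +kernel))).elim

def σS : List (List ℕ) := [[0], [5, 9, 10, 9, 7, 10], [1], [2], [3], [5], [7]]

theorem exψ (h : Gr ev [0, 1, 5, 7, 6, 8, 9, 10, 2, 4]) :
    ∃ ψ : S →* G, Function.Injective ψ ∧ ∀ x < 11, ψ (eZ x) = ev x := by
  have b3 : evw ev ([5, 9, 10, 9, 7, 10] ++ [3]) = evw ev ([3] ++ [5, 9, 10, 9, 7, 10]) := by
    rw [evw_append, evw_append]
    exact mem_Cx.1 (evw_in fun x hx => M.ce [3] (by decide) x (by revert x; decide))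
  obtain ⟨ρ, h1⟩ := wp_hom 7 SuzB.il SuzB.rels (by decide +kernel) (byW ev σS) (fun x hx => by
    rcases (by decide +kernel : ∀ x < 7, (x = 4 ∨ ((σS.getD (SuzB.il.getD x 0) [] ++ (σS.getD x []).reverse).all
      [0, 1, 5, 7, 6, 8, 9, 10, 2, 4].contains && eqW (σS.getD (SuzB.il.getD x 0) []) (σS.getD x []).reverse) = true) ∧
      allLt 11 (σS.getD x []) = true) x hx with ⟨rfl | e, e'⟩
    · exact (evw_rev M.sq (allLt_sound e') :)
    · exact (h.eq _ _ e).trans (evw_rev M.sq (allLt_sound e'))) fun w hw => by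
    rw [← evw_subst]
    rcases (by decide +kernel : ∀ w ∈ SuzB.rels, eq9 (subst σS w) [] = true ∨ ((subst σS w ++ []).all
      [0, 1, 5, 7, 6, 8, 9, 10, 2, 4].contains && eqW (subst σS w) []) = true ∨ w = [1, 4, 1, 4] ∨
      subst σS w = wpow (subst σS (wpow [1, 2, 3, 2, 3] 5) ++ [3]) 3) w hw with e | e | rfl | e
    · exact M.toMod.weq _ _ e
    · exact h.eq _ _ e
    · have := h.eq ([5, 9, 10, 9, 7, 10] ++ [5, 9, 10, 9, 7, 10]) []
      change evw ev ([5, 9, 10, 9, 7, 10] ++ (([3] ++ [5, 9, 10, 9, 7, 10]) ++ [3])) = 1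
      rw [evw_append, evw_append, ← b3, evw_append, mul_assoc, ← mul_assoc, ← evw_append, this]
      simpa using M.sq 3 (by decide)
    · rw [e, evw_wpow, evw_append, h.eq _ [2, 4], ← evw_append, ← evw_wpow]
      exact M.toMod.weq _ []
  obtain ⟨χ, h2⟩ := SuzB.hhom (wel 7 SuzB.il SuzB.rels) (wp_inv _ _ _) (wp_rel _ _ _)
  have k : ∀ x < 11, ρ.comp χ (eZ x) = ev x := fun x hx => by
    rw [eZ, byW, hom_evw (ρ := ρ.comp χ) (ev := byW ev σS) (fun y hy => (congrArg ρ (h2 y hy)).trans (h1 y hy)) _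
      (getD_lt (allLt_all (by decide)) x), ← evw_subst]
    rcases (by decide +kernel : ∀ x < 11, x = 3 ∨ ((subst σS (zSig.getD x []) ++ [x]).all
      [0, 1, 5, 7, 6, 8, 9, 10, 2, 4].contains && eqW (subst σS (zSig.getD x [])) [x]) = true) x hx with rfl | e
    · exact mul_one _
    · exact (h.eq _ _ e).trans (mul_one _)
  have := Suz.simple
  exact ⟨_, inj_of_simple _ (g := eZ 0) (by rw [k 0 (by decide)]; simpa using M.toMod.wne [0] []), k⟩
end M11

theorem Mod.exψ [Finite G] (M : Mod z ev) : ∃ ψ : S →* G, Function.Injective ψ ∧ ∀ x < 9, ψ (eZ x) = ev x := by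
  obtain ⟨p, q, h1, h2, h3⟩ := M.exPQ
  have mk : ∀ q, M9 z (upd (fun x => ev (sg x)) 9 q) → M11 z (upd (upd ev 9 p) 10 q) := fun q h => by
    have a : ∀ x < 10, upd (fun x => ev (sg x)) 9 q x = upd (upd ev 9 p) 10 q (sg x) := fun x hx => by
      interval_cases x <;> rfl
    exact ⟨⟨M.congr fun x hx => by rw [upd_lt (by omega), upd_lt hx.ne], fun w hw => by
      rw [← h1 w hw]; exact evw_congr (k := 10) (fun x hx => upd_lt hx.ne) (by revert w; decide)⟩,
      h.toMod.congr fun x hx => a x (by omega), fun w hw => by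
      rw [← h.r0 w hw]; exact evw_congr (k := 10) (fun x hx => (a x hx).symm) (by revert w; decide)⟩
  have fin : ∀ q, M11 z (upd (upd ev 9 p) 10 q) → ((p * q) ^ 3 = 1 ∨ (p * q) ^ 4 = 1 ∨ (p * q) ^ 5 = 1) →
      (evw (upd (upd ev 9 p) 10 q) (tW ++ [1]) = 1 ∨ evw (upd (upd ev 9 p) 10 q) tW = 1) →
      ∃ ψ : S →* G, Function.Injective ψ ∧ ∀ x < 9, ψ (eZ x) = ev x := fun q h a b => by
    obtain ⟨ψ, c, d⟩ := h.exψ (h.grU b (by simpa [evw_wpow, upd] using a))
    exact ⟨ψ, c, fun x hx => by rw [d x (by omega), upd_lt (by omega), upd_lt hx.ne]⟩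
  have m0 : M9 z (upd (fun x => ev (sg x)) 9 q) := ⟨M.symm.congr fun x hx => by rw [upd_lt hx.ne], h2⟩
  have m1 := mk q m0
  have m2 := mk (ev 0 * q * ev 0) (by
    have := m0.flip
    convert this using 1
    funext x; by_cases h : x = 9 <;> simp [upd, h, sg])
  have a2 := M.sq 0
  have e : evw (upd (upd ev 9 p) 10 (ev 0 * q * ev 0)) tW = evw (upd (upd ev 9 p) 10 q) (tW ++ [1]) * ev 0 := by
    have a := m1.grQ.eq [0, 10, 6, 5, 10, 6, 10] [10, 6, 5, 10, 6, 10, 1]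
    have b : ∀ y, ev 0 * (ev 6 * y) = ev 6 * (ev 0 * y) := fun y => by rw [← mul_assoc, M.com 0 6, mul_assoc]
    have c : ∀ y, ev 0 * (ev 5 * y) = ev 5 * (ev 0 * y) := fun y => by rw [← mul_assoc, M.com 0 5, mul_assoc]
    have d : ∀ y, ev 0 * (ev 0 * y) = y := fun y => by rw [← mul_assoc, a2, one_mul]
    simp only [tW, evw_cons, evw_nil, upd, List.cons_append, List.nil_append, mul_one] at a ⊢
    simp only [Nat.reduceEqDiff, if_true, if_false, mul_assoc, b, c, d] at a ⊢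
    have := congrArg (· * ev 0) a
    simp only [mul_assoc] at this
    rw [this]
  obtain ⟨c, hc, e1⟩ := m1.tor
  have c2 := M.sq 1
  simp only [List.mem_cons, List.not_mem_nil, or_false] at hc
  rcases hc with rfl | rfl | rfl | rfl
  · exact fin q m1 (by simpa using h3 [] (by decide)) (Or.inl e1)
  · exact fin _ m2 (by simpa using h3 [0] (by decide)) (Or.inr (by rw [e, e1]; simpa [upd] using a2))
  · exact fin q m1 (by simpa using h3 [] (by decide)) (Or.inr (by simpa [evw_append] using e1))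
  · exact fin _ m2 (by simpa using h3 [0] (by decide)) (Or.inl (by
      rw [evw_append, e, e1]; simpa [upd, mul_assoc] using M.weq [0, 1, 0, 1] []))

end Sz
end CfL
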