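import Cfsg.Agent.OD.Pre
import Cfsg.Agent.L.ZF
import Cfsg.Agent.L.ZT5
import Cfsg.Agent.L.ZT6
import Cfsg.Agent.OD.Leadxc0aec6a63d
/-! Involutions of the sporadic Suzuki group. -/
set_option autoImplicit false
set_option maxRecDepth 100000
open CfH6 MulAction Subgroup CfH9 CfH4
namespace CfL

theorem card_le_list {G : Type*} [Group G] {ev : ℕ → G} {K : Subgroup G} {cs : List (List ℕ)}
    (h : ∀ g ∈ K, ∃ c ∈ cs, g = evw ev c) : Nat.card K ≤ cs.length := by
  classical
  change Nat.card (K : Set G) ≤ _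
  rw [Nat.card_coe_set_eq, ← List.length_map (evw ev)]
  refine le_trans (Set.ncard_le_ncard (t := (cs.map (evw ev)).toFinset) fun g hg => ?_)
    ((Set.ncard_coe_finset _).le.trans (List.toFinset_card_le _))
  obtain ⟨c, hc, rfl⟩ := h g hg
  exact List.mem_toFinset.2 (List.mem_map_of_mem hc)

namespace Sz
open SuB (S)

theorem KT.chk_sound {k : ℕ} {f : List ℕ → Bool} (t : KT) (h : t.chk k f = true) : ∃ c, f c = true := by
  induction t with
  | l => exact absurd h Bool.false_ne_true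
  | n j c a b ha hb =>
    have h : (Bool.rec (Bool.rec (b.chk k f) (a.chk k f) (Nat.blt k j)) (f c) (Nat.beq k j) : Bool) = true := h
    cases e : Nat.beq k j <;> rw [e] at h
    · cases e : Nat.blt k j <;> rw [e] at h
      exacts [hb h, ha h]
    · exact ⟨c, h⟩

theorem inB {g : S} (hg : g ∈ gensub (byW eZ σB) 10) : g ∈ H0 ∧ (∀ i : r.Pt, i.1 = 416 → (g • i).1 ∈ [416, 417]) ∧
    ∀ i : r.Pt, i.1 = 483 → (g • i).1 ∈ [432, 446, 483, 626] :=
  ⟨gen_le (fun _ h => wH (allLt_all (by decide) _ h)) _ hg, fun i hi => List.contains_iff_mem.1 <|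
    r.closed [416, 417].contains σB (by decide +kernel) hg i (by rw [hi]; rfl), fun i hi => List.contains_iff_mem.1 <|
    r.closed [432, 446, 483, 626].contains σB (by decide +kernel) hg i (by rw [hi]; rfl)⟩

theorem cardB : Nat.card (gensub (byW eZ σB) 10) = 24576 := by
  refine le_antisymm (card_step (r.pt 416) (A := {i | [416, 417].contains i.1 = true}) (c := 2) (n := 4 * 3072)
    (fun g hg => List.contains_iff_mem.2 ((inB hg).2.1 _ rfl)) (r.ncard_le _ (fun _ h => h) 2 (by decide +kernel))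
    (card_step (r.pt 483) (A := {i | [432, 446, 483, 626].contains i.1 = true})
    (fun g hg => List.contains_iff_mem.2 ((inB hg.1).2.2 _ rfl)) (r.ncard_le _ (fun _ h => h) 4 (by decide +kernel)) ?_))
    (le_trans (by decide +kernel) (r.chain_ge (byW_mem fun w hw => ?_) 11 _ kB))
  · refine le_trans (card_le_of_le fun g hg => ?_) ((r.lv_tail (by decide) tail.1 tail.2).2.trans (by decide +kernel))
    refine ⟨(inB hg.1.1).1, fun i hi => ?_⟩
    rcases List.mem_cons.1 hi with h | h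
    · rw [show i = r.pt 483 from Subtype.ext h]; exact hg.2
    · rw [show i = r.pt 416 from Subtype.ext (List.mem_singleton.1 h)]; exact hg.1.2
  · obtain ⟨i, hi, rfl⟩ := List.getElem_of_mem hw
    have := mem_gensub (el := byW eZ σB) hi
    rwa [byW, List.getD_eq_getElem _ _ hi] at this

theorem invS {s : S} (s2 : s * s = 1) (s1 : s ≠ 1) : IsConj (eZ 0) s ∨ IsConj (eZ 3) s := by
  obtain ⟨c, -, h1⟩ := conj_into (p := 2) (n := 1) (le_top (a := H0)) (not_dvd_relIndex le_top (b := 135135)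
    (by rw [card_top, Suz.card]) cardH (by norm_num)) (mem_top s) (by rw [pow_one, pow_two, s2])
  obtain ⟨d, -, h2⟩ := conj_into (p := 2) (n := 1) (fun _ h => (inB h).1) (not_dvd_relIndex (fun _ h => (inB h).1) (b := 135)
    cardH cardB (by norm_num)) h1 (by rw [conj_pow, pow_one, pow_two, s2]; simp)
  have e : IsConj s (d * (c * s * c⁻¹) * d⁻¹) := (isConj_iff.2 ⟨c, rfl⟩).trans (isConj_iff.2 ⟨d, rfl⟩)
  have g2 := sq_of_isConj e s2
  have g1 := ne_one_of_isConj e s1
  generalize d * (c * s * c⁻¹) * d⁻¹ = g at *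
  have hb := inB (inv_mem h2)
  have t : ∀ i, Nat.testBit (Nat.shiftLeft 1 i) i = true := fun i =>
    (congrArg (Nat.testBit · _) (Nat.one_shiftLeft _)).trans Nat.testBit_two_pow_self
  obtain ⟨u, u1, rfl, u3⟩ := enum (sI _ (hb.2.1 (r.pt 416) rfl) _ (hb.2.2 (r.pt 483) rfl)) (inB h2).1 forall_nil forall_nil
    (forall_cons (fun i hi => by rw [show i = r.pt 416 from Subtype.ext hi]; exact t _) <|
      forall_cons (fun i hi => by rw [show i = r.pt 483 from Subtype.ext hi]; exact t _) forall_nil)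
  have := invp_fin u1 u3 g2
  simp only [Bool.or_eq_true, frc_eq] at this
  rcases this with (h | h) | h
  · obtain ⟨c, h⟩ := KT.chk_sound _ h
    refine ((Bool.or_eq_true _ _).mp h).symm.imp (fun h => ?_) fun h => ?_ <;>
      exact (isConj_iff.2 ⟨evw eZ c, mul_inv_eq_iff_eq_mul.2 (by simpa using (weq _ _ h).symm)⟩).trans e.symm
  · rw [r.same_of hbs (forall_app u1 u1) forall_nil (by simpa using g2)] at h
    exact absurd h (by decide)
  · exact absurd (r.of_same base u1 forall_nil h) g1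

theorem stabK : SuB.J ⊓ stabilizer S (SuB.r.pt 100) ≤ gensub eZ 5 := by
  have h1 := card_orbit_mul SuB.J (SuB.r.pt 100)
  have h2 := SuB.r.orb_ge SuB.h5 (SuB.r.pt 100) 3 sB315 315 11 (by decide +kernel)
  have h3 : 1920 ≤ Nat.card (gensub eZ 5) := le_trans (by decide +kernel) (r.chain_ge (byW_mem fun w hw =>
    evw_mem (fun _ => mem_gensub) (allLt_all (by decide) w hw)) 11 _ kK)
  rw [SuB.J_eq.2] at h1
  refine (eq_of_le_of_card_ge (gensub_le fun x hx => ?_) (by nlinarith)).ge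
  have := SuB.r.word_Fx (bs := [416, 415, 100]) (getD_lt (allLt_all (by decide)) x : ∀ y ∈ zSig.getD x [], y < sB.nc)
    (by revert x; decide +kernel)
  exact ⟨⟨this _ (by decide), this _ (by decide)⟩, this _ (by decide)⟩

theorem cardE_le : Nat.card Cx(eZ 3) ≤ 42 * (16 * (15 * 16)) := by
  have fx : ∀ g ∈ Cx(eZ 3), ∀ i : SuB.r.Pt, Nat.beq (sB.trL [4] i.1) i.1 = true →
      Nat.beq (sB.trL [4] (g • i).1) (g • i).1 = true := fun g hg i hi => by
    have k := fun i => SuB.r.fix_iff (w := [4]) (by decide) i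
    rw [(k _).1 (by rw [← mul_smul, show evw SuB.el [4] = eZ 3 from rfl, ← mem_Cx.1 hg, mul_smul]; exact congrArg _ ((k i).2
      (Nat.eq_of_beq_eq_true hi))), Nat.beq_refl]
  refine card_step SuB.p0 (fun g hg => fx g hg _ (by decide +kernel))
    (SuB.r.ncard_le (fun i => Nat.beq (sB.trL [4] i) i) (fun _ h => h) 42 (by decide +kernel)) <|
    card_step SuB.b0 (A := {i | (Nat.blt i.1 416 && Nat.beq (sB.trL [4] i.1) i.1) = true}) (fun g hg => (Bool.and_eq_true _ _).mpr
      ⟨SuB.r.closed (fun i => Nat.blt i 416) SuB.g6 (by decide +kernel) (SuB.X_eq.ge hg.2) _ rfl,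
        fx g hg.1 _ (by decide +kernel)⟩)
    (SuB.r.ncard_le (fun i => Nat.blt i 416 && Nat.beq (sB.trL [4] i) i) (fun _ h => h) 16 (by decide +kernel)) <|
    card_step (SuB.r.pt 100) (A := {i | (Nat.blt i.1 415 && Nat.beq (sB.trL [4] i.1) i.1) = true}) (fun g hg => (Bool.and_eq_true _ _).mpr
      ⟨SuB.r.closed (fun i => Nat.blt i 415) SuB.g5 (by decide +kernel) (SuB.J_eq.1.ge ⟨hg.1.2, hg.2⟩) _ rfl,
        fx g hg.1.1 _ (by decide +kernel)⟩)
    (SuB.r.ncard_le (fun i => Nat.blt i 415 && Nat.beq (sB.trL [4] i) i) (fun _ h => h) 15 (by decide +kernel)) <|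
    (card_le_list (ev := eZ) (cs := ?cs) fun g hg => ?_).trans ?_
  rotate_left
  have h := stabK ⟨⟨hg.1.1.2, hg.1.2⟩, hg.2⟩
  have c : ∀ y ∈ [5, 7], evw eZ [y] * g = g * evw eZ [y] := fun y hy => (mem_Cx.1 (gensub_le (K := Cx(evw eZ [y]))
    (fun x hx => mem_Cx.2 (by simpa using weq [x, y] [y, x] (by revert x y; decide +kernel))) h)).symm
  exact slv sE (gensub_le (fun x hx => mem_gensub (by omega)) h) (forall_cons (by simpa using (mem_Cx.1 hg.1.1.1).symm) forall_nil)
    (forall_cons (c 5 (by decide)) <| forall_cons (c 7 (by decide)) forall_nil) forall_nil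
  decide

theorem M1_eq : gensub (byW eZ σM) 11 = Cx(eZ 3) ∧ Nat.card Cx(eZ 3) = 161280 := by
  have h1 : gensub (byW eZ σM) 11 ≤ Cx(eZ 3) := gen_le (fun w hw => mem_Cx.2 (by
    have := weq (w ++ [3]) (3 :: w) (by revert w; decide +kernel)
    rwa [evw_append, evw_cons, evw_cons, evw_nil, mul_one] at this)) _
  have h2 : 161280 ≤ Nat.card (gensub (byW eZ σM) 11) := le_trans (by decide +kernel) (r.chain_ge (byW_mem fun w hw => by
    obtain ⟨i, hi, rfl⟩ := List.getElem_of_mem hw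
    have := mem_gensub (el := byW eZ σM) hi
    rwa [byW, List.getD_eq_getElem _ _ hi] at this) 11 _ kM)
  exact ⟨eq_of_le_of_card_ge h1 (cardE_le.trans h2), le_antisymm cardE_le (h2.trans (card_le_of_le h1))⟩

noncomputable def rL : Rep sL (byW eZ σU) := ⟨r.ρ, fun x hx i => by
  have hx : x < 8 := hx
  refine (r.word (w := σU.getD x []) (getD_lt (allLt_all (by decide)) x) i).trans ?_
  interval_cases x <;> rfl⟩

noncomputable abbrev L0 : Subgroup S := gensub (byW eZ σU) 8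

theorem inL {w : List ℕ} (h : ∀ x ∈ w, x ∈ [0, 1, 5, 7, 6, 8, 9, 10]) : evw eZ w ∈ L0 := evw_in fun x hx => by
  obtain ⟨i, hi, e⟩ := (by decide : ∀ x ∈ [0, 1, 5, 7, 6, 8, 9, 10], ∃ i < 8, σU.getD i [] = [x]) x (h x hx)
  have := mem_gensub (el := byW eZ σU) hi
  rwa [byW, e, evw_cons, evw_nil, mul_one] at this

theorem kL : sL.lvOk 8 zcL [] = true := by decide +kernel

theorem cardL0 : Nat.card L0 = 20160 := le_antisymm (cardL _ (fun y hy => by
    interval_cases y <;> simpa [byW, σU] using sq _ (by decide)) fun w hw => by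
    rw [← evw_subst]; exact weq _ [] (by revert w; decide +kernel)).2
  (le_trans (by decide +kernel) ((rL.lv_ge le_rfl _ _ kL).trans (card_le_of_le inf_le_left)))

theorem Lc : ∀ y ∈ [[3], [2, 4], [2, 4, 3, 4, 2]], L0 ≤ Cx(evw eZ y) := fun y hy => gensub_le fun x hx => mem_Cx.2 (by
  rw [byW, ← evw_append, ← evw_append]; exact weq _ _ (by revert x y; decide +kernel))

theorem Le : L0 ≤ Cx(eZ 3) := by simpa using Lc [3] (by decide)

theorem Ln : Cx(eZ 3) ≤ normalizer (L0 : Set S) := M1_eq.1.ge.trans <| gen_le (fun w hw => by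
  rcases (by decide : ∀ w ∈ σM, (∀ x ∈ w, x ∈ [0, 1, 5, 7, 6, 8, 9, 10]) ∨ w ∈ [[3], [2, 4], [2, 4, 3, 4, 2]] ∨
    w = [2, 6, 8, 2, 8, 6, 2]) w hw with h | h | rfl
  · exact le_normalizer (inL h)
  · exact mem_normalizer_fintype fun l hl => by rwa [← mem_Cx.1 (Lc w h hl), mul_inv_cancel_right]
  · refine mem_normalizer_fintype (conj_gensub fun x hx => ?_)
    have := weq ([2, 6, 8, 2, 8, 6, 2] ++ σU.getD x []) (hW.getD x [] ++ [2, 6, 8, 2, 8, 6, 2]) (by revert x; decide +kernel)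
    rw [evw_append, evw_append] at this
    rw [byW, this, mul_inv_cancel_right]
    exact inL (by clear this; revert x; decide)) _

theorem no15 {x y : S} (hx : x ∈ L0) (hy : y ∈ L0) (x3 : x ^ 3 = 1) (y5 : y ^ 5 = 1) (c : x * y = y * x) (y1 : y ≠ 1) :
    x = 1 := by
  have : Fact (Nat.Prime 5) := ⟨by norm_num⟩
  have o : orderOf (evw eZ [9, 10]) = 5 := orderOf_eq_prime (by rw [← evw_wpow, weq _ [], evw_nil]) (wne _ [])
  have l := zpowers_le.2 (inL (w := [9, 10]) (by decide))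
  obtain ⟨d, hd, h⟩ := conj_into (p := 5) (n := 1) l (not_dvd_relIndex l (b := 4032) cardL0
    (by rw [Nat.card_zpowers, o]) (by norm_num)) hy y5
  have e : zpowers (d * y * d⁻¹) = zpowers (evw eZ [9, 10]) := eq_of_le_of_card_ge (zpowers_le.2 h) (by
    rw [Nat.card_zpowers, Nat.card_zpowers, o, ← MulAut.conj_apply, MulEquiv.orderOf_eq, orderOf_eq_prime y5 y1])
  obtain ⟨c, hc, e⟩ := rL.solve (bs := bs) le_rfl base kL (cardL0.le.trans (by decide +kernel)) rsL [[6, 7]] [] [[8, 8, 8]] [[]]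
    (by decide +kernel) (g := d * x * d⁻¹) (mul_mem (mul_mem hd hx) (inv_mem hd)) (forall_cons (by
      obtain ⟨i, hi⟩ := e.ge (mem_zpowers _)
      rw [← evw_subst, show evw eZ (subst σU [6, 7]) = (d * y * d⁻¹) ^ i from hi.symm]
      exact (((show Commute x y from c).conj d).zpow_right i).symm) forall_nil) forall_nil (forall_cons (by
      have : (d * x * d⁻¹) ^ 3 = 1 := by rw [conj_pow, x3]; simp
      simpa [upd, sL, pow_succ, mul_assoc] using this) forall_nil)
  rw [List.mem_singleton.1 hc] at e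
  simpa using e

theorem no315 {W : Subgroup S} (h : W ≤ L0) : Nat.card W ≠ 315 := fun hc => by
  have : Fact (Nat.Prime 5) := ⟨by norm_num⟩
  have : Fact (Nat.Prime 3) := ⟨by norm_num⟩
  classical
  obtain ⟨P⟩ : Nonempty (Sylow 5 W) := inferInstance
  have c5 : Nat.card P = 5 := by
    rw [P.card_eq_multiplicity, hc, show 315 = 5 * 63 from rfl, Nat.factorization_mul (by norm_num) (by norm_num),
      Finsupp.add_apply, Nat.Prime.factorization_self (by norm_num), Nat.factorization_eq_zero_of_not_dvd (by norm_num)]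
    rfl
  have h1 := card_sylow_modEq_one 5 W
  have h2 := (normalizer (P : Set W)).card_mul_index
  rw [P.card_eq_index_normalizer] at h1
  have h3 : 5 ∣ Nat.card (normalizer (P : Set W)) := c5.symm.dvd.trans (card_dvd_of_le le_normalizer)
  obtain ⟨x, hx, x3⟩ : ∃ x ∈ normalizer (P : Set W), orderOf x = 3 := by
    obtain ⟨x, hx⟩ := exists_prime_orderOf_dvd_card' (G := normalizer (P : Set W)) 3 (by
      obtain ⟨m, hm⟩ := h3
      rw [hm, hc] at h2
      rw [hm]
      have : m ∣ 63 := ⟨(normalizer (P : Set W)).index, by nlinarith⟩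
      have h4 := Nat.le_of_dvd (by norm_num) this
      rw [Nat.ModEq] at h1
      interval_cases m <;> omega)
    exact ⟨x, x.2, (orderOf_coe x).trans hx⟩
  obtain ⟨y, y5⟩ := exists_prime_orderOf_dvd_card' (G := P) 5 c5.symm.dvd
  have e : zpowers y = ⊤ := eq_top_of_card_eq _ (by rw [Nat.card_zpowers, y5, c5])
  obtain ⟨j, hj, e⟩ := (Finset.mem_image.1 (mem_zpowers_iff_mem_range_orderOf.1
    (e.ge (mem_top ⟨_, (mem_normalizer_iff.1 hx y).1 y.2⟩))))
  have e : (y : W) ^ j = x * y * x⁻¹ := congrArg Subtype.val e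
  have y5' : orderOf (y : W) = 5 := (orderOf_coe y).trans y5
  have e3 : (y : W) ^ (j * j * j) = y ^ 1 := by
    rw [pow_mul, pow_mul, e, conj_pow, e, conj_pow, conj_pow, e]
    calc _ = x ^ 3 * y * (x ^ 3)⁻¹ := by simp only [pow_three, mul_inv_rev, mul_assoc]
      _ = _ := by rw [← x3, pow_orderOf_eq_one]; group
  rw [pow_eq_pow_iff_modEq, y5'] at e3
  rw [y5, Finset.mem_range] at hj
  have : j = 1 := (by decide : ∀ j < 5, j * j * j ≡ 1 [MOD 5] → j = 1) j hj e3
  rw [this, pow_one, eq_mul_inv_iff_mul_eq] at e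
  have := no15 (h x.2) (h y.1.2) (by rw [← x3]; exact congrArg Subtype.val (pow_orderOf_eq_one x))
    (congrArg Subtype.val (orderOf_dvd_iff_pow_eq_one.1 y5'.dvd)) (congrArg Subtype.val e.symm)
    fun e => by rw [show (y : W) = 1 from Subtype.ext e] at y5'; simp at y5'
  rw [show x = 1 from Subtype.ext this] at x3
  simp at x3

variable (hH : ∀ h, h * eZ 0 = eZ 0 * h → h ∈ H0)
include hH

theorem inT {g : S} (hg : g ∈ L0 ⊓ Cx(eZ 0)) : ∃ c ∈ cW.map Prod.fst, g = evw eZ c :=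
  slv sT3 (hH g (mem_Cx.1 hg.2)) (fun y hy => (mem_Cx.1 (Lc y (by revert y; decide) hg.1)).symm) forall_nil forall_nil

theorem cardT0 : Nat.card (L0 ⊓ Cx(eZ 0) : Subgroup S) = 64 := le_antisymm (card_le_list fun _ => inT hH)
  (le_trans (by decide +kernel) (r.chain_ge (byW_mem fun w hw => mem_inf.2 ⟨inL (by revert w; decide),
    mem_Cx.2 (Ha _ (wH (by revert w; decide)))⟩) 11 _ kT))

theorem invL {s : S} (hs : s ∈ L0) (s2 : s * s = 1) (s1 : s ≠ 1) : ∃ l ∈ L0, l * eZ 0 * l⁻¹ = s := by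
  obtain ⟨d, hd, h⟩ := conj_into (p := 2) (n := 1) inf_le_left (not_dvd_relIndex inf_le_left (b := 315) cardL0
    (cardT0 hH) (by norm_num)) hs (by rw [pow_one, pow_two, s2])
  obtain ⟨_, hc', e⟩ := inT hH h
  obtain ⟨c, hc, rfl⟩ := List.mem_map.1 hc'
  have k : ∀ c ∈ cW, allLt 11 c.1 = true ∧ (sZ.same bs (c.1 ++ c.1) [] = false ∨ c.1 = [] ∨
    (∀ x ∈ c.2, x ∈ [0, 1, 5, 7, 6, 8, 9, 10]) ∧ eqW (c.2 ++ [0]) (c.1 ++ c.2) = true) := by decide +kernel
  obtain ⟨k1, k2 | k2 | k2⟩ := k c hc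
  · rw [r.same_of hbs (forall_app (allLt_sound k1) (allLt_sound k1)) forall_nil (by
      rw [evw_append, ← e, conj_mul, s2]; simp)] at k2
    exact absurd k2 (by decide)
  · rw [k2] at e
    exact absurd (by simpa using e) s1
  · have := weq _ _ k2.2
    rw [evw_append, evw_append, ← e, evw_cons, evw_nil, mul_one] at this
    refine ⟨d⁻¹ * evw eZ c.2, mul_mem (inv_mem hd) (inL k2.1), ?_⟩
    rw [mul_assoc d⁻¹, this]; group

theorem noD (a : Cx(eZ 3)) (ha : a.1 = eZ 0) (D : Subgroup Cx(eZ 3)) (h1 : ∀ s ∈ D, ¬ IsConj a s)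
    (h2 : Nat.card D * Nat.card Cx(a) = Nat.card Cx(eZ 3) * Nat.card (D ⊓ Cx(a) : Subgroup Cx(eZ 3))) : False := by
  let L := L0.subgroupOf Cx(eZ 3)
  have : L.Normal := (normal_subgroupOf_iff_le_normalizer Le).2 Ln
  have cL : Nat.card L = 20160 := (card_subgroupOf Le).trans cardL0
  have iL : L.index = 8 := by have := L.card_mul_index; rw [cL, M1_eq.2] at this; omega
  have aL : a ∈ L := mem_subgroupOf.2 (ha ▸ (by simpa using inL (w := [0]) (by decide)))
  have key : ∀ s ∈ L, s * s = 1 → s ≠ 1 → ∃ l ∈ L, l * a * l⁻¹ = s := fun s hs s2 s1 => by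
    obtain ⟨l, hl, e⟩ := invL hH (mem_subgroupOf.1 hs) (congrArg Subtype.val s2) fun e => s1 (Subtype.ext e)
    exact ⟨⟨l, Le hl⟩, hl, Subtype.ext (by simpa [ha] using e)⟩
  have c1 := ncard_conj_mul L a
  have c2 := ncard_class_mul a
  rw [show {b | IsConj a b} = {b | ∃ g ∈ L, g * a * g⁻¹ = b} from Set.ext fun b => ⟨fun h => by
    have h2 := sq_of_isConj h (Subtype.ext (by simpa [ha] using sq 0 (by decide)))
    have h1 := ne_one_of_isConj h fun e => a_ne (ha ▸ congrArg Subtype.val e)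
    obtain ⟨g, rfl⟩ := isConj_iff.1 h
    exact key _ (this.conj_mem a aL g) h2 h1, fun ⟨g, _, e⟩ => isConj_iff.2 ⟨g, e⟩⟩] at c2
  rw [cL, show L ⊓ Cx(a) = (L0 ⊓ Cx(eZ 0)).subgroupOf _ from Subgroup.ext fun g => and_congr_right fun _ => by
    change g ∈ Cx(a) ↔ g.1 ∈ Cx(eZ 0)
    rw [mem_Cx, mem_Cx, Subtype.ext_iff, ← ha]; rfl, card_subgroupOf (inf_le_left.trans Le), cardT0 hH] at c1
  have c3 : 315 ∣ Nat.card D := ⟨Nat.card (D ⊓ Cx(a) : Subgroup Cx(eZ 3)), Nat.eq_of_mul_eq_mul_right (Nat.card_pos (α := Cx(a))) (by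
    rw [h2, ← c2, show {b | ∃ g ∈ L, g * a * g⁻¹ = b}.ncard = 315 by omega]; ring)⟩
  have c4 := card_mul_relIndex (inf_le_right : L ⊓ D ≤ D)
  rw [inf_relIndex_right] at c4
  have c5 : 315 ∣ Nat.card (L ⊓ D : Subgroup Cx(eZ 3)) := (Nat.Coprime.coprime_dvd_right
    (iL ▸ relIndex_dvd_index_of_normal L D) (by norm_num)).dvd_of_dvd_mul_right (c4 ▸ c3)
  have c6 : Nat.card (L ⊓ D : Subgroup Cx(eZ 3)) ∣ 315 * 2 ^ 6 := (card_dvd_of_le inf_le_left).trans cL.dvd
  refine no315 (W := (L ⊓ D).map (Subgroup.subtype _)) (by rintro _ ⟨g, hg, rfl⟩; exact hg.1) ?_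
  rw [card_map_of_injective (subtype_injective _)]
  refine Nat.dvd_antisymm ((Nat.Coprime.pow_right 6 (Nat.coprime_two_right.2 ?_)).dvd_of_dvd_mul_right c6) c5
  by_contra h
  obtain ⟨s, hs⟩ := exists_prime_orderOf_dvd_card' 2 (even_iff_two_dvd.1 (Nat.not_odd_iff_even.1 h))
  obtain ⟨s2, s1⟩ := (orderOf_eq_prime_iff).1 ((orderOf_coe s).trans hs)
  obtain ⟨l, -, e⟩ := key s s.2.1 (by rw [← pow_two, s2]) s1
  exact h1 s s.2.2 (isConj_iff.2 ⟨l, e⟩)

end Sz
end CfL
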